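import Cfsg.Agent.H3.RootElements
import Cfsg.Agent.H3.Isotropic

/-!
# Frames, their fixers and block embeddings in special unitary groups
-/

set_option autoImplicit false

namespace Cfsg.Agent.H46.SUMult

open Matrix Cfsg Cfsg.Agent.H3

variable {F : Type*} [Field F] {q : ℕ} {n : ℕ}

/-- The action on vectors. -/
def sv (g : SU n F q) (x : Fin n → F) : Fin n → F := (g.1 : Matrix (Fin n) (Fin n) F) *ᵥ x

theorem sv_mul (g g' : SU n F q) (x : Fin n → F) : sv (g * g') x = sv g (sv g' x) := by
  show (((g * g').1 : SpecialLinearGroup (Fin n) F) : Matrix (Fin n) (Fin n) F) *ᵥ x = _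
  rw [Subgroup.coe_mul, Matrix.SpecialLinearGroup.coe_mul, ← Matrix.mulVec_mulVec]
  rfl

@[simp] theorem sv_one (x : Fin n → F) : sv (1 : SU n F q) x = x := by simp [sv]

theorem sv_add (g : SU n F q) (x y : Fin n → F) : sv g (x + y) = sv g x + sv g y := Matrix.mulVec_add _ _ _

theorem sv_sub (g : SU n F q) (x y : Fin n → F) : sv g (x - y) = sv g x - sv g y := Matrix.mulVec_sub _ _ _

theorem sv_smul (g : SU n F q) (c : F) (x : Fin n → F) : sv g (c • x) = c • sv g x := Matrix.mulVec_smul _ _ _

theorem sv_zero (g : SU n F q) : sv g 0 = 0 := Matrix.mulVec_zero _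

theorem sv_inv_sv (g : SU n F q) (x : Fin n → F) : sv g⁻¹ (sv g x) = x := by
  rw [← sv_mul, inv_mul_cancel, sv_one]

theorem sv_sv_inv (g : SU n F q) (x : Fin n → F) : sv g (sv g⁻¹ x) = x := by
  rw [← sv_mul, mul_inv_cancel, sv_one]

theorem sv_preserves (g : SU n F q) (x y : Fin n → F) :
    hermForm n F q (sv g x) (sv g y) = hermForm n F q x y := mem_SU_iff.1 g.2 x y

theorem sv_ext {g g' : SU n F q} (h : ∀ x, sv g x = sv g' x) : g = g' :=
  SU_ext (Matrix.ext_of_mulVec_single fun i => h _)

/-- The unit vectors. -/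
def Pt (n : ℕ) (F : Type*) [Field F] (q : ℕ) : Type _ := {v : Fin n → F // hermForm n F q v v = 1}

instance : MulAction (SU n F q) (Pt n F q) where
  smul g v := ⟨sv g v.1, by rw [sv_preserves]; exact v.2⟩
  one_smul v := Subtype.ext (sv_one _)
  mul_smul g g' v := Subtype.ext (sv_mul g g' _)

theorem smul_val (g : SU n F q) (v : Pt n F q) : (g • v).1 = sv g v.1 := rfl

/-- The pointwise fixer of a family. -/
def stabs {k : ℕ} (q : ℕ) (w : Fin k → Fin n → F) : Subgroup (SU n F q) where
  carrier := {g | ∀ i, sv g (w i) = w i}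
  one_mem' := fun i => sv_one _
  mul_mem' := fun {g g'} hg hg' i => by rw [sv_mul, hg' i, hg i]
  inv_mem' := fun {g} hg i => by
    conv_lhs => rw [← hg i]
    exact sv_inv_sv g _

theorem mem_stabs {k : ℕ} {w : Fin k → Fin n → F} {g : SU n F q} : g ∈ stabs q w ↔ ∀ i, sv g (w i) = w i :=
  Iff.rfl

theorem stabilizer_eq (v : Pt n F q) : MulAction.stabilizer (SU n F q) v = stabs q ![v.1] := by
  ext g
  rw [MulAction.mem_stabilizer_iff, mem_stabs, Fin.forall_fin_one]
  exact ⟨fun e => congrArg Subtype.val e, fun e => Subtype.ext e⟩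

variable [Fintype F] (hF : Fintype.card F = q ^ 2)

include hF

/-- An element of `GU` of determinant one. -/
theorem exists_of_det {g : GU n F q} (hg : (g.1 : Matrix (Fin n) (Fin n) F).det = 1) :
    ∃ k : SU n F q, ∀ x, sv k x = (g.1 : Matrix (Fin n) (Fin n) F) *ᵥ x := by
  have : g ∈ (suToGU n F q).range := by rw [range_suToGU]; exact Units.ext hg
  obtain ⟨k, rfl⟩ := this
  exact ⟨k, fun x => by rw [suToGU_val]; rfl⟩

/-- Transitivity on frames which are not bases. -/
theorem exists_map {k : ℕ} (hk : k < n) {w w' : Fin k → Fin n → F} (hw : Orth (hermB hF n) w)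
    (hw' : Orth (hermB hF n) w') : ∃ g : SU n F q, ∀ i, sv g (w i) = w' i := by
  classical
  have hfr : n ≤ Module.finrank F (Fin n → F) := by simp
  obtain ⟨b, hb, hbw⟩ := (isHerm_hermB hF n).exists_orth_extend hfr hk.le hw
  obtain ⟨b', hb', hbw'⟩ := (isHerm_hermB hF n).exists_orth_extend hfr hk.le hw'
  obtain ⟨g, hg⟩ := exists_GU_of_orth hF b hb
  obtain ⟨g', hg'⟩ := exists_GU_of_orth hF b' hb'
  set u := (g'.1 : Matrix (Fin n) (Fin n) F).det / (g.1 : Matrix (Fin n) (Fin n) F).det with hu
  have h1 := det_GU hF g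
  have h2 := det_GU hF g'
  have hd : ∀ i, Function.update (fun _ => (1 : F)) (⟨k, hk⟩ : Fin n) u⁻¹ i ^ (q + 1) = 1 := fun i => by
    by_cases h : i = (⟨k, hk⟩ : Fin n)
    · rw [h, Function.update_self, inv_pow, hu, div_pow, h1, h2, div_one, inv_one]
    · rw [Function.update_of_ne h, one_pow]
  set D : GU n F q := guDiag _ hd
  have hdet : ((g' * D * g⁻¹).1 : Matrix (Fin n) (Fin n) F).det = 1 := by
    have hgi : ((g⁻¹).1 : Matrix (Fin n) (Fin n) F).det * (g.1 : Matrix (Fin n) (Fin n) F).det = 1 := by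
      rw [← Matrix.det_mul, ← Units.val_mul, ← Subgroup.coe_mul, inv_mul_cancel]; simp
    have hD : (D.1 : Matrix (Fin n) (Fin n) F).det = u⁻¹ := by
      show (Matrix.diagonal _).det = _
      rw [Matrix.det_diagonal, Finset.prod_update_of_mem (Finset.mem_univ _), Finset.prod_const_one, mul_one]
    rw [Subgroup.coe_mul, Subgroup.coe_mul, Units.val_mul, Units.val_mul, Matrix.det_mul, Matrix.det_mul, hD, hu]
    have h0 : (g.1 : Matrix (Fin n) (Fin n) F).det ≠ 0 := fun e => by simp [e] at h1
    have h0' : (g'.1 : Matrix (Fin n) (Fin n) F).det ≠ 0 := fun e => by simp [e] at h2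
    field_simp
    linear_combination hgi
  obtain ⟨m, hm⟩ := exists_of_det hF hdet
  refine ⟨m, fun i => ?_⟩
  rw [hm, ← hbw i, ← hg (Fin.castLE hk.le i), ← hbw' i, ← hg' (Fin.castLE hk.le i)]
  rw [Subgroup.coe_mul, Subgroup.coe_mul, Units.val_mul, Units.val_mul, ← Matrix.mulVec_mulVec, ← Matrix.mulVec_mulVec,
    inv_mulVec_GU]
  congr 1
  have hne : Fin.castLE hk.le i ≠ (⟨k, hk⟩ : Fin n) := fun e => by
    have := congrArg Fin.val e
    simp at this
    omega
  show Matrix.diagonal _ *ᵥ _ = _
  rw [Matrix.diagonal_mulVec_single, Function.update_of_ne hne, one_mul]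

theorem exists_map_pt (hn : 2 ≤ n) (v w : Pt n F q) : ∃ g : SU n F q, g • v = w := by
  have ho : ∀ u : Pt n F q, Orth (hermB hF n) ![u.1] := fun u i j => by
    fin_cases i; fin_cases j; simp [u.2]
  obtain ⟨g, hg⟩ := exists_map hF (by omega : 1 < n) (ho v) (ho w)
  exact ⟨g, Subtype.ext (hg 0)⟩

variable {m k : ℕ}

/-- The block embedding. -/
noncomputable def blk (a b : ℕ) : SU a F q × SU b F q →* SU (a + b) F q :=
  (suEquivKer (a + b) F q).symm.toMonoidHom.comp
    (((guBlock a b).comp ((suToGU a F q).prodMap (suToGU b F q))).codRestrict _ fun p => Units.ext (by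
      show ((guBlock a b (suToGU a F q p.1, suToGU b F q p.2)).1 : Matrix (Fin (a + b)) (Fin (a + b)) F).det = 1
      show (glBlock a b ((suToGU a F q p.1).1, (suToGU b F q p.2).1) : Matrix (Fin (a + b)) (Fin (a + b)) F).det = 1
      rw [det_glBlock, suToGU_val, suToGU_val, p.1.1.2, p.2.1.2, one_mul]))

omit hF in
theorem sv_blk {a b : ℕ} (p : SU a F q × SU b F q) (u : Fin a → F) (v : Fin b → F) :
    sv (blk a b p) (Fin.append u v) = Fin.append (sv p.1 u) (sv p.2 v) :=
  guBlock_mulVec (suToGU a F q p.1, suToGU b F q p.2) u v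

omit hF in
theorem blk_injective (a b : ℕ) : Function.Injective (blk (F := F) (q := q) a b) := fun p p' h => by
  have key : ∀ u v, Fin.append (sv p.1 u) (sv p.2 v) = Fin.append (sv p'.1 u) (sv p'.2 v) := fun u v => by
    rw [← sv_blk, ← sv_blk, h]
  refine Prod.ext (sv_ext fun u => funext fun i => ?_) (sv_ext fun v => funext fun i => ?_)
  · simpa using congrFun (key u 0) (Fin.castAdd b i)
  · simpa using congrFun (key 0 v) (Fin.natAdd a i)

/-- The embedding fixing the last coordinates. -/
noncomputable def emb (m k : ℕ) : SU m F q →* SU (m + k) F q :=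
  (blk m k).comp (MonoidHom.inl _ _)

omit hF in
theorem emb_injective : Function.Injective (emb (F := F) (q := q) m k) :=
  (blk_injective m k).comp fun a b h => congrArg Prod.fst h

/-- The last coordinate vectors. -/
def tail (m k : ℕ) (F : Type*) [Field F] : Fin k → Fin (m + k) → F := fun i => Pi.single (Fin.natAdd m i) 1

omit hF in
theorem tail_eq (i : Fin k) : tail m k F i = Fin.append (0 : Fin m → F) (Pi.single i 1) :=
  funext (Fin.addCases (fun j => by simp [tail, Pi.single_apply, Fin.ext_iff]; omega)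
    (fun j => by simp [tail, Pi.single_apply, Fin.ext_iff]))

theorem orth_tail : Orth (hermB hF (m + k)) (tail m k F) := fun i j => by
  have := orth_single hF (m + k) (Fin.natAdd m i) (Fin.natAdd m j)
  simpa [tail, Fin.natAdd_inj] using this

theorem range_emb : (emb (F := F) (q := q) m k).range = stabs q (tail m k F) := by
  classical
  ext g
  constructor
  · rintro ⟨a, rfl⟩ i
    rw [tail_eq, show emb m k a = blk m k (a, 1) from rfl, sv_blk, sv_one, sv_zero]
  · intro hg
    set g' := suToGU (m + k) F q g with hg'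
    have hg'v : ∀ x, (g'.1 : Matrix (Fin (m + k)) (Fin (m + k)) F) *ᵥ x = sv g x := fun x => by
      rw [hg', suToGU_val]; rfl
    obtain ⟨⟨a, d⟩, hp⟩ := exists_guBlock_eq hF g' fun u => by
      refine ⟨fun i => sv g (Fin.append u 0) (Fin.castAdd k i), ?_⟩
      rw [hg'v]
      refine funext (Fin.addCases (fun i => by simp) fun i => ?_)
      have h := sv_preserves g (Fin.append u (0 : Fin k → F)) (tail m k F i)
      rw [hg i, tail_eq, hermForm_append, hermForm_zero_right hF, hermForm_zero_left hF, add_zero,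
        ← Fin.append_castAdd_natAdd (f := sv g (Fin.append u (0 : Fin k → F))), hermForm_append,
        hermForm_zero_right hF, zero_add, ← hermForm_pow_q hF, hermForm_single_left, one_mul,
        pow_q_pow_q hF] at h
      simpa using h
    have hd : d = 1 := GU_ext fun x => by
      refine LinearMap.congr_fun (f := (d.1 : Matrix (Fin k) (Fin k) F).toLin')
        (g := ((1 : GU k F q).1 : Matrix (Fin k) (Fin k) F).toLin') ((Pi.basisFun F (Fin k)).ext fun i => ?_) x
      have h := (hg'v (tail m k F i)).trans (hg i)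
      rw [tail_eq, ← hp, guBlock_mulVec] at h
      funext j
      simpa using congrFun h (Fin.natAdd m j)
    subst hd
    have hdet : (a.1 : Matrix (Fin m) (Fin m) F).det = 1 := by
      have h1 : (g'.1 : Matrix (Fin (m + k)) (Fin (m + k)) F).det = 1 := g.1.2
      rw [← hp, show ((guBlock m k (a, (1 : GU k F q))).1 : Matrix (Fin (m + k)) (Fin (m + k)) F)
        = glBlock m k (a.1, (1 : GL (Fin k) F)) from rfl, det_glBlock] at h1
      simpa using h1
    obtain ⟨a', ha'⟩ := exists_of_det hF hdet
    refine ⟨a', sv_ext fun x => ?_⟩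
    rw [← Fin.append_castAdd_natAdd (f := x), show emb m k a' = blk m k (a', 1) from rfl, sv_blk, sv_one, ha',
      ← hg'v, ← hp, guBlock_mulVec]
    simp

/-- The fixer of a frame is a special unitary group. -/
theorem exists_stabs (hm : 1 ≤ m) {w : Fin k → Fin (m + k) → F} (hw : Orth (hermB hF (m + k)) w) :
    ∃ f : SU m F q →* SU (m + k) F q, Function.Injective f ∧ f.range = stabs q w := by
  obtain ⟨g, hg⟩ := exists_map hF (by omega) (orth_tail hF) hw
  refine ⟨(MulAut.conj g).toMonoidHom.comp (emb m k), (MulAut.conj g).injective.comp emb_injective, ?_⟩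
  rw [MonoidHom.range_comp, range_emb hF]
  ext x
  constructor
  · rintro ⟨y, hy, rfl⟩ i
    show sv (g * y * g⁻¹) (w i) = w i
    rw [sv_mul, sv_mul, ← hg i, sv_inv_sv, hy i]
  · intro hx
    refine ⟨g⁻¹ * x * g, fun i => ?_, by simp [mul_assoc]⟩
    rw [sv_mul, sv_mul, hg i, hx i, ← hg i, sv_inv_sv]

/-- Fixers of frames are perfect when the smaller group is. -/
theorem stabs_perfect {n k : ℕ} (hk : k < n) (hp : commutator (SU (n - k) F q) = ⊤) {w : Fin k → Fin n → F}
    (hw : Orth (hermB hF n) w) : ⁅stabs q w, stabs q w⁆ = stabs q w := by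
  obtain ⟨m, rfl⟩ : ∃ m, n = m + k := ⟨n - k, by omega⟩
  rw [Nat.add_sub_cancel] at hp
  obtain ⟨f, -, hf⟩ := exists_stabs hF (by omega) hw
  rw [← hf, MonoidHom.range_eq_map, ← Subgroup.map_commutator, ← commutator_def, hp]

/-- The diagonal elements. -/
theorem exists_diag (d : Fin n → F) (hd : ∀ i, d i ^ (q + 1) = 1) (hp : ∏ i, d i = 1) :
    ∃ g : SU n F q, ∀ x i, sv g x i = d i * x i := by
  obtain ⟨g, hg⟩ := exists_of_det hF (g := guDiag d hd) (by
    show (Matrix.diagonal d).det = 1
    rw [Matrix.det_diagonal, hp])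
  exact ⟨g, fun x i => by rw [hg]; exact Matrix.mulVec_diagonal _ _ _⟩

omit hF in
/-- Group elements are determined by their values on the coordinate vectors. -/
theorem eq_one_of_single {g : SU n F q} (h : ∀ i, sv g (Pi.single i 1) = Pi.single i 1) : g = 1 :=
  SU_ext (Matrix.ext_of_mulVec_single fun i => (h i).trans (sv_one (q := q) _).symm)

end Cfsg.Agent.H46.SUMult
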