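import Cfsg.Agent.H46.SUMult.Reduce
import Cfsg.Agent.H21.Complement
import Cfsg.Agent.H85.OddCyclic

/-!
# Odd primes dividing the order of `SU n` but not that of `SU (n - 1)`
-/

set_option autoImplicit false

namespace Cfsg.Agent.H46.SUMult

open Matrix Cfsg Cfsg.Agent.H3
open Cfsg.Agent.H82.Orth (dpre)

universe u

variable {F : Type u} [Field F] [Fintype F] {q n : ℕ} (hF : Fintype.card F = q ^ 2)

include hF

/-- An element of order prime to the characteristic with a fixed vector fixes a unit vector. -/
theorem exists_fixed_pt {g : SU n F q} {k : ℕ} (hg : g ^ k = 1) (hk : (k : F) ≠ 0) {x : Fin n → F} (hx0 : x ≠ 0)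
    (hx : sv g x = x) : ∃ v : Pt n F q, g • v = v := by
  classical
  by_cases hxx : hermForm n F q x x = 0
  · obtain ⟨i, hi⟩ : ∃ i, x i ≠ 0 := Function.ne_iff.1 hx0
    set w : Fin n → F := (x i ^ q)⁻¹ • Pi.single i 1 with hw
    have hwx : hermForm n F q w x = 1 := by
      rw [hw, hermForm_smul_left hF, hermForm_single_left, one_mul, inv_mul_cancel₀ (pow_ne_zero _ hi)]
    have hfix : ∀ j : ℕ, sv (g ^ j) x = x := by
      intro j
      induction j with
      | zero => simp
      | succ j ih => rw [pow_succ, sv_mul, hx, ih]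
    set s : Fin n → F := ∑ j ∈ Finset.range k, sv (g ^ j) w with hs
    have hgs : sv g s = s := by
      rw [hs, show sv g (∑ j ∈ Finset.range k, sv (g ^ j) w) = ∑ j ∈ Finset.range k, sv g (sv (g ^ j) w) from
        map_sum (Matrix.mulVecLin (g.1 : Matrix (Fin n) (Fin n) F)) _ _]
      simp only [← sv_mul, ← pow_succ']
      have h1 := Finset.sum_range_succ (fun j => sv (g ^ j) w) k
      rw [Finset.sum_range_succ' (fun j => sv (g ^ j) w) k, hg, pow_zero] at h1
      exact add_right_cancel h1
    have hsx : hermForm n F q s x = (k : F) := by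
      have hsum : ∀ t : Finset ℕ, hermForm n F q (∑ j ∈ t, sv (g ^ j) w) x = (t.card : F) := by
        intro t
        induction t using Finset.induction_on with
        | empty => simp [hermForm_zero_left hF]
        | insert a t ha ih =>
          rw [Finset.sum_insert ha, hermForm_add_left hF, ih, Finset.card_insert_of_notMem ha]
          have h1 := sv_preserves (g ^ a) w x
          rw [hfix a, hwx] at h1
          rw [h1]
          push_cast
          ring
      rw [hs, hsum, Finset.card_range]
    set w' : Fin n → F := (k : F)⁻¹ • s with hw'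
    have hw'x : hermForm n F q w' x = 1 := by
      rw [hw', hermForm_smul_left hF, hsx, inv_mul_cancel₀ hk]
    have hxw' : hermForm n F q x w' = 1 := by
      rw [← hermForm_pow_q hF, hw'x, one_pow]
    obtain ⟨a, ha⟩ := exists_trace_eq hF (a := 1 - hermForm n F q w' w') (by
      rw [← conjQ_apply hF, map_sub, map_one, conjQ_apply, hermForm_pow_q hF])
    refine ⟨⟨a • x + w', ?_⟩, Subtype.ext ?_⟩
    · simp only [hermForm_add_left hF, hermForm_add_right hF, hermForm_smul_left hF, hermForm_smul_right hF, hxx,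
        hw'x, hxw']
      linear_combination ha
    · show sv g (a • x + w') = a • x + w'
      rw [sv_add, sv_smul, hx, hw', sv_smul, hgs]
  · obtain ⟨c, hc⟩ := (isHerm_hermB hF n).exists_smul_self_eq_one (v := x) (by simpa using hxx)
    exact ⟨⟨c • x, by simpa [hermForm_smul_left hF, hermForm_smul_right hF, mul_assoc] using hc.2⟩, Subtype.ext (by show sv g (c • x) = c • x; rw [sv_smul, hx])⟩

/-- Elements fixing a vector have order dividing `|SU (n - 1)|`. -/
theorem pow_card_eq_one_of_fixed {m k : ℕ} (hm : 1 ≤ m) {g : SU (m + 1) F q} (hg : g ^ k = 1) (hk : (k : F) ≠ 0)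
    {x : Fin (m + 1) → F} (hx0 : x ≠ 0) (hx : sv g x = x) : g ^ Nat.card (SU m F q) = 1 := by
  obtain ⟨v, hv⟩ := exists_fixed_pt hF hg hk hx0 hx
  have ho : Orth (hermB hF (m + 1)) ![v.1] := fun i j => by
    fin_cases i; fin_cases j; simp [v.2]
  obtain ⟨f, -, hf⟩ := exists_stabs hF hm ho
  obtain ⟨g', rfl⟩ : g ∈ f.range := by
    rw [hf, ← stabilizer_eq]; exact hv
  rw [← map_pow, pow_card_eq_one', map_one]

/-- For an odd prime not dividing `|SU (n - 1)|`, the Sylow subgroups of `SU n` are cyclic. -/
theorem isCyclic_of_not_dvd {m r p : ℕ} [Fact r.Prime] [Fact p.Prime] [CharP F p] (hm : 1 ≤ m) (hr2 : r ≠ 2)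
    (hrp : r ≠ p) (hnd : ¬ r ∣ Nat.card (SU m F q)) {S : Subgroup (SU (m + 1) F q)} (hS : IsPGroup r S) :
    IsCyclic S := by
  let ψ : S →* MulAut (Multiplicative (Fin (m + 1) → F)) :=
    { toFun := fun g =>
        { toFun := fun x => Multiplicative.ofAdd (sv g.1 x.toAdd)
          invFun := fun x => Multiplicative.ofAdd (sv g.1⁻¹ x.toAdd)
          left_inv := fun x => by simp [sv_inv_sv]
          right_inv := fun x => by simp [sv_sv_inv]
          map_mul' := fun x y => by simp [sv_add] }
      map_one' := MulEquiv.ext fun x => by simp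
      map_mul' := fun g g' => MulEquiv.ext fun x => by simp [sv_mul] }
  refine Cfsg.Agent.H85.isCyclic_of_unique_order_p hr2 hS fun a b ha hb => ?_
  have hfpf : ∀ e : S, e ≠ 1 → ∀ x, ψ e x = x → x = 1 := by
    intro e he x hx
    by_contra hne
    obtain ⟨j, hj⟩ := hS e
    have hj' : e.1 ^ r ^ j = 1 := by simpa using congrArg Subtype.val hj
    have h1 := pow_card_eq_one_of_fixed hF hm hj' (k := r ^ j) (by
        push_cast
        refine pow_ne_zero _ fun h0 => hrp ?_
        rw [CharP.cast_eq_zero_iff F p] at h0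
        exact ((Nat.prime_dvd_prime_iff_eq Fact.out Fact.out).1 h0).symm)
      (x := x.toAdd) (fun h => hne (Multiplicative.toAdd.injective h)) (congrArg Multiplicative.toAdd hx)
    have h2 := pow_gcd_eq_one.2 (And.intro hj' h1)
    rw [((Fact.out : r.Prime).coprime_iff_not_dvd.2 hnd).pow_left j, pow_one] at h2
    exact he (Subtype.ext h2)
  haveI : Nontrivial (Multiplicative (Fin (m + 1) → F)) := Multiplicative.ofAdd.injective.nontrivial
  have := Cfsg.Agent.H21.unique_subgroup_of_fpf hS ψ hfpf (Subgroup.zpowers a) (Subgroup.zpowers b)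
    (by rw [Nat.card_zpowers, ha]) (by rw [Nat.card_zpowers, hb])
  exact this ▸ Subgroup.mem_zpowers b

/-- The multiplier at such a prime. -/
theorem kill_top {m r p : ℕ} [Fact r.Prime] [Fact p.Prime] [CharP F p] (hm : 1 ≤ m) (hr2 : r ≠ 2)
    (hrp : r ≠ p) (hnd : ¬ r ∣ Nat.card (SU m F q)) : Kill r (SU (m + 1) F q) := by
  intro Γ _ _ σ hs hc S hS
  haveI := isCyclic_of_not_dvd hF hm hr2 hrp hnd hS
  exact good_of_isCyclic hs hc S

end Cfsg.Agent.H46.SUMult
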