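import Cfsg.Agent.H46.SUMult.Orthog
import Cfsg.Agent.H82.Orth.Covering
import Cfsg.Agent.H82.Mult
import Cfsg.Agent.H64.StemBasic

/-!
# From `SU (n - 1)` to `SU n`
-/

set_option autoImplicit false

namespace Cfsg.Agent.H46.SUMult

open Matrix Cfsg Cfsg.Agent.H3
open Cfsg.Agent.H82.Orth (Step)

universe u

variable {F : Type u} [Field F] [Fintype F] {q : ℕ} (hF : Fintype.card F = q ^ 2)

include hF

theorem orth_pair {n : ℕ} {a b : Fin n → F} (ha : hermForm n F q a a = 1) (hb : hermForm n F q b b = 1)
    (hab : hermForm n F q a b = 0) : Orth (hermB hF n) ![a, b] := fun i j => by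
  have hba := (hermForm_eq_zero_comm hF).1 hab
  fin_cases i <;> fin_cases j <;> simp [ha, hb, hab, hba]

theorem orth_triple {n : ℕ} {a b c : Fin n → F} (ha : hermForm n F q a a = 1) (hb : hermForm n F q b b = 1)
    (hc : hermForm n F q c c = 1) (hab : hermForm n F q a b = 0) (hac : hermForm n F q a c = 0)
    (hbc : hermForm n F q b c = 0) : Orth (hermB hF n) ![a, b, c] := fun i j => by
  have hba := (hermForm_eq_zero_comm hF).1 hab
  have hca := (hermForm_eq_zero_comm hF).1 hac
  have hcb := (hermForm_eq_zero_comm hF).1 hbc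
  fin_cases i <;> fin_cases j <;> simp [ha, hb, hc, hab, hac, hbc, hba, hca, hcb]

/-- Scalars fixed by `x ↦ x ^ q` away from `0` and `-1`, with a fixed field of size at least three. -/
theorem exists_fixed_ne (hq : 3 ≤ q) : ∃ s : F, s ^ q = s ∧ s ≠ 0 ∧ 1 + s ≠ 0 := by
  classical
  by_contra h
  push Not at h
  have hsub : Nat.card {x : F // x ^ q = x} ≤ Nat.card ↥({0, -1} : Finset F) :=
    Nat.card_le_card_of_injective (fun x => ⟨x.1, by
      by_cases h0 : x.1 = 0
      · simp [h0]
      · rw [Finset.mem_insert, Finset.mem_singleton]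
        exact Or.inr (by linear_combination h x.1 x.2 h0)⟩) fun a b e => Subtype.ext (congrArg (fun z => z.1) e)
  rw [card_fixed hF, Nat.card_eq_fintype_card, Fintype.card_coe] at hsub
  have := hsub.trans Finset.card_le_two
  omega

/-- The covering step. -/
theorem mult_one_succ {m : ℕ} (hm : 4 ≤ m) (h2 : q = 2 → 7 ≤ m) (h3 : q = 3 → 5 ≤ m)
    (hone : Cfsg.HasCyclicSchurMultiplier (SU m F q) 1) : Cfsg.HasCyclicSchurMultiplier (SU (m + 1) F q) 1 := by
  classical
  have hq2 := two_le_q hF
  have hp1 : commutator (SU (m + 1 - 1) F q) = ⊤ := commutator_SU_eq_top hF (by omega) (by omega)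
  have hp2 : commutator (SU (m + 1 - 2) F q) = ⊤ := commutator_SU_eq_top hF (by omega) (by omega)
  have hst1 : ∀ v : Pt (m + 1) F q, Orth (hermB hF (m + 1)) ![v.1] := fun v i j => by
    fin_cases i; fin_cases j; simp [v.2]
  have hstab : ∀ v : Pt (m + 1) F q,
      ⁅MulAction.stabilizer (SU (m + 1) F q) v, MulAction.stabilizer (SU (m + 1) F q) v⁆ =
        MulAction.stabilizer (SU (m + 1) F q) v := fun v => by
    rw [stabilizer_eq]; exact stabs_perfect hF (by omega) hp1 (hst1 v)
  have hinf : ∀ a b : Pt (m + 1) F q, MulAction.stabilizer (SU (m + 1) F q) a ⊓ MulAction.stabilizer (SU (m + 1) F q) b =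
      stabs q ![a.1, b.1] := fun a b => by
    ext g
    rw [Subgroup.mem_inf, stabilizer_eq, stabilizer_eq, mem_stabs, mem_stabs, mem_stabs, Fin.forall_fin_one,
      Fin.forall_fin_one, Fin.forall_fin_two]
    exact Iff.rfl
  set v₀ : Pt (m + 1) F q := ⟨Pi.single 0 1, by simp [hermForm_single_left]⟩ with hv₀
  set G := SU (m + 1) F q
  set C : Pt (m + 1) F q → Pt (m + 1) F q → Prop := fun v u =>
    hermForm (m + 1) F q v₀.1 u.1 = 0 ∧ hermForm (m + 1) F q v.1 u.1 = 0 with hC
  -- a unit vector orthogonal to given vectors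
  have hfind : ∀ {k j : ℕ} (w : Fin k → Fin (m + 1) → F) (e : Fin j → Fin (m + 1) → F),
      Orth (hermB hF (m + 1)) e → (∀ i, ∃ l, w l = e i) → 2 * k < m + 1 + j →
      ∃ u : Pt (m + 1) F q, ∀ i, hermForm (m + 1) F q (w i) u.1 = 0 := fun w e he hmem h => by
    obtain ⟨u, hu⟩ := exists_unit_orth hF w e he hmem h
    exact ⟨u, fun i => (hermForm_eq_zero_comm hF).1 (hu i)⟩
  -- non-degenerate or proportional auxiliary points give a step
  have hstep : ∀ v a b : Pt (m + 1) F q, C v a → C v b →
      (hermForm (m + 1) F q b.1 a.1 ^ (q + 1) ≠ 1 ∨ ∃ l : F, b.1 = l • a.1) → Step G v₀ v C a b := by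
    intro v a b ha hb hab
    refine ⟨ha, hb, ?_⟩
    have ha0 := (hermForm_eq_zero_comm hF).1 ha.1
    have hav := (hermForm_eq_zero_comm hF).1 ha.2
    by_cases hl : ∃ l : F, b.1 = l • a.1
    · obtain ⟨l, hl⟩ := hl
      have hle : MulAction.stabilizer G a ≤ MulAction.stabilizer G b := fun g hg => by
        rw [MulAction.mem_stabilizer_iff] at hg ⊢
        refine Subtype.ext ?_
        rw [smul_val, hl, sv_smul, ← smul_val, hg]
      rw [inf_eq_left.2 hle, hstab]
      obtain ⟨g, hg⟩ := exists_map hF (by omega : 2 < m + 1) (orth_pair hF a.2 v₀.2 ha0) (orth_pair hF a.2 v.2 hav)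
      exact ⟨g, Subtype.ext (hg 0), Subtype.ext (hg 1)⟩
    · have hN := hab.resolve_right hl
      set β := hermForm (m + 1) F q b.1 a.1 with hβ
      set w := b.1 - β • a.1 with hw
      have hab' : hermForm (m + 1) F q a.1 b.1 = β ^ q := (hermForm_pow_q hF b.1 a.1).symm
      have hwa : hermForm (m + 1) F q w a.1 = 0 := by
        rw [hw, hermForm_sub_left hF, hermForm_smul_left hF, a.2, mul_one, ← hβ, sub_self]
      have hww : hermForm (m + 1) F q w w = 1 - β ^ (q + 1) := by
        rw [hw, hermForm_sub_left hF, hermForm_sub_right hF, hermForm_sub_right hF, hermForm_smul_left hF,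
          hermForm_smul_left hF, hermForm_smul_right hF, hermForm_smul_right hF, b.2, a.2, hab', ← hβ, pow_succ]
        ring
      obtain ⟨c, hc⟩ := (isHerm_hermB hF (m + 1)).exists_smul_self_eq_one (v := w)
        (by rw [hermB_apply, hww]; exact sub_ne_zero.2 (Ne.symm hN))
      have hc0 : c ≠ 0 := hc.1
      set b' : Pt (m + 1) F q := ⟨c • w, by simpa [hermForm_smul_left hF, hermForm_smul_right hF, mul_assoc] using hc.2⟩
        with hb'
      have hb'0 : hermForm (m + 1) F q b'.1 v₀.1 = 0 := by
        show hermForm (m + 1) F q (c • w) v₀.1 = 0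
        rw [hermForm_smul_left hF, hw, hermForm_sub_left hF, hermForm_smul_left hF, ha0,
          (hermForm_eq_zero_comm hF).1 hb.1]
        ring
      have hb'v : hermForm (m + 1) F q b'.1 v.1 = 0 := by
        show hermForm (m + 1) F q (c • w) v.1 = 0
        rw [hermForm_smul_left hF, hw, hermForm_sub_left hF, hermForm_smul_left hF, hav,
          (hermForm_eq_zero_comm hF).1 hb.2]
        ring
      have hab'' : hermForm (m + 1) F q a.1 b'.1 = 0 := (hermForm_eq_zero_comm hF).1 (by
        show hermForm (m + 1) F q (c • w) a.1 = 0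
        rw [hermForm_smul_left hF, hwa, mul_zero])
      obtain ⟨g, hg⟩ := exists_map hF (by omega : 3 < m + 1) (orth_triple hF a.2 b'.2 v₀.2 hab'' ha0 hb'0)
        (orth_triple hF a.2 b'.2 v.2 hab'' hav hb'v)
      have hgmem : g ∈ stabs q ![a.1, b'.1] := fun i => by
        fin_cases i
        · exact hg 0
        · exact hg 1
      have hle : stabs q ![a.1, b'.1] ≤ MulAction.stabilizer G a ⊓ MulAction.stabilizer G b := by
        intro k hk
        have hk0 : sv k a.1 = a.1 := hk 0
        have hk1 : sv k (c • w) = c • w := hk 1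
        refine ⟨Subtype.ext hk0, Subtype.ext ?_⟩
        show sv k b.1 = b.1
        have hw' : sv k w = w := by
          rw [sv_smul] at hk1
          exact smul_right_injective _ hc0 hk1
        rw [hw, sv_sub, sv_smul, hk0] at hw'
        exact sub_left_injective hw'
      refine ⟨g, Subgroup.commutator_mono hle hle ?_, Subtype.ext (hg 2)⟩
      rw [stabs_perfect hF (by omega) hp2 (orth_pair hF a.2 b'.2 hab'')]
      exact hgmem
  refine Cfsg.Agent.H64.hasCyclicSchurMultiplier_one fun {Γ} _ _ σ hσ r hr hd => ?_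
  have hperf : commutator Γ = ⊤ := by
    rw [eq_top_iff]
    intro x _
    have hx : σ x ∈ (commutator Γ).map σ := by
      rw [Cfsg.Agent.H82.map_commutator_of_surjective hσ.1, commutator_SU_eq_top hF (by omega) (by omega)]
      exact Subgroup.mem_top _
    obtain ⟨y, hy, hxy⟩ := hx
    have hk : x * y⁻¹ ∈ σ.ker := by rw [MonoidHom.mem_ker, map_mul, map_inv, hxy, mul_inv_cancel]
    have := mul_mem (hσ.2.2 hk) hy
    rwa [inv_mul_cancel_right] at this
  have hker : σ.ker ≤ Cfsg.Agent.H82.Orth.dpre σ (MulAction.stabilizer G v₀) := by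
    refine Cfsg.Agent.H82.Orth.ker_le_dpre hσ.1 hσ.2.1 hperf v₀ C (fun v => exists_map_pt hF (by omega) v₀ v)
      (fun v => ?_) (fun v u hu => ?_) (fun v u hu => ?_) (fun v u u' hu hu' => ?_) (fun h hh v u hu => ?_)
      {x : G | ∃ (z : Fin (m + 1) → F) (c : F), hermForm (m + 1) F q z z = 0 ∧ hermForm (m + 1) F q v₀.1 z ≠ 0 ∧
        (x.1 : Matrix (Fin (m + 1)) (Fin (m + 1)) F) = unitaryTransvection (m + 1) q z c} ?_ (fun x hx => ?_) (hstab v₀)
    · obtain ⟨u, hu⟩ := hfind ![v₀.1, v.1] ![v₀.1] (hst1 v₀) (fun i => ⟨0, by fin_cases i; rfl⟩) (by omega)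
      exact ⟨u, hu 0, hu 1⟩
    · rw [hstab]
      obtain ⟨g, hg⟩ := exists_map hF (by omega : 2 < m + 1)
        (orth_pair hF u.2 v₀.2 ((hermForm_eq_zero_comm hF).1 hu.1))
        (orth_pair hF u.2 v.2 ((hermForm_eq_zero_comm hF).1 hu.2))
      exact ⟨g, Subtype.ext (hg 0), Subtype.ext (hg 1)⟩
    · rw [hinf]
      exact stabs_perfect hF (by omega) hp2 (orth_pair hF u.2 v₀.2 ((hermForm_eq_zero_comm hF).1 hu.1))
    · by_cases hcase : hermForm (m + 1) F q u'.1 u.1 ^ (q + 1) ≠ 1 ∨ ∃ l : F, u'.1 = l • u.1
      · exact Relation.EqvGen.rel _ _ (hstep v u u' hu hu' hcase)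
      push Not at hcase
      have horth := orth_pair hF v₀.2 u.2 hu.1
      have hmove : ∀ c : Pt (m + 1) F q, C v c → hermForm (m + 1) F q c.1 u.1 ^ (q + 1) ≠ 1 →
          hermForm (m + 1) F q u'.1 c.1 ^ (q + 1) ≠ 1 → Relation.EqvGen (Step G v₀ v C) u u' := fun c hc h h' =>
        (Relation.EqvGen.rel _ _ (hstep v u c hu hc (Or.inl h))).trans _ _ _
          (Relation.EqvGen.rel _ _ (hstep v c u' hc hu' (Or.inl h')))
      obtain ⟨c, hc⟩ := hfind ![v₀.1, v.1, u.1] ![v₀.1, u.1] horth (fun i => by
        fin_cases i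
        · exact ⟨0, rfl⟩
        · exact ⟨2, rfl⟩) (by omega)
      have hcC : C v c := ⟨hc 0, hc 1⟩
      have hcu : hermForm (m + 1) F q c.1 u.1 = 0 := (hermForm_eq_zero_comm hF).1 (hc 2)
      by_cases hc' : hermForm (m + 1) F q u'.1 c.1 ^ (q + 1) ≠ 1
      · exact hmove c hcC (by rw [hcu, zero_pow (Nat.succ_ne_zero q)]; exact zero_ne_one) hc'
      push Not at hc'
      rcases le_or_gt 3 q with hq3 | hq3
      · obtain ⟨s, hs, hs0, hs1⟩ := exists_fixed_ne hF hq3
        set β := hermForm (m + 1) F q u'.1 u.1 with hβ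
        set γ := hermForm (m + 1) F q u'.1 c.1 with hγ
        set w := u'.1 - β • u.1 with hw
        have hγ0 : γ ≠ 0 := fun e => by rw [e, zero_pow (Nat.succ_ne_zero q)] at hc'; exact zero_ne_one hc'
        have huu' : hermForm (m + 1) F q u.1 u'.1 = β ^ q := (hermForm_pow_q hF u'.1 u.1).symm
        have hwu : hermForm (m + 1) F q w u.1 = 0 := by
          rw [hw, hermForm_sub_left hF, hermForm_smul_left hF, u.2, mul_one, ← hβ, sub_self]
        have hww : hermForm (m + 1) F q w w = 0 := by
          rw [hw, hermForm_sub_left hF, hermForm_sub_right hF, hermForm_sub_right hF, hermForm_smul_left hF,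
            hermForm_smul_left hF, hermForm_smul_right hF, hermForm_smul_right hF, u'.2, u.2, huu', ← hβ]
          have := hcase.1
          rw [pow_succ] at this
          linear_combination -this
        have hwc : hermForm (m + 1) F q w c.1 = γ := by
          rw [hw, hermForm_sub_left hF, hermForm_smul_left hF, (hermForm_eq_zero_comm hF).1 hcu, mul_zero, sub_zero]
        obtain ⟨t₀, ht₀⟩ := exists_trace_eq hF hs
        set t := t₀ / γ with ht
        set c' := c.1 + t • w with hc'def
        have hcw : hermForm (m + 1) F q c.1 w = γ ^ q := by rw [← hwc, hermForm_pow_q hF]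
        have hcc : hermForm (m + 1) F q c' c' = 1 + s := by
          have h1 : t * γ = t₀ := div_mul_cancel₀ _ hγ0
          have h2 : t ^ q * γ ^ q = t₀ ^ q := by rw [← mul_pow, h1]
          rw [hc'def, hermForm_add_left hF, hermForm_add_right hF, hermForm_add_right hF, hermForm_smul_left hF,
            hermForm_smul_left hF, hermForm_smul_right hF, hermForm_smul_right hF, c.2, hwc, hcw, hww]
          linear_combination h1 + h2 + ht₀
        obtain ⟨l, hl⟩ := (isHerm_hermB hF (m + 1)).exists_smul_self_eq_one (v := c') (by rw [hermB_apply, hcc]; exact hs1)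
        set d : Pt (m + 1) F q := ⟨l • c', by simpa [hermForm_smul_left hF, hermForm_smul_right hF, mul_assoc] using hl.2⟩
          with hd'
        have hwv0 : hermForm (m + 1) F q v₀.1 w = 0 := by
          rw [hw, hermForm_sub_right hF, hermForm_smul_right hF, hu'.1, hu.1, mul_zero, sub_zero]
        have hwv : hermForm (m + 1) F q v.1 w = 0 := by
          rw [hw, hermForm_sub_right hF, hermForm_smul_right hF, hu'.2, hu.2, mul_zero, sub_zero]
        refine hmove d ⟨?_, ?_⟩ ?_ ?_
        · show hermForm (m + 1) F q v₀.1 (l • c') = 0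
          rw [hermForm_smul_right hF, hc'def, hermForm_add_right hF, hermForm_smul_right hF, hwv0,
            show hermForm (m + 1) F q v₀.1 c.1 = 0 from hc 0]
          ring
        · show hermForm (m + 1) F q v.1 (l • c') = 0
          rw [hermForm_smul_right hF, hc'def, hermForm_add_right hF, hermForm_smul_right hF, hwv,
            show hermForm (m + 1) F q v.1 c.1 = 0 from hc 1]
          ring
        · show hermForm (m + 1) F q (l • c') u.1 ^ (q + 1) ≠ 1
          rw [hermForm_smul_left hF, hc'def, hermForm_add_left hF, hcu, hermForm_smul_left hF, hwu, mul_zero, add_zero,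
            mul_zero, zero_pow (Nat.succ_ne_zero q)]
          exact zero_ne_one
        · show hermForm (m + 1) F q u'.1 (l • c') ^ (q + 1) ≠ 1
          have h' : hermForm (m + 1) F q u'.1 c' = γ := by
            rw [hc'def, hermForm_add_right hF, hermForm_smul_right hF, ← hγ,
              show u'.1 = w + β • u.1 by rw [hw, sub_add_cancel], hermForm_add_left hF, hermForm_smul_left hF, hww,
              (hermForm_eq_zero_comm hF).1 hwu]
            ring
          rw [hermForm_smul_right hF, h', mul_pow, hc', mul_one, ← pow_mul]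
          intro e
          have hl2 : l ^ (q + 1) * (1 + s) = 1 := by
            have := hl.2
            simp only [hermB_apply, hermForm_smul_left hF, hermForm_smul_right hF, hcc] at this
            linear_combination this
          have e' : l ^ (q + 1) = 1 := by
            have := congrArg (fun x : F => x ^ 1) e
            rw [mul_comm q (q + 1), pow_mul] at e
            rw [norm_pow_q hF] at e
            exact e
          rw [e', one_mul, add_eq_left] at hl2
          exact hs0 hl2
      · obtain ⟨c₂, hc₂⟩ := hfind ![v₀.1, v.1, u.1, u'.1] ![v₀.1, u.1] horth (fun i => by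
          fin_cases i
          · exact ⟨0, rfl⟩
          · exact ⟨2, rfl⟩) (by omega)
        refine hmove c₂ ⟨hc₂ 0, hc₂ 1⟩ ?_ ?_
        · have h4 : hermForm (m + 1) F q u.1 c₂.1 = 0 := hc₂ 2
          rw [(hermForm_eq_zero_comm hF).1 h4, zero_pow (Nat.succ_ne_zero q)]
          exact zero_ne_one
        · have h4 : hermForm (m + 1) F q u'.1 c₂.1 = 0 := hc₂ 3
          rw [h4, zero_pow (Nat.succ_ne_zero q)]
          exact zero_ne_one
    · refine ⟨?_, ?_⟩
      · show hermForm (m + 1) F q v₀.1 (sv h u.1) = 0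
        have hh' : sv h v₀.1 = v₀.1 := congrArg Subtype.val hh
        rw [← hh', sv_preserves]; exact hu.1
      · show hermForm (m + 1) F q (sv h v.1) (sv h u.1) = 0
        rw [sv_preserves]; exact hu.2
    · rw [eq_top_iff, ← su_closure_eq_top hF (n := m + 1) (by omega) (by omega), Subgroup.closure_le]
      rintro A ⟨z, c, hz, hA⟩
      apply Subgroup.subset_closure
      by_cases h0 : hermForm (m + 1) F q v₀.1 z = 0
      · refine Or.inr (Subtype.ext ?_)
        show (A.1 : Matrix (Fin (m + 1)) (Fin (m + 1)) F) *ᵥ v₀.1 = v₀.1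
        rw [hA, unitaryTransvection_mulVec, h0]
        simp
      · exact Or.inl ⟨z, c, hz, h0, hA⟩
    · obtain ⟨z, c, hz, h0, hA⟩ := hx
      obtain ⟨d, hd2, hd4, hperfd, hdm⟩ : ∃ d, 2 ≤ d ∧ d ≤ 4 ∧ commutator (SU d F q) = ⊤ ∧ d + 3 ≤ m + 1 := by
        rcases Nat.lt_or_ge q 4 with hq4 | hq4
        · rcases Nat.lt_or_ge q 3 with hq3 | hq3
          · exact ⟨4, by norm_num, le_rfl, commutator_SU_eq_top hF (by norm_num) (by omega), by omega⟩
          · exact ⟨3, by norm_num, by norm_num, commutator_SU_eq_top hF le_rfl (by omega), by omega⟩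
        · exact ⟨2, le_rfl, by norm_num, commutator_SU_two hF hq4, by omega⟩
      -- a frame orthogonal to the plane of `v₀` and `z`
      set e := z - hermForm (m + 1) F q z v₀.1 • v₀.1 with he
      have hev : hermForm (m + 1) F q e v₀.1 = 0 := by
        rw [he, hermForm_sub_left hF, hermForm_smul_left hF, v₀.2, mul_one, sub_self]
      have hee : hermForm (m + 1) F q e e ≠ 0 := by
        rw [he, hermForm_sub_left hF, hermForm_sub_right hF, hermForm_sub_right hF, hermForm_smul_left hF,
          hermForm_smul_left hF, hermForm_smul_right hF, hermForm_smul_right hF, hz, v₀.2, ← hermForm_pow_q hF v₀.1 z,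
          pow_q_pow_q hF]
        intro h
        refine h0 ?_
        have h' : hermForm (m + 1) F q v₀.1 z * hermForm (m + 1) F q v₀.1 z ^ q = 0 := by linear_combination -h
        exact (mul_eq_zero.1 h').elim id eq_zero_of_pow_eq_zero
      obtain ⟨l, hl⟩ := (isHerm_hermB hF (m + 1)).exists_smul_self_eq_one (v := e) (by simpa using hee)
      obtain ⟨B, hB, hB2⟩ := (isHerm_hermB hF (m + 1)).exists_orth_extend (n := m + 1) (k := 2)
        (by simp) (by omega) (orth_pair hF v₀.2 (b := l • e)
          (by simpa [hermForm_smul_left hF, hermForm_smul_right hF, mul_assoc] using hl.2)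
          (by rw [hermForm_smul_right hF, (hermForm_eq_zero_comm hF).1 hev, mul_zero]))
      obtain ⟨r, hr'⟩ : ∃ r, m + 1 = d + r := ⟨m + 1 - d, by omega⟩
      have hrm : r ≤ m + 1 - 2 := by omega
      let b : Fin r → Fin (m + 1) → F := fun i => B ⟨i.1 + 2, by omega⟩
      have hb : Orth (hermB hF (m + 1)) b := fun i j => by
        have := hB ⟨i.1 + 2, by omega⟩ ⟨j.1 + 2, by omega⟩
        simpa [Fin.ext_iff] using this
      have hbperp : ∀ i, hermForm (m + 1) F q (b i) v₀.1 = 0 ∧ hermForm (m + 1) F q (b i) z = 0 := by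
        intro i
        have hz' : z = hermForm (m + 1) F q z v₀.1 • v₀.1 + l⁻¹ • (l • e) := by
          rw [smul_smul, inv_mul_cancel₀ hl.1, one_smul, he, add_sub_cancel]
        have h0' := hB ⟨0, by omega⟩ ⟨i.1 + 2, by omega⟩
        have h1' := hB ⟨1, by omega⟩ ⟨i.1 + 2, by omega⟩
        have e0 : B ⟨0, by omega⟩ = v₀.1 := hB2 0
        have e1 : B ⟨1, by omega⟩ = l • e := hB2 1
        rw [hermB_apply, if_neg (by simp [Fin.ext_iff])] at h0' h1'
        rw [e0] at h0'
        rw [e1] at h1'
        refine ⟨h0', ?_⟩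
        rw [hz', hermForm_add_right hF, hermForm_smul_right hF, hermForm_smul_right hF _ (b i) (l • e)]
        rw [show hermForm (m + 1) F q (b i) v₀.1 = 0 from h0', show hermForm (m + 1) F q (b i) (l • e) = 0 from h1']
        ring
      refine ⟨stabs q b, ?_, fun v => ?_⟩
      · rw [stabs_perfect hF (by omega) (by rwa [show m + 1 - r = d by omega]) hb]
        intro i
        show (x.1 : Matrix (Fin (m + 1)) (Fin (m + 1)) F) *ᵥ b i = b i
        rw [hA, unitaryTransvection_mulVec, (hbperp i).2]
        simp
      · obtain ⟨u, hu⟩ := exists_unit_orth hF (n := r) (k := 1) (j := 0)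
          ![fun i => hermForm (m + 1) F q v.1 (b i)] (Fin.elim0 : Fin 0 → Fin r → F) (fun i => i.elim0)
          (fun i => i.elim0) (by omega)
        let L : (Fin r → F) →ₗ[F] (Fin (m + 1) → F) := Fintype.linearCombination F b
        have hL : ∀ (y : Fin r → F) (x : Fin (m + 1) → F),
            hermForm (m + 1) F q (L y) x = ∑ i, y i * hermForm (m + 1) F q (b i) x := by
          intro y x
          show hermForm (m + 1) F q (Fintype.linearCombination F b y) x = _
          rw [Fintype.linearCombination_apply]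
          let L' : (Fin (m + 1) → F) →ₗ[F] F :=
            { toFun := fun a => hermForm (m + 1) F q a x
              map_add' := fun a a' => hermForm_add_left hF a a' x
              map_smul' := fun k a => hermForm_smul_left hF k a x }
          show L' (∑ i, y i • b i) = _
          rw [map_sum]
          exact Finset.sum_congr rfl fun i _ => map_smul L' (y i) (b i)
        have hLL : hermForm (m + 1) F q (L u.1) (L u.1) = 1 := by
          refine Eq.trans ?_ u.2
          rw [hL]
          refine Finset.sum_congr rfl fun i _ => ?_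
          rw [← hermForm_pow_q hF (L u.1) (b i), hL, Finset.sum_eq_single i (fun k _ hk => by
            have := hb i k
            rw [hermB_apply, if_neg hk.symm] at this
            rw [this, mul_zero]) (by simp)]
          have := hb i i
          rw [hermB_apply, if_pos rfl] at this
          rw [this, mul_one]
        have hLv : hermForm (m + 1) F q (L u.1) v.1 = 0 := by
          refine Eq.trans ?_ (hu 0)
          rw [hL]
          refine Finset.sum_congr rfl fun i _ => ?_
          show _ = u.1 i * hermForm (m + 1) F q v.1 (b i) ^ q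
          rw [hermForm_pow_q hF]
        have hL0 : hermForm (m + 1) F q (L u.1) v₀.1 = 0 := by
          rw [hL]; exact Finset.sum_eq_zero fun i _ => by rw [(hbperp i).1, mul_zero]
        have hLz : hermForm (m + 1) F q (L u.1) z = 0 := by
          rw [hL]; exact Finset.sum_eq_zero fun i _ => by rw [(hbperp i).2, mul_zero]
        refine ⟨⟨L u.1, hLL⟩, ⟨(hermForm_eq_zero_comm hF).1 hL0, (hermForm_eq_zero_comm hF).1 hLv⟩,
          ⟨(hermForm_eq_zero_comm hF).1 hL0, ?_⟩, ?_⟩
        · show hermForm (m + 1) F q (sv x v.1) (L u.1) = 0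
          rw [show sv x v.1 = unitaryTransvection (m + 1) q z c *ᵥ v.1 by rw [← hA]; rfl, unitaryTransvection_mulVec,
            hermForm_add_left hF, hermForm_smul_left hF, (hermForm_eq_zero_comm hF).1 hLv,
            (hermForm_eq_zero_comm hF).1 hLz]
          ring
        · intro g hg
          refine Subtype.ext ?_
          show sv g (Fintype.linearCombination F b u.1) = Fintype.linearCombination F b u.1
          rw [Fintype.linearCombination_apply]
          show (g.1 : Matrix (Fin (m + 1)) (Fin (m + 1)) F).mulVecLin (∑ i, u.1 i • b i) = _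
          rw [map_sum]
          refine Finset.sum_congr rfl fun i _ => ?_
          rw [map_smul]
          exact congrArg (u.1 i • ·) (hg i)
  have hle := Cfsg.Agent.H82.Orth.card_ker_le_of_le_dpre hσ.1 hσ.2.1 (hstab v₀) hker (n := 1) fun Δ _ _ τ hτ => ?_
  · exact hr.not_dvd_one (Nat.le_antisymm hle (Nat.card_pos) ▸ hd)
  obtain ⟨f, hfi, hf⟩ := exists_stabs hF (m := m) (k := 1) (by omega) (hst1 v₀)
  rw [← stabilizer_eq] at hf
  let e : SU m F q ≃* MulAction.stabilizer G v₀ := (MonoidHom.ofInjective hfi).trans (MulEquiv.subgroupCongr hf)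
  let τ' : Δ →* SU m F q := e.symm.toMonoidHom.comp τ
  have hk : τ'.ker = τ.ker := by
    ext x; simp [τ', MonoidHom.mem_ker]
  have hbot := Cfsg.Agent.H82.ker_inf_commutator_eq_bot hone (σ := τ') (e.symm.surjective.comp hτ.1)
    (by rw [hk]; exact hτ.2.1)
  rw [hk, inf_eq_left.2 hτ.2.2] at hbot
  rw [hbot, Subgroup.card_bot]

end Cfsg.Agent.H46.SUMult
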