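import Cfsg.Agent.H46.SUMult.Three

/-!
# The primes away from the characteristic for `SU 4`
-/

set_option autoImplicit false

open scoped commutatorElement Pointwise

namespace Cfsg.Agent.H46.SUMult

open Matrix Cfsg Cfsg.Agent.H3
open Cfsg.Agent.H82.Orth (dpre dpre_mono dpre_le_comap exists_mem_dpre conj_mem_dpre)
open Cfsg.Agent.H82.Chev (commutator_congr)

universe u v

section General

variable {G : Type u} [Group G] {Γ : Type v} [Group Γ] {σ : Γ →* G}

/-- The order of a product with a normalising subgroup. -/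
theorem card_sup_of_disjoint {N C : Subgroup G} (hnorm : C ≤ Subgroup.normalizer (N : Set G))
    (hdis : Disjoint N C) : Nat.card ↥(N ⊔ C) = Nat.card N * Nat.card C := by
  rw [← Nat.card_prod]
  refine (Nat.card_congr (Equiv.ofBijective (fun p : N × C => (⟨p.1.1 * p.2.1,
    mul_mem (le_sup_left (a := N) p.1.2) (le_sup_right (a := N) p.2.2)⟩ : ↥(N ⊔ C))) ⟨?_, ?_⟩)).symm
  · rintro ⟨⟨x, hx⟩, ⟨t, ht⟩⟩ ⟨⟨y, hy⟩, ⟨u, hu⟩⟩ e
    have e' : x * t = y * u := congrArg Subtype.val e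
    have h1 : y⁻¹ * x = u * t⁻¹ := by
      rw [eq_mul_inv_iff_mul_eq, mul_assoc, e', inv_mul_cancel_left]
    have h2 : y⁻¹ * x = 1 :=
      Subgroup.disjoint_def.1 hdis (mul_mem (inv_mem hy) hx) (h1 ▸ mul_mem hu (inv_mem ht))
    obtain rfl : y = x := inv_mul_eq_one.1 h2
    obtain rfl : t = u := mul_left_cancel e'
    rfl
  · intro k
    have hk : k.1 ∈ (↑(N ⊔ C) : Set G) := k.2
    rw [Subgroup.coe_mul_of_right_le_normalizer_left _ _ hnorm] at hk
    obtain ⟨x, hx, t, ht, e⟩ := hk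
    exact ⟨(⟨x, hx⟩, ⟨t, ht⟩), Subtype.ext e⟩

/-- A clean subgroup times a clean one normalising it, with independent images. -/
theorem Clean.sup_normal {r : ℕ} [Fact r.Prime] (hc : σ.ker ≤ Subgroup.center Γ) {X Y : Subgroup Γ}
    (hX : Clean r σ X) (hY : Clean r σ Y) (hnorm : Y ≤ Subgroup.normalizer (X : Set Γ))
    (hind : ∀ x ∈ X, ∀ y ∈ Y, σ x * σ y = 1 → σ x = 1) : Clean r σ (X ⊔ Y) := by
  intro z hz h1
  have hz' : z ∈ (↑(X ⊔ Y) : Set Γ) := hz
  rw [Subgroup.coe_mul_of_right_le_normalizer_left _ _ hnorm] at hz'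
  obtain ⟨x, hx, y, hy, rfl⟩ := hz'
  rw [map_mul] at h1
  have hx1 := hind x hx y hy h1
  have hy1 : σ y = 1 := by rwa [hx1, one_mul] at h1
  intro hdvd
  have hcom : Commute x y := (Subgroup.mem_center_iff.1 (hc hx1) y).symm
  rcases (Fact.out : r.Prime).dvd_mul.1 ((hdvd.trans hcom.orderOf_mul_dvd_lcm).trans (Nat.lcm_dvd_mul _ _)) with h | h
  · exact hX x hx hx1 h
  · exact hY y hy hy1 h

/-- Elements of order prime to the index of a normal subgroup lie in it. -/
theorem mem_of_pow_eq_one {N : Subgroup G} [N.Normal] {x : G} {k : ℕ} (hx : x ^ k = 1)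
    (hk : k.Coprime N.index) : x ∈ N := by
  rw [← QuotientGroup.eq_one_iff]
  have h1 : (x : G ⧸ N) ^ k = 1 := by rw [← QuotientGroup.mk_pow, hx, QuotientGroup.mk_one]
  have h2 : (x : G ⧸ N) ^ N.index = 1 := Subgroup.index_eq_card N ▸ pow_card_eq_one'
  have h3 := pow_gcd_eq_one.2 (And.intro h1 h2)
  rwa [hk, pow_one] at h3

/-- Conjugation carries derived subgroups along. -/
theorem conj_mem_commutator {P P' : Subgroup G} {g : G} (h : ∀ x ∈ P, g * x * g⁻¹ ∈ P') {x : G}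
    (hx : x ∈ ⁅P, P⁆) : g * x * g⁻¹ ∈ ⁅P', P'⁆ := by
  have hle : P.map (MulAut.conj g).toMonoidHom ≤ P' := by
    rintro _ ⟨y, hy, rfl⟩
    exact h y hy
  have := Subgroup.commutator_mono hle hle
  rw [← Subgroup.map_commutator] at this
  exact this ⟨x, hx, rfl⟩

/-- The image of a derived preimage. -/
theorem map_mem_dpre {G : Type u} [Group G] {Γ : Type v} [Group Γ] {σ : Γ →* G} {P : Subgroup G} {x : Γ}
    (hx : x ∈ dpre σ P) : σ x ∈ ⁅P, P⁆ := by
  have := Subgroup.mem_map_of_mem σ hx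
  rw [dpre, Subgroup.map_commutator] at this
  exact Subgroup.commutator_mono (Subgroup.map_comap_le _ _) (Subgroup.map_comap_le _ _) this

end General

variable {F : Type u} [Field F] [Fintype F] {q : ℕ} (hF : Fintype.card F = q ^ 2)

omit [Fintype F] in
/-- Elements scaling the members of a family normalise its fixer. -/
theorem conj_mem_stabs {n k : ℕ} {w : Fin k → Fin n → F} {g : SU n F q}
    (hg : ∀ i, ∃ a : F, sv g (w i) = a • w i) {x : SU n F q} (hx : x ∈ stabs q w) : g * x * g⁻¹ ∈ stabs q w := by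
  intro i
  obtain ⟨a, ha⟩ := hg i
  rcases eq_or_ne a 0 with rfl | ha0
  · have h := congrArg (sv g⁻¹) ha
    rw [sv_inv_sv, zero_smul, sv_zero] at h
    rw [h, sv_zero]
  · have hi : sv g⁻¹ (w i) = a⁻¹ • w i := by
      conv_rhs => rw [← sv_inv_sv g (w i), ha, sv_smul, smul_smul, inv_mul_cancel₀ ha0, one_smul]
    rw [sv_mul, sv_mul, hi, sv_smul, hx i, sv_smul, ha, smul_smul, inv_mul_cancel₀ ha0, one_smul]

/-- The two blocks. -/
noncomputable def blkL (a b : ℕ) : SU a F q →* SU (a + b) F q := (blk a b).comp (MonoidHom.inl _ _)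

/-- The two blocks. -/
noncomputable def blkR (a b : ℕ) : SU b F q →* SU (a + b) F q := (blk a b).comp (MonoidHom.inr _ _)

omit [Fintype F] in
theorem blk_commute {a b : ℕ} (x : SU a F q) (y : SU b F q) : Commute (blkL a b x) (blkR a b y) :=
  ((Commute.one_right x).prod (Commute.one_left y)).map (blk a b)

theorem blk_indep {a b : ℕ} (x : SU a F q) (y : SU b F q) (h : blkL a b x * blkR a b y = 1) :
    blkL (F := F) (q := q) a b x = 1 := by
  have h' : blk a b (x, y) = blk a b 1 := by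
    rw [map_one, ← h, blkL, blkR, MonoidHom.comp_apply, MonoidHom.comp_apply, ← map_mul]; simp
  have := congrArg Prod.fst (blk_injective a b h')
  simp only [Prod.fst_one] at this
  rw [this, map_one]

/-- The derived group of the block subgroup. -/
noncomputable def blkD (a b : ℕ) : Subgroup (SU (a + b) F q) :=
  ((commutator (SU a F q)).prod (commutator (SU b F q))).map (blk a b)

include hF

theorem card_blkD (a b : ℕ) : Nat.card (blkD (F := F) (q := q) a b) * ((commutator (SU a F q)).index *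
    (commutator (SU b F q)).index) = Nat.card (SU a F q) * Nat.card (SU b F q) := by
  rw [blkD, ← Nat.card_congr (Subgroup.equivMapOfInjective _ _ (blk_injective a b)).toEquiv,
    Nat.card_congr (Subgroup.prodEquiv _ _).toEquiv, Nat.card_prod, ← (commutator (SU a F q)).card_mul_index,
    ← (commutator (SU b F q)).card_mul_index]
  ring

/-- The clean subgroup over the block subgroup. -/
theorem clean_blk {a b r : ℕ} [Fact r.Prime] (ha : Kill r (SU a F q)) (hb : Kill r (SU b F q)) {Γ : Type u}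
    [Group Γ] [Finite Γ] {σ : Γ →* SU (a + b) F q} (hs : Function.Surjective σ) (hc : σ.ker ≤ Subgroup.center Γ) :
    Clean r σ (dpre σ (blkL (F := F) (q := q) a b).range ⊔ dpre σ (blkR (F := F) (q := q) a b).range) ∧
      ∀ s ∈ blkD (F := F) (q := q) a b, ∃ x ∈ dpre σ (blkL (F := F) (q := q) a b).range ⊔
        dpre σ (blkR (F := F) (q := q) a b).range, σ x = s := by
  have hfl : Function.Injective (blkL (F := F) (q := q) a b) :=
    (blk_injective a b).comp fun x y h => congrArg Prod.fst h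
  have hfr : Function.Injective (blkR (F := F) (q := q) a b) :=
    (blk_injective a b).comp fun x y h => congrArg Prod.snd h
  refine ⟨Clean.sup (σ := σ) hc (ha.clean hfl hs hc) (hb.clean hfr hs hc) (fun x hx y hy => ?_) (fun x hx y hy h => ?_), ?_⟩
  · refine commute_dpre hs hc (fun k hk => ?_) hy
    obtain ⟨u, hu⟩ := dpre_le_comap (σ := σ) _ hx
    obtain ⟨v, rfl⟩ := hk
    rw [← hu]
    exact blk_commute u v
  · obtain ⟨u, hu⟩ := dpre_le_comap (σ := σ) _ hx
    obtain ⟨v, hv⟩ := dpre_le_comap (σ := σ) _ hy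
    rw [← hu, ← hv] at h
    rw [← hu]
    exact blk_indep u v h
  · rintro _ ⟨⟨u, v⟩, ⟨hu, hv⟩, rfl⟩
    have hu' : blkL a b u ∈ ⁅(blkL (F := F) (q := q) a b).range, (blkL (F := F) (q := q) a b).range⁆ := by
      rw [MonoidHom.range_eq_map, ← Subgroup.map_commutator, ← commutator_def]; exact ⟨u, hu, rfl⟩
    have hv' : blkR a b v ∈ ⁅(blkR (F := F) (q := q) a b).range, (blkR (F := F) (q := q) a b).range⁆ := by
      rw [MonoidHom.range_eq_map, ← Subgroup.map_commutator, ← commutator_def]; exact ⟨v, hv, rfl⟩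
    obtain ⟨x, hx, ex⟩ := exists_mem_dpre hs hu'
    obtain ⟨y, hy, ey⟩ := exists_mem_dpre hs hv'
    refine ⟨x * y, mul_mem (Subgroup.mem_sup_left hx) (Subgroup.mem_sup_right hy), ?_⟩
    rw [map_mul, ex, ey, blkL, blkR, MonoidHom.comp_apply, MonoidHom.comp_apply, ← map_mul]
    simp

/-- Two blocks of index prime to `r`. -/
theorem kill_blk {a b r x : ℕ} [Fact r.Prime] (ha : Kill r (SU a F q)) (hb : Kill r (SU b F q))
    (hDa : ¬ r ∣ (commutator (SU a F q)).index) (hDb : ¬ r ∣ (commutator (SU b F q)).index)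
    (hcard : Nat.card (SU (a + b) F q) = Nat.card (SU a F q) * Nat.card (SU b F q) * x) (hx : ¬ r ∣ x) :
    Kill r (SU (a + b) F q) := by
  refine kill_of_index (blkD a b) ?_ ?_
  · intro h
    have h1 := (blkD (F := F) (q := q) a b).card_mul_index
    rw [hcard, ← card_blkD hF a b] at h1
    have h2 : (blkD (F := F) (q := q) a b).index =
        (commutator (SU a F q)).index * (commutator (SU b F q)).index * x :=
      Nat.eq_of_mul_eq_mul_left (Nat.card_pos (α := blkD (F := F) (q := q) a b)) (by rw [h1]; ring)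
    rw [h2] at h
    have hr : r.Prime := Fact.out
    exact (hr.dvd_mul.1 h).elim (fun h => (hr.dvd_mul.1 h).elim hDa hDb) hx
  · intro Γ _ _ σ hs hc S hS hr'
    obtain ⟨hcl, hsur⟩ := clean_blk hF ha hb hs hc
    refine hcl.good hs hc hr' (Subgroup.commutator_le.2 fun g hg g' hg' => ?_)
    obtain ⟨y, hy, e⟩ := hsur _ (hS hg)
    obtain ⟨y', hy', e'⟩ := hsur _ (hS hg')
    rw [← commutator_congr hc e e', commutatorElement_def]
    exact mul_mem (mul_mem (mul_mem hy hy') (inv_mem hy)) (inv_mem hy')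

/-- The prime two for `SU 4` in odd characteristic. -/
theorem kill_four_two {p : ℕ} [Fact p.Prime] [CharP F p] (hp2 : p ≠ 2) : Kill 2 (SU 4 F q) := by
  classical
  haveI : Fact (Nat.Prime 2) := ⟨Nat.prime_two⟩
  have hp : p.Prime := Fact.out
  obtain ⟨p', k, hp', hc', -, hqk⟩ := exists_q_eq_pow hF
  obtain rfl : p = p' := CharP.eq F ‹CharP F p› hc'
  have hqodd : Odd q := hqk ▸ (hp.odd_of_ne_two hp2).pow
  obtain ⟨e, j, hj, hqe⟩ := Nat.exists_eq_pow_mul_and_not_dvd (n := q + 1) (by omega) 2 (by omega)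
  have he : 1 ≤ e := by
    rcases Nat.eq_zero_or_pos e with rfl | he
    · obtain ⟨t, ht⟩ := hqodd
      simp at hqe
      omega
    · exact he
  obtain ⟨ζ, hζo, hζn⟩ := exists_order hF (N := 2 ^ e) ⟨j, hqe⟩
  have hζin : ((ζ⁻¹ : Fˣ) : F) ^ (q + 1) = 1 := by rw [Units.val_inv_eq_inv_val, inv_pow, hζn, inv_one]
  obtain ⟨c, hc0⟩ := exists_diag hF (![(ζ : F), 1, ((ζ⁻¹ : Fˣ) : F), 1] : Fin 4 → F)
    (fun i => by fin_cases i <;> simp [hζn, hζin]) (by rw [Fin.prod_univ_four]; simp)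
  have hc : ∀ x : Fin 4 → F, sv c x = ![(ζ : F) * x 0, x 1, ((ζ⁻¹ : Fˣ) : F) * x 2, x 3] := fun x => by
    funext i; rw [hc0]; fin_cases i <;> simp
  obtain ⟨w, hw0⟩ := exists_monomial hF (Equiv.swap (0 : Fin 4) 2 * Equiv.swap 1 3) (fun _ => (1 : F))
    (fun _ => one_pow _) (by simp)
  have hw : ∀ x : Fin 4 → F, sv w x = ![x 2, x 3, x 0, x 1] := fun x => by
    funext i; rw [hw0, one_mul]; fin_cases i <;> rfl
  have hw2 : w * w = 1 := sv_ext fun x => by
    rw [sv_mul, hw, hw, sv_one]; funext i; fin_cases i <;> simp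
  have hwi : w⁻¹ = w := inv_eq_of_mul_eq_one_right hw2
  have hwc : w * c * w⁻¹ = c⁻¹ := by
    rw [eq_inv_iff_mul_eq_one, hwi]
    refine sv_ext fun x => ?_
    rw [sv_mul, sv_mul, sv_mul, hw, hc, hw, hc, sv_one]
    funext i; fin_cases i <;> simp
  have hcn : ∀ (m : ℕ) (x : Fin 4 → F), sv (c ^ m) x = ![(ζ : F) ^ m * x 0, x 1, ((ζ⁻¹ : Fˣ) : F) ^ m * x 2, x 3] := by
    intro m
    induction m with
    | zero => intro x; rw [pow_zero, sv_one]; funext i; fin_cases i <;> simp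
    | succ m ih => intro x; rw [pow_succ', sv_mul, ih, hc]; funext i; fin_cases i <;> simp [pow_succ'] <;> ring
  have hcord : orderOf c = 2 ^ e := by
    refine Nat.dvd_antisymm (orderOf_dvd_of_pow_eq_one (sv_ext fun x => ?_)) ?_
    · have h1 : ζ ^ 2 ^ e = 1 := orderOf_dvd_iff_pow_eq_one.1 hζo.dvd
      rw [hcn, sv_one]
      funext i
      fin_cases i <;> simp [← Units.val_pow_eq_pow_val, h1]
    · rw [← hζo]
      refine orderOf_dvd_of_pow_eq_one (Units.ext ?_)
      have h := congrFun ((hcn (orderOf c) (Pi.single 0 1)).symm.trans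
        (by rw [pow_orderOf_eq_one, sv_one])) 0
      simpa using h
  set fL := blkL (F := F) (q := q) 2 2 with hfL
  set fR := blkR (F := F) (q := q) 2 2 with hfR
  have happ : ∀ (u v : Fin 2 → F), sv w (Fin.append u v) = Fin.append v u := fun u v => by
    rw [hw]; funext i; fin_cases i <;> rfl
  have hwblk : ∀ x y, w * blk 2 2 (x, y) * w⁻¹ = blk 2 2 (y, x) := fun x y => by
    rw [mul_inv_eq_iff_eq_mul]
    refine sv_ext fun z => ?_
    rw [← Fin.append_castAdd_natAdd (m := 2) (n := 2) (f := z), sv_mul, sv_mul, sv_blk, happ, happ, sv_blk]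
  have hwL : ∀ x ∈ fL.range, w * x * w⁻¹ ∈ fR.range := by
    rintro _ ⟨u, rfl⟩; exact ⟨u, (hwblk u 1).symm⟩
  have hwR : ∀ x ∈ fR.range, w * x * w⁻¹ ∈ fL.range := by
    rintro _ ⟨u, rfl⟩; exact ⟨u, (hwblk 1 u).symm⟩
  have hLstabs : fL.range = stabs q (tail 2 2 F) := range_emb hF
  have hconjL : ∀ g : SU 4 F q, (∀ i : Fin 2, ∃ a : F, sv g (tail 2 2 F i) = a • tail 2 2 F i) →
      ∀ x ∈ fL.range, g * x * g⁻¹ ∈ fL.range := fun g hg x hx => by
    rw [hLstabs] at hx ⊢; exact conj_mem_stabs hg hx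
  have hcL : ∀ x ∈ fL.range, c * x * c⁻¹ ∈ fL.range := hconjL c fun i => by
    fin_cases i
    · exact ⟨((ζ⁻¹ : Fˣ) : F), by rw [hc]; funext l; fin_cases l <;> simp [tail]⟩
    · exact ⟨1, by rw [hc]; funext l; fin_cases l <;> simp [tail]⟩
  have hciL : ∀ x ∈ fL.range, c⁻¹ * x * (c⁻¹)⁻¹ ∈ fL.range := hconjL c⁻¹ fun i => by
    rw [← hwc, hwi]
    fin_cases i
    · exact ⟨(ζ : F), by rw [sv_mul, sv_mul, hw, hc, hw]; funext l; fin_cases l <;> simp [tail]⟩
    · exact ⟨1, by rw [sv_mul, sv_mul, hw, hc, hw]; funext l; fin_cases l <;> simp [tail]⟩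
  have hcR : ∀ x ∈ fR.range, c * x * c⁻¹ ∈ fR.range := fun x hx => by
    have h := hwL _ (hciL _ (hwR x hx))
    rw [← hwc] at h
    rwa [show w * (w * c * w⁻¹ * (w * x * w⁻¹) * (w * c * w⁻¹)⁻¹) * w⁻¹ = (w * w) * (c * x * c⁻¹) * (w * w)⁻¹ by group,
      hw2, one_mul, inv_one, mul_one] at h
  -- the derived blocks
  set K₀ := blkD (F := F) (q := q) 2 2 with hK₀
  have hK₀eq : K₀ = ⁅fL.range, fL.range⁆ ⊔ ⁅fR.range, fR.range⁆ := by
    apply le_antisymm
    · rintro _ ⟨⟨u, v⟩, ⟨hu, hv⟩, rfl⟩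
      rw [show ((u, v) : SU 2 F q × SU 2 F q) = (u, 1) * (1, v) by simp, map_mul]
      refine mul_mem (Subgroup.mem_sup_left ?_) (Subgroup.mem_sup_right ?_)
      · rw [MonoidHom.range_eq_map, ← Subgroup.map_commutator, ← commutator_def]; exact ⟨u, hu, rfl⟩
      · rw [MonoidHom.range_eq_map, ← Subgroup.map_commutator, ← commutator_def]; exact ⟨v, hv, rfl⟩
    · refine sup_le ?_ ?_ <;>
        rw [MonoidHom.range_eq_map, ← Subgroup.map_commutator, ← commutator_def]
      · rintro _ ⟨u, hu, rfl⟩; exact ⟨(u, 1), ⟨hu, one_mem _⟩, rfl⟩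
      · rintro _ ⟨u, hu, rfl⟩; exact ⟨(1, u), ⟨one_mem _, hu⟩, rfl⟩
  have hconjK₀ : ∀ g : SU 4 F q, ((∀ x ∈ fL.range, g * x * g⁻¹ ∈ fL.range) ∧ ∀ x ∈ fR.range, g * x * g⁻¹ ∈ fR.range) ∨
      ((∀ x ∈ fL.range, g * x * g⁻¹ ∈ fR.range) ∧ ∀ x ∈ fR.range, g * x * g⁻¹ ∈ fL.range) →
      ∀ x ∈ K₀, g * x * g⁻¹ ∈ K₀ := by
    intro g hg x hx
    have : (⁅fL.range, fL.range⁆ ⊔ ⁅fR.range, fR.range⁆).map (MulAut.conj g).toMonoidHom ≤ K₀ := by
      rw [Subgroup.map_sup, hK₀eq]
      rcases hg with ⟨h1, h2⟩ | ⟨h1, h2⟩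
      · refine sup_le_sup ?_ ?_ <;> rintro _ ⟨y, hy, rfl⟩
        · exact conj_mem_commutator h1 hy
        · exact conj_mem_commutator h2 hy
      · rw [sup_comm ⁅fL.range, fL.range⁆ ⁅fR.range, fR.range⁆]
        refine sup_le ?_ ?_ <;> rintro _ ⟨y, hy, rfl⟩
        · exact Subgroup.mem_sup_left (conj_mem_commutator h1 hy)
        · exact Subgroup.mem_sup_right (conj_mem_commutator h2 hy)
    exact this ⟨x, hK₀eq ▸ hx, rfl⟩
  have hnorm₁ : Subgroup.zpowers c ≤ Subgroup.normalizer (K₀ : Set (SU 4 F q)) := by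
    rw [Subgroup.zpowers_le]
    have hfin : (K₀ : Set (SU 4 F q)).Finite := Set.toFinite _
    exact Subgroup.mem_normalizer_fintype fun x hx => hconjK₀ c (Or.inl ⟨hcL, hcR⟩) x hx
  have hwK₀ : ∀ x ∈ K₀, w * x * w⁻¹ ∈ K₀ := hconjK₀ w (Or.inr ⟨hwL, hwR⟩)
  set K₁ := K₀ ⊔ Subgroup.zpowers c with hK₁
  have hwK₁ : ∀ x ∈ K₁, w * x * w⁻¹ ∈ K₁ := by
    intro x hx
    have : K₁.map (MulAut.conj w).toMonoidHom ≤ K₁ := by
      rw [hK₁, Subgroup.map_sup]
      refine sup_le_sup ?_ ?_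
      · rintro _ ⟨y, hy, rfl⟩; exact hwK₀ y hy
      · rw [MonoidHom.map_zpowers, Subgroup.zpowers_le]
        simp [hwc]
    exact this ⟨x, hx, rfl⟩
  have hnorm₂ : Subgroup.zpowers w ≤ Subgroup.normalizer (K₁ : Set (SU 4 F q)) := by
    rw [Subgroup.zpowers_le]
    exact Subgroup.mem_normalizer_fintype fun x hx => hwK₁ x hx
  have hblk01 : ∀ x ∈ K₀, ∀ u : Fin 2 → F, ∃ u', sv x (Fin.append u 0) = Fin.append u' 0 := by
    rintro _ ⟨⟨a, b⟩, -, rfl⟩ u
    exact ⟨sv a u, by rw [sv_blk, sv_zero]⟩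
  have hdis₁ : Disjoint K₀ (Subgroup.zpowers c) := by
    rw [Subgroup.disjoint_def]
    intro x hx hx'
    obtain ⟨m, rfl⟩ := mem_powers_iff_mem_zpowers.2 hx'
    obtain ⟨⟨a, b⟩, ⟨-, -⟩, hab⟩ := hx
    simp only at hab ⊢
    have hA : ∀ u, sv a u = ![(ζ : F) ^ m * u 0, u 1] := fun u => by
      have h := congrArg (fun g => sv g (Fin.append u 0)) hab
      simp only [sv_blk, sv_zero, hcn] at h
      funext i
      have h' := congrFun h (Fin.castAdd 2 i)
      fin_cases i <;> simpa [Fin.append, Fin.addCases] using h'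
    have hdet : (a.1 : Matrix (Fin 2) (Fin 2) F).det = 1 := a.1.2
    have hmat : (a.1 : Matrix (Fin 2) (Fin 2) F) = Matrix.diagonal ![(ζ : F) ^ m, 1] :=
      Matrix.ext_of_mulVec_single fun i => by
        rw [show (a.1 : Matrix (Fin 2) (Fin 2) F) *ᵥ Pi.single i 1 = sv a (Pi.single i 1) from rfl, hA]
        funext l; fin_cases i <;> fin_cases l <;> simp [Matrix.mulVec_diagonal]
    rw [hmat, Matrix.det_diagonal, Fin.prod_univ_two] at hdet
    have : ζ ^ m = 1 := Units.ext (by simpa using hdet)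
    exact orderOf_dvd_iff_pow_eq_one.1 (hcord ▸ hζo ▸ orderOf_dvd_of_pow_eq_one this)
  have hwmove : ∀ x ∈ K₁, ∀ v : Fin 2 → F, ∃ v', sv x (Fin.append v 0) = Fin.append v' 0 := by
    intro x hx
    rw [← SetLike.mem_coe, hK₁, Subgroup.coe_mul_of_right_le_normalizer_left _ _ hnorm₁] at hx
    obtain ⟨y, hy, t, ht, rfl⟩ := hx
    obtain ⟨m, rfl⟩ := mem_powers_iff_mem_zpowers.2 ht
    intro v
    obtain ⟨v', hv'⟩ := hblk01 y hy ![(ζ : F) ^ m * v 0, v 1]
    refine ⟨v', ?_⟩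
    rw [sv_mul, ← hv', hcn]
    congr 1
    funext i; fin_cases i <;> simp [Fin.append, Fin.addCases]
  have hdis₂ : Disjoint K₁ (Subgroup.zpowers w) := by
    rw [Subgroup.disjoint_def]
    intro x hx hx'
    obtain ⟨m, rfl⟩ := mem_powers_iff_mem_zpowers.2 hx'
    simp only at hx ⊢
    obtain ⟨m', rfl | rfl⟩ := Nat.even_or_odd' m
    · rw [pow_mul, sq, hw2, one_pow]
    · rw [pow_succ, pow_mul, sq, hw2, one_pow, one_mul] at hx
      obtain ⟨v', hv'⟩ := hwmove w hx ![1, 0]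
      rw [happ] at hv'
      have := congrFun hv' (Fin.natAdd 2 0)
      rw [Fin.append_right, Fin.append_right] at this
      simp at this
  have hwo : orderOf w = 2 := orderOf_eq_prime (by rw [sq, hw2]) fun h => by
    have h1 := congrArg (fun g => sv g (Pi.single 0 1) 2) h
    simp [hw] at h1
  -- the block on the first and third coordinates
  have ho : Orth (hermB hF 4) ![(Pi.single 1 1 : Fin 4 → F), Pi.single 3 1] := fun i l => by
    fin_cases i <;> fin_cases l <;>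
      simp [hermForm_single_left, zero_pow (show q ≠ 0 by have := two_le_q hF; omega)]
  obtain ⟨f₃, hf₃i, hf₃⟩ := exists_stabs hF (m := 2) (k := 2) (by norm_num) ho
  have hcD : c ∈ ⁅f₃.range, f₃.range⁆ := by
    obtain ⟨c', hc'⟩ : c ∈ f₃.range := by
      rw [hf₃]; intro i; fin_cases i <;> rw [hc] <;> funext l <;> fin_cases l <;> simp
    rw [← hc', MonoidHom.range_eq_map, ← Subgroup.map_commutator, ← commutator_def]
    refine ⟨c', mem_of_pow_eq_one (k := 2 ^ e) (hf₃i ?_) ?_, rfl⟩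
    · rw [map_pow, hc', map_one]; exact orderOf_dvd_iff_pow_eq_one.1 hcord.dvd
    · exact Nat.Coprime.pow_left _ ((Nat.Prime.coprime_iff_not_dvd Nat.prime_two).2
        (not_dvd_index_SU hF hp Nat.prime_two (Ne.symm hp2) le_rfl (by omega)))
  have hwK₃ : ∀ x ∈ f₃.range, w * x * w⁻¹ ∈ f₃.range := by
    intro x hx
    rw [hf₃] at hx ⊢
    have h1 : sv w (Pi.single 1 1 : Fin 4 → F) = Pi.single 3 1 := by
      rw [hw]; funext l; fin_cases l <;> simp
    have h3 : sv w (Pi.single 3 1 : Fin 4 → F) = Pi.single 1 1 := by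
      rw [hw]; funext l; fin_cases l <;> simp
    intro i
    rw [sv_mul, sv_mul, hwi]
    fin_cases i
    · exact (congrArg (fun z => sv w (sv x z)) h1).trans ((congrArg (sv w) (hx 1)).trans h3)
    · exact (congrArg (fun z => sv w (sv x z)) h3).trans ((congrArg (sv w) (hx 0)).trans h1)
  set K := K₁ ⊔ Subgroup.zpowers w with hK
  have hk2 : Kill 2 (SU 2 F q) := kill_two hF (Ne.symm hp2)
  refine kill_of_index K ?_ ?_
  · have hcK : Nat.card K = Nat.card K₀ * 2 ^ e * 2 := by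
      rw [hK, card_sup_of_disjoint hnorm₂ hdis₂, hK₁, card_sup_of_disjoint hnorm₁ hdis₁, Nat.card_zpowers,
        Nat.card_zpowers, hcord, hwo]
    obtain ⟨t, ht⟩ := hqodd
    have hG : Nat.card (SU 4 F q) =
        Nat.card (SU 2 F q) * Nat.card (SU 2 F q) * (q ^ 4 * (2 * (t * t + t) * 2 + 2) * ((q + 1) * ((2 * t) * (q) + 1))) := by
      rw [card_SU_succ hF (by norm_num : 1 ≤ 3), card_SU_succ hF (by norm_num : 1 ≤ 2), card_SU_succ hF le_rfl,
        card_SU_one hF, unitCount, if_neg (by decide : ¬ Even 3), unitCount, if_pos (by decide : Even 2), unitCount,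
        if_neg (by decide : ¬ Even 1)]
      subst ht
      have e4 : (2 * t + 1) ^ (3 + 1) - 1 = (4 * (t * t + t)) * (2 * (t * t + t) * 2 + 2) := by
        apply Nat.sub_eq_of_eq_add; ring
      have e2 : (2 * t + 1) ^ (1 + 1) - 1 = 4 * (t * t + t) := by
        apply Nat.sub_eq_of_eq_add; ring
      rw [e4, e2]
      ring
    have h1 := K.card_mul_index
    rw [hcK, hG, ← card_blkD hF 2 2, hqe, ← hK₀] at h1
    have h2 : K.index = (commutator (SU 2 F q)).index * (commutator (SU 2 F q)).index *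
        (q ^ 4 * (2 * (t * t + t) + 1) * (j * (2 * t * q + 1))) :=
      Nat.eq_of_mul_eq_mul_left (Nat.mul_pos (Nat.mul_pos (Nat.card_pos (α := K₀)) (pow_pos two_pos e)) two_pos) (by rw [h1]; ring)
    rw [h2]
    have hD := not_dvd_index_SU hF hp Nat.prime_two (Ne.symm hp2) (le_refl 2) (by omega)
    have h2p := Nat.prime_two
    rw [h2p.dvd_mul, h2p.dvd_mul, h2p.dvd_mul, h2p.dvd_mul, h2p.dvd_mul]
    rintro ((h | h) | (h | h) | h | h)
    · exact hD h
    · exact hD h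
    · have := h2p.dvd_of_dvd_pow h; omega
    · omega
    · exact hj h
    · rw [show 2 * t * q + 1 = 2 * (t * q) + 1 by ring] at h; omega
  · intro Γ _ _ σ hs hc' S hS hS2
    obtain ⟨hclX, hsur⟩ := clean_blk hF hk2 hk2 hs hc'
    set X := dpre σ fL.range ⊔ dpre σ fR.range with hX
    obtain ⟨ch, hch, hce⟩ := exists_mem_dpre hs hcD
    set C := (Subgroup.zpowers c).comap σ ⊓ dpre σ f₃.range with hC
    have hXimg : ∀ x ∈ X, σ x ∈ K₀ := by
      intro x hx
      have : X ≤ K₀.comap σ := by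
        rw [hX, hK₀eq]
        refine sup_le ?_ ?_ <;> intro y hy
        · exact Subgroup.mem_sup_left (map_mem_dpre hy)
        · exact Subgroup.mem_sup_right (map_mem_dpre hy)
      exact this hx
    have hconjX : ∀ y : Γ, ((∀ x ∈ fL.range, σ y * x * (σ y)⁻¹ ∈ fL.range) ∧ ∀ x ∈ fR.range, σ y * x * (σ y)⁻¹ ∈ fR.range) ∨
        ((∀ x ∈ fL.range, σ y * x * (σ y)⁻¹ ∈ fR.range) ∧ ∀ x ∈ fR.range, σ y * x * (σ y)⁻¹ ∈ fL.range) →
        ∀ x ∈ X, y * x * y⁻¹ ∈ X := by
      intro y hy x hx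
      have : X.map (MulAut.conj y).toMonoidHom ≤ X := by
        rw [hX, Subgroup.map_sup]
        rcases hy with ⟨h1, h2⟩ | ⟨h1, h2⟩
        · refine sup_le ?_ ?_ <;> rintro _ ⟨z, hz, rfl⟩
          · exact Subgroup.mem_sup_left (conj_mem_dpre y h1 hz)
          · exact Subgroup.mem_sup_right (conj_mem_dpre y h2 hz)
        · refine sup_le ?_ ?_ <;> rintro _ ⟨z, hz, rfl⟩
          · exact Subgroup.mem_sup_right (conj_mem_dpre y h1 hz)
          · exact Subgroup.mem_sup_left (conj_mem_dpre y h2 hz)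
      exact this ⟨x, hx, rfl⟩
    have hpowL : ∀ m : ℕ, (∀ x ∈ fL.range, c ^ m * x * (c ^ m)⁻¹ ∈ fL.range) ∧
        ∀ x ∈ fR.range, c ^ m * x * (c ^ m)⁻¹ ∈ fR.range := by
      intro m
      induction m with
      | zero => exact ⟨fun x hx => by simpa using hx, fun x hx => by simpa using hx⟩
      | succ m ih =>
        refine ⟨fun x hx => ?_, fun x hx => ?_⟩ <;>
          rw [pow_succ', show c * c ^ m * x * (c * c ^ m)⁻¹ = c * (c ^ m * x * (c ^ m)⁻¹) * c⁻¹ by group]
        · exact hcL _ (ih.1 x hx)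
        · exact hcR _ (ih.2 x hx)
    have hCX : C ≤ Subgroup.normalizer (X : Set Γ) := by
      intro y hy
      obtain ⟨m, hm⟩ := mem_powers_iff_mem_zpowers.2 (Subgroup.mem_comap.1 hy.1)
      exact Subgroup.mem_normalizer_fintype fun x hx => hconjX y (Or.inl (hm ▸ hpowL m)) x hx
    have hclC : Clean 2 σ C := fun z hz h1 => (hk2.clean hf₃i hs hc') z hz.2 h1
    have hY : Clean 2 σ (X ⊔ C) := hclX.sup_normal hc' hclC hCX fun x hx y hy h => by
      have h1 : σ x ∈ Subgroup.zpowers c := by rw [eq_inv_of_mul_eq_one_left h]; exact inv_mem hy.1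
      exact Subgroup.disjoint_def.1 hdis₁ (hXimg x hx) h1
    obtain ⟨wh, hwh⟩ := hs w
    have hwY : ∀ y ∈ X ⊔ C, wh * y * wh⁻¹ ∈ X ⊔ C := by
      intro y hy
      have : (X ⊔ C).map (MulAut.conj wh).toMonoidHom ≤ X ⊔ C := by
        rw [Subgroup.map_sup]
        refine sup_le_sup ?_ ?_
        · rintro _ ⟨z, hz, rfl⟩
          exact hconjX wh (Or.inr (hwh ▸ ⟨hwL, hwR⟩)) z hz
        · rintro _ ⟨z, ⟨hz1, hz2⟩, rfl⟩
          refine ⟨?_, conj_mem_dpre wh (hwh ▸ hwK₃) hz2⟩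
          show σ (wh * z * wh⁻¹) ∈ Subgroup.zpowers c
          obtain ⟨i, hi⟩ := hz1
          refine ⟨-i, ?_⟩
          simp only at hi ⊢
          rw [map_mul, map_mul, map_inv, hwh, ← hi, ← conj_zpow, hwc, _root_.inv_zpow']
      exact this ⟨y, hy, rfl⟩
    refine hY.good hs hc' hS2 (dpre_le_of_cyclic hs hc' (c := wh) (fun i y hy => ?_) fun s hs' => ?_)
    · have hfix : wh ∈ Subgroup.normalizer ((X ⊔ C : Subgroup Γ) : Set Γ) := Subgroup.mem_normalizer_fintype hwY
      exact (Subgroup.mem_normalizer_iff.1 (zpow_mem hfix i) y).1 hy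
    · have hk : s ∈ (K : Set (SU 4 F q)) := hS hs'
      rw [hK, Subgroup.coe_mul_of_right_le_normalizer_left _ _ hnorm₂] at hk
      obtain ⟨x, hx, t', ⟨i, rfl⟩, ext⟩ := hk
      rw [SetLike.mem_coe, ← SetLike.mem_coe, hK₁, Subgroup.coe_mul_of_right_le_normalizer_left _ _ hnorm₁] at hx
      obtain ⟨y, hy, t', ⟨l, rfl⟩, rfl⟩ := hx
      obtain ⟨y', hy', ey⟩ := hsur y hy
      refine ⟨y' * ch ^ l, mul_mem (Subgroup.mem_sup_left hy') (Subgroup.mem_sup_right ⟨?_, zpow_mem hch l⟩), i, ?_⟩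
      · show σ (ch ^ l) ∈ Subgroup.zpowers c
        rw [map_zpow, hce]
        exact zpow_mem (Subgroup.mem_zpowers c) l
      · rw [map_mul, map_zpow, ey, hce, hwh]; exact ext

/-- All primes away from the characteristic for `SU 4`. -/
theorem kill_four {p : ℕ} [Fact p.Prime] [CharP F p] {r : ℕ} [Fact r.Prime] (hrp : r ≠ p) :
    Kill r (SU 4 F q) := by
  have hr : r.Prime := Fact.out
  have hp : p.Prime := Fact.out
  have h2 := two_le_q hF
  obtain ⟨p', k, hp', hc', -, hqk⟩ := exists_q_eq_pow hF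
  obtain rfl : p = p' := CharP.eq F ‹CharP F p› hc'
  rcases eq_or_ne r 2 with rfl | hr2
  · exact kill_four_two hF (Ne.symm hrp)
  have hrq : ¬ r ∣ q := fun h => hrp ((Nat.prime_dvd_prime_iff_eq hr hp).1 (hr.dvd_of_dvd_pow (hqk ▸ h)))
  have h2r : ¬ r ∣ 2 := fun h => hr2 ((Nat.prime_dvd_prime_iff_eq hr Nat.prime_two).1 h)
  obtain ⟨a, ha⟩ : ∃ a, q = a + 1 := ⟨q - 1, by omega⟩
  have hU3 : unitCount q 3 = (q + 1) * (q ^ 3 * a * (q * q + 1)) := by
    rw [unitCount, if_neg (by decide : ¬ Even 3)]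
    have : q ^ (3 + 1) - 1 = (q + 1) * (a * (q * q + 1)) := by
      apply Nat.sub_eq_of_eq_add; rw [ha]; ring
    rw [this]; ring
  have hU2 : unitCount q 2 = q ^ 2 * (q ^ 3 + 1) := by rw [unitCount, if_pos (by decide : Even 2)]
  have hU1 : unitCount q 1 = q * (a * (q + 1)) := by
    rw [unitCount, if_neg (by decide : ¬ Even 1), pow_one]
    have : q ^ (1 + 1) - 1 = a * (q + 1) := by
      apply Nat.sub_eq_of_eq_add; rw [ha]; ring
    rw [this]
  by_cases hs : r ∣ q * q + 1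
  · refine kill_top hF (p := p) (by norm_num : 1 ≤ 3) hr2 hrp ?_
    have hna : ¬ r ∣ a := fun h => by
      have : q * q + 1 = a * (a + 2) + 2 := by rw [ha]; ring
      rw [this] at hs
      exact h2r ((Nat.dvd_add_right (h.mul_right _)).1 hs)
    have hnq1 : ¬ r ∣ q + 1 := fun h => by
      have : q * q + 1 = (q + 1) * a + 2 := by rw [ha]; ring
      rw [this] at hs
      exact h2r ((Nat.dvd_add_right (h.mul_right _)).1 hs)
    rw [card_SU_succ hF (by norm_num : 1 ≤ 2), card_SU_succ hF le_rfl, card_SU_one hF, hU2, hU1, hr.dvd_mul, hr.dvd_mul,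
      hr.dvd_mul, hr.dvd_mul, hr.dvd_mul]
    rintro ((h | h) | (h | h | h) | h)
    · exact hrq (hr.dvd_of_dvd_pow h)
    · have h3 : q * (q * q + 1) = (q ^ 3 + 1) + a := by rw [ha]; ring
      exact hna ((Nat.dvd_add_right h).1 (h3 ▸ hs.mul_left q))
    · exact hrq h
    · exact hna h
    · exact hnq1 h
    · exact hr.not_dvd_one h
  by_cases ha' : r ∣ a
  · have hk2 : Kill r (SU 2 F q) := kill_two hF hrp
    have hD2 := not_dvd_index_SU hF hp hr hrp (le_refl 2) (by omega)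
    refine kill_blk hF hk2 hk2 hD2 hD2 (x := q ^ 4 * (q * q + 1) * (q ^ 3 + 1)) ?_ ?_
    · show Nat.card (SU 4 F q) = _
      rw [card_SU_succ hF (by norm_num : 1 ≤ 3), card_SU_succ hF (by norm_num : 1 ≤ 2), card_SU_succ hF le_rfl,
        card_SU_one hF, hU3, hU2, hU1]
      ring
    · rw [hr.dvd_mul, hr.dvd_mul]
      rintro ((h | h) | h)
      · exact hrq (hr.dvd_of_dvd_pow h)
      · exact hs h
      · have : q ^ 3 + 1 = a * (q * q + q + 1) + 2 := by rw [ha]; ring
        exact h2r ((Nat.dvd_add_right (ha'.mul_right _)).1 (this ▸ h))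
  refine kill_succ hF (by norm_num : 1 ≤ 3) (kill_three hF hrp) ?_ fun x hx => ?_
  · rcases eq_or_ne q 2 with hq | hq
    · rcases eq_or_ne r 3 with rfl | hr3
      · exact three_not_dvd_index hF hq
      · intro h
        have h3 : r ∣ Nat.card (SU 3 F q) := h.trans (Subgroup.index_dvd_card _)
        rw [card_SU_succ hF (by norm_num : 1 ≤ 2), card_SU_succ hF le_rfl, card_SU_one hF, hq,
          show unitCount 2 2 * (unitCount 2 1 * 1) = 2 ^ 3 * 3 ^ 3 by decide, hr.dvd_mul] at h3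
        rcases h3 with h3 | h3
        · exact h2r (hr.dvd_of_dvd_pow h3)
        · exact hr3 ((Nat.prime_dvd_prime_iff_eq hr Nat.prime_three).1 (hr.dvd_of_dvd_pow h3))
    · exact not_dvd_index_SU hF hp hr hrp (by norm_num) (by omega)
  · obtain rfl : q ^ 3 * a * (q * q + 1) = x := Nat.eq_of_mul_eq_mul_left (Nat.succ_pos q) (hU3.symm.trans hx)
    rw [hr.dvd_mul, hr.dvd_mul]
    rintro ((h | h) | h)
    · exact hrq (hr.dvd_of_dvd_pow h)
    · exact ha' h
    · exact hs h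

end Cfsg.Agent.H46.SUMult
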