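import Cfsg.Agent.H82.Orth.Covering
import Cfsg.Agent.H82.Mult
import Cfsg.Agent.H64.StemBasic

/-!
# Central kernels meeting the derived preimages of `r`-subgroups
-/

set_option autoImplicit false

open scoped commutatorElement Pointwise

namespace Cfsg.Agent.H46.SUMult

open Cfsg.Agent.H82.Orth (dpre dpre_mono dpre_le_comap exists_mem_dpre conj_mem_dpre map_dpre)
open Cfsg.Agent.H82.Chev (commutator_congr commute_congr commute_commutator_of_map)

universe u v

variable {Γ : Type u} [Group Γ] {G : Type v} [Group G]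

/-- The kernel meets the derived preimage trivially. -/
def Good (σ : Γ →* G) (S : Subgroup G) : Prop := σ.ker ⊓ dpre σ S = ⊥

/-- The kernel elements of a subgroup have order prime to `r`. -/
def Clean (r : ℕ) (σ : Γ →* G) (X : Subgroup Γ) : Prop := ∀ z ∈ X, σ z = 1 → ¬ r ∣ orderOf z

/-- All `r`-subgroups are good in every central extension. -/
def Kill (r : ℕ) (G : Type u) [Group G] : Prop :=
  ∀ (Γ : Type u) [Group Γ] [Finite Γ] (σ : Γ →* G), Function.Surjective σ → σ.ker ≤ Subgroup.center Γ →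
    ∀ S : Subgroup G, IsPGroup r S → Good σ S

variable {σ : Γ →* G} (hs : Function.Surjective σ) (hc : σ.ker ≤ Subgroup.center Γ)

theorem Good.of_le {S T : Subgroup G} (h : Good σ T) (hle : S ≤ T) : Good σ S :=
  eq_bot_iff.2 ((inf_le_inf_left _ (dpre_mono hle)).trans h.le)

include hs hc

/-- The derived preimage of an `r`-group is an `r`-group. -/
theorem isPGroup_dpre [Finite Γ] {r : ℕ} [Fact r.Prime] {S : Subgroup G} (hS : IsPGroup r S) :
    IsPGroup r ↥(dpre σ S) := by
  classical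
  obtain ⟨P⟩ : Nonempty (Sylow r ↥(S.comap σ)) := inferInstance
  set P' : Subgroup Γ := (P : Subgroup ↥(S.comap σ)).map (S.comap σ).subtype with hP'
  have hP'p : IsPGroup r P' := P.isPGroup'.map _
  have hsurj : ∀ s ∈ S, ∃ x ∈ P', σ x = s := by
    let f : ↥(S.comap σ) →* ↥S := (σ.comp (S.comap σ).subtype).codRestrict S fun x => x.2
    have hf : Function.Surjective f := fun s => by
      obtain ⟨x, hx⟩ := hs s
      exact ⟨⟨x, by rw [Subgroup.mem_comap, hx]; exact s.2⟩, Subtype.ext hx⟩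
    have htop : ((P.mapSurjective hf : Sylow r ↥S) : Subgroup ↥S) = ⊤ := by
      exact ((P.mapSurjective hf).is_maximal' (hS.of_equiv Subgroup.topEquiv.symm) le_top).symm
    intro s hs'
    have : (⟨s, hs'⟩ : ↥S) ∈ ((P.mapSurjective hf : Sylow r ↥S) : Subgroup ↥S) := by
      rw [htop]; exact Subgroup.mem_top _
    obtain ⟨x, hx, e⟩ := this
    exact ⟨x, ⟨x, hx, rfl⟩, congrArg Subtype.val e⟩
  refine hP'p.to_le ((Subgroup.commutator_le.2 ?_).trans (Subgroup.commutator_le_self P'))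
  intro a ha b hb
  obtain ⟨a', ha', e1⟩ := hsurj _ ha
  obtain ⟨b', hb', e2⟩ := hsurj _ hb
  rw [← commutator_congr hc e1 e2]
  exact Subgroup.commutator_mem_commutator ha' hb'

/-- Clean containment gives goodness. -/
theorem Clean.good [Finite Γ] {r : ℕ} [Fact r.Prime] {X : Subgroup Γ} (hX : Clean r σ X)
    {S : Subgroup G} (hS : IsPGroup r S) (hle : dpre σ S ≤ X) : Good σ S := by
  rw [Good, Subgroup.eq_bot_iff_forall]
  rintro z ⟨hz1, hz2⟩
  obtain ⟨k, hk⟩ := (isPGroup_dpre hs hc hS) ⟨z, hz2⟩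
  have hk' : z ^ r ^ k = 1 := by simpa using congrArg Subtype.val hk
  obtain ⟨j, -, hj⟩ := (Nat.dvd_prime_pow (Fact.out : r.Prime)).1 (orderOf_dvd_of_pow_eq_one hk')
  rcases Nat.eq_zero_or_pos j with rfl | hj0
  · exact orderOf_eq_one_iff.1 (by simpa using hj)
  · exact absurd (hj ▸ dvd_pow_self r hj0.ne') (hX z (hle hz2) hz1)

/-- Goodness is invariant under conjugation. -/
theorem Good.conj {S T : Subgroup G} (h : Good σ S) (g : G) (hT : ∀ t ∈ T, g * t * g⁻¹ ∈ S) : Good σ T := by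
  rw [Good, Subgroup.eq_bot_iff_forall]
  rintro z ⟨hz1, hz2⟩
  obtain ⟨x, rfl⟩ := hs g
  have h1 := conj_mem_dpre (P' := S) x hT hz2
  rw [Subgroup.mem_center_iff.1 (hc hz1) x, mul_inv_cancel_right] at h1
  exact (Subgroup.eq_bot_iff_forall _).1 h z ⟨hz1, h1⟩

/-- The order of a central commutator is prime to `r` when the Sylow subgroups are good. -/
theorem not_dvd_orderOf [Finite Γ] {r : ℕ} [hr : Fact r.Prime] (hall : ∀ S : Subgroup G, IsPGroup r S → Good σ S)
    {z : Γ} (hz : z ∈ σ.ker) (hz' : z ∈ commutator Γ) : ¬ r ∣ orderOf z := by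
  intro hdvd
  set w := z ^ (orderOf z / r) with hw
  have hwo : orderOf w = r := orderOf_pow_orderOf_div (orderOf_pos z).ne' hdvd
  have hwk : w ∈ σ.ker := pow_mem hz _
  have hpz : IsPGroup r (Subgroup.zpowers w) := IsPGroup.of_card (n := 1) (by rw [Nat.card_zpowers, hwo, pow_one])
  obtain ⟨P, hP⟩ := hpz.exists_le_sylow
  have h1 := Cfsg.Agent.H64.mem_commutator_sylow_of_central P (hc hwk) (pow_mem hz' _) (hP (Subgroup.mem_zpowers w))
  have h2 : w ∈ dpre σ ((P : Subgroup Γ).map σ) :=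
    Subgroup.commutator_mono (Subgroup.le_comap_map σ _) (Subgroup.le_comap_map σ _) h1
  have := (Subgroup.eq_bot_iff_forall _).1 (hall _ (P.isPGroup'.map σ)) w ⟨hwk, h2⟩
  rw [this, orderOf_one] at hwo
  exact hr.out.ne_one hwo.symm

/-- A normalised subgroup absorbing the commutators of a generating part. -/
theorem dpre_le_of_split {X T : Subgroup Γ} (hnorm : ∀ t ∈ T, ∀ x ∈ X, t * x * t⁻¹ ∈ X)
    (hT : ⁅T, T⁆ ≤ X) {S : Subgroup G} (hS : ∀ s ∈ S, ∃ x ∈ X, ∃ t ∈ T, σ (x * t) = s) : dpre σ S ≤ X := by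
  refine Subgroup.commutator_le.2 fun a ha b hb => ?_
  obtain ⟨x, hx, c, hct, e1⟩ := hS _ ha
  obtain ⟨y, hy, d, hdt, e2⟩ := hS _ hb
  rw [← commutator_congr hc e1 e2,
    show ⁅x * c, y * d⁆ = x * (c * y * c⁻¹) * ⁅c, d⁆ * (d * x⁻¹ * d⁻¹) * y⁻¹ by
      simp only [commutatorElement_def]; group]
  exact mul_mem (mul_mem (mul_mem (mul_mem hx (hnorm c hct y hy)) (hT (Subgroup.commutator_mem_commutator hct hdt)))
    (hnorm d hdt _ (inv_mem hx))) (inv_mem hy)

/-- The cyclic case. -/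
theorem dpre_le_of_cyclic {X : Subgroup Γ} {c : Γ} (hnorm : ∀ i : ℤ, ∀ x ∈ X, c ^ i * x * (c ^ i)⁻¹ ∈ X)
    {S : Subgroup G} (hS : ∀ s ∈ S, ∃ x ∈ X, ∃ i : ℤ, σ x * σ c ^ i = s) : dpre σ S ≤ X := by
  refine dpre_le_of_split hs hc (T := Subgroup.zpowers c) ?_ ?_ fun s hs' => ?_
  · rintro t ⟨i, rfl⟩ x hx
    exact hnorm i x hx
  · refine Subgroup.commutator_le.2 ?_
    rintro _ ⟨i, rfl⟩ _ ⟨j, rfl⟩
    rw [commutatorElement_eq_one_iff_commute.2 ((Commute.refl c).zpow_zpow i j)]
    exact one_mem _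
  · obtain ⟨x, hx, i, e⟩ := hS s hs'
    exact ⟨x, hx, c ^ i, ⟨i, rfl⟩, by rw [map_mul, map_zpow, e]⟩

/-- Lifts of an element commute with the derived preimage of a subgroup it centralises. -/
theorem commute_dpre {K : Subgroup G} {c : Γ} (h : ∀ k ∈ K, Commute (σ c) k) {x : Γ} (hx : x ∈ dpre σ K) :
    Commute c x := by
  have : dpre σ K ≤ Subgroup.centralizer {c} := Subgroup.commutator_le.2 fun a ha b hb =>
    Subgroup.mem_centralizer_singleton_iff.2 (commute_commutator_of_map hc (h _ ha) (h _ hb)).eq.symm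
  exact (Subgroup.mem_centralizer_singleton_iff.1 (this hx)).symm

omit hs in
/-- Two commuting clean subgroups with independent images give a clean product. -/
theorem Clean.sup {r : ℕ} [Fact r.Prime] {X Y : Subgroup Γ} (hX : Clean r σ X) (hY : Clean r σ Y)
    (hcom : ∀ x ∈ X, ∀ y ∈ Y, Commute x y) (hind : ∀ x ∈ X, ∀ y ∈ Y, σ x * σ y = 1 → σ x = 1) :
    Clean r σ (X ⊔ Y) := by
  intro z hz h1
  have hle : X ≤ Subgroup.normalizer (Y : Set Γ) := fun x hx => Subgroup.mem_normalizer_iff.2 fun y =>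
    ⟨fun hy => by rwa [(hcom x hx y hy).eq, mul_inv_cancel_right], fun hy => by
      have := hcom _ (inv_mem hx) _ hy
      have e : y = x⁻¹ * (x * y * x⁻¹) * x := by group
      rw [e, this.eq, inv_mul_cancel_right]; exact hy⟩
  have hz' : z ∈ (↑(X ⊔ Y) : Set Γ) := hz
  rw [Subgroup.coe_mul_of_left_le_normalizer_right _ _ hle] at hz'
  obtain ⟨x, hx, y, hy, rfl⟩ := hz'
  rw [map_mul] at h1
  have hx1 := hind x hx y hy h1
  have hy1 : σ y = 1 := by rwa [hx1, one_mul] at h1
  intro hdvd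
  have h2 := (hcom x hx y hy).orderOf_mul_dvd_lcm
  rcases (Fact.out : r.Prime).dvd_mul.1 ((hdvd.trans h2).trans (Nat.lcm_dvd_mul _ _)) with h | h
  · exact hX x hx hx1 h
  · exact hY y hy hy1 h

end Cfsg.Agent.H46.SUMult

namespace Cfsg.Agent.H46.SUMult

open Cfsg.Agent.H82.Orth (dpre dpre_mono dpre_le_comap exists_mem_dpre conj_mem_dpre map_dpre)

universe w

variable {r : ℕ} [hr : Fact r.Prime] {G : Type w} [Group G]

/-- The kernels of stem extensions have order prime to `r`. -/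
theorem Kill.not_dvd_stem (h : Kill r G) {Γ : Type w} [Group Γ] [Finite Γ] {σ : Γ →* G}
    (hσ : Cfsg.IsStemExtension σ) : ¬ r ∣ Nat.card σ.ker := by
  intro hdvd
  obtain ⟨⟨z, hz⟩, hord⟩ := exists_prime_orderOf_dvd_card' r hdvd
  exact not_dvd_orderOf hσ.1 hσ.2.1 (h Γ σ hσ.1 hσ.2.1) hz (hσ.2.2 hz)
    (by rw [← Subgroup.orderOf_coe] at hord; simp only at hord; rw [hord])

/-- A bound on the kernels meeting the derived subgroup. -/
theorem kill_of_not_dvd
    (h : ∀ (Γ : Type w) [Group Γ] [Finite Γ] (σ : Γ →* G), Function.Surjective σ → σ.ker ≤ Subgroup.center Γ →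
      ∀ z ∈ σ.ker, z ∈ commutator Γ → ¬ r ∣ orderOf z) : Kill r G :=
  fun Γ _ _ σ hs hc S hS => Clean.good hs hc (X := commutator Γ) (fun z hz h1 => h Γ σ hs hc z h1 hz) hS
    (Subgroup.commutator_mono le_top le_top)

/-- A trivial multiplier kills every prime. -/
theorem kill_of_one [Finite G] (h : Cfsg.HasCyclicSchurMultiplier G 1) : Kill r G :=
  kill_of_not_dvd fun Γ _ _ σ hs hc z hz hz' hdvd => by
    have := Cfsg.Agent.H82.ker_inf_commutator_eq_bot h hs hc
    rw [(Subgroup.eq_bot_iff_forall _).1 this z ⟨hz, hz'⟩, orderOf_one] at hdvd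
    exact hr.out.not_dvd_one hdvd

/-- Goodness of one subgroup of index prime to `r` is enough. -/
theorem kill_of_index [Finite G] (H : Subgroup G) (hH : ¬ r ∣ H.index)
    (h : ∀ (Γ : Type w) [Group Γ] [Finite Γ] (σ : Γ →* G), Function.Surjective σ → σ.ker ≤ Subgroup.center Γ →
      ∀ S : Subgroup G, S ≤ H → IsPGroup r S → Good σ S) : Kill r G := by
  intro Γ _ _ σ hs hc S hS
  obtain ⟨P⟩ : Nonempty (Sylow r H) := inferInstance
  set P' : Subgroup G := (P : Subgroup H).map H.subtype with hP'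
  have hP'le : P' ≤ H := Subgroup.map_subtype_le _
  have hPp : IsPGroup r P' := P.isPGroup'.map _
  have hidx : ¬ r ∣ P'.index := by
    rw [hP', Subgroup.index_map_subtype, hr.out.dvd_mul]
    rintro (h1 | h1)
    · exact P.not_dvd_index h1
    · exact hH h1
  obtain ⟨Q, hQ⟩ := hS.exists_le_sylow
  obtain ⟨R, hR⟩ := hPp.exists_le_sylow
  have hRP : (R : Subgroup G) = P' := by
    refine le_antisymm ?_ hR
    have h1 : P'.relIndex (R : Subgroup G) = 1 := by
      obtain ⟨k, hk⟩ := R.isPGroup'.exists_card_eq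
      have h2 : P'.relIndex (R : Subgroup G) ∣ r ^ k := hk ▸ Subgroup.relIndex_dvd_card _ _
      obtain ⟨j, -, hj⟩ := (Nat.dvd_prime_pow hr.out).1 h2
      rcases Nat.eq_zero_or_pos j with rfl | hj0
      · simpa using hj
      · exact absurd ((hj ▸ dvd_pow_self r hj0.ne').trans (Subgroup.relIndex_dvd_index_of_le hR)) hidx
    exact Subgroup.relIndex_eq_one.1 h1
  obtain ⟨g, hg⟩ := MulAction.exists_smul_eq G Q R
  refine (h Γ σ hs hc P' hP'le hPp).conj hs hc g fun t ht => ?_
  rw [← hRP, ← hg, Sylow.coe_subgroup_smul]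
  exact Subgroup.smul_mem_pointwise_smul t (MulAut.conj g) _ (hQ ht)

variable {H : Type w} [Group H]

/-- An embedded group with good `r`-subgroups gives clean derived preimages. -/
theorem Kill.clean (h : Kill r H) {f : H →* G} (hf : Function.Injective f) {Γ : Type w} [Group Γ] [Finite Γ]
    {σ : Γ →* G} (hs : Function.Surjective σ) (hc : σ.ker ≤ Subgroup.center Γ) :
    Clean r σ (dpre σ f.range) := by
  set e := MonoidHom.ofInjective hf
  let τ : ↥(f.range.comap σ) →* H :=
    e.symm.toMonoidHom.comp ((σ.comp (f.range.comap σ).subtype).codRestrict f.range fun x => x.2)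
  have hτs : Function.Surjective τ := fun x => by
    obtain ⟨y, hy⟩ := hs (f x)
    refine ⟨⟨y, by rw [Subgroup.mem_comap, hy]; exact ⟨x, rfl⟩⟩, ?_⟩
    apply e.injective
    simp only [τ, MonoidHom.comp_apply, MulEquiv.coe_toMonoidHom, MulEquiv.apply_symm_apply]
    exact Subtype.ext hy
  have hker : ∀ x, x ∈ τ.ker ↔ σ x.1 = 1 := fun x => by
    rw [MonoidHom.mem_ker, MonoidHom.comp_apply, MulEquiv.coe_toMonoidHom,
      MulEquiv.map_eq_one_iff, ← Subtype.coe_inj]
    rfl
  have hτc : τ.ker ≤ Subgroup.center ↥(f.range.comap σ) := fun x hx =>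
    Subgroup.mem_center_iff.2 fun y => Subtype.ext (Subgroup.mem_center_iff.1 (hc ((hker x).1 hx)) y.1)
  intro z hz h1
  have hz' : z ∈ (commutator ↥(f.range.comap σ)).map (f.range.comap σ).subtype := by
    rwa [Subgroup.map_subtype_commutator]
  obtain ⟨w, hw, rfl⟩ := hz'
  have := not_dvd_orderOf hτs hτc (h _ τ hτs hτc) ((hker w).2 h1) hw
  rwa [← Subgroup.orderOf_coe] at this

/-- Subgroups of an embedded good group are good. -/
theorem Kill.good_of_le (h : Kill r H) {f : H →* G} (hf : Function.Injective f) {Γ : Type w} [Group Γ] [Finite Γ]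
    {σ : Γ →* G} (hs : Function.Surjective σ) (hc : σ.ker ≤ Subgroup.center Γ) {S : Subgroup G}
    (hS : IsPGroup r S) (hle : S ≤ f.range) : Good σ S :=
  (h.clean hf hs hc).good hs hc hS (dpre_mono hle)

/-- Invariance under isomorphisms. -/
theorem Kill.congr (h : Kill r H) (e : H ≃* G) : Kill r G := fun Γ _ _ σ hs hc S hS =>
  h.good_of_le (f := e.toMonoidHom) e.injective hs hc hS fun x _ => ⟨e.symm x, e.apply_symm_apply x⟩

/-- Cyclic image. -/
theorem good_of_isCyclic {Γ : Type w} [Group Γ] {σ : Γ →* G} (hs : Function.Surjective σ)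
    (hc : σ.ker ≤ Subgroup.center Γ) (S : Subgroup G) [IsCyclic S] : Good σ S := by
  haveI : IsCyclic ↥((S.comap σ).map σ) := by rw [Subgroup.map_comap_eq_self_of_surjective hs]; infer_instance
  rw [Good, dpre, Cfsg.Agent.H64.commutator_eq_bot_of_isCyclic_map hc]
  exact inf_bot_eq _

end Cfsg.Agent.H46.SUMult
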