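import Cfsg.Agent.H46.SUMult.Pairing

/-!
# The characteristic prime for the base groups
-/

set_option autoImplicit false

open scoped commutatorElement Pointwise

namespace Cfsg.Agent.H46.SUMult

open Matrix Cfsg Cfsg.Agent.H3
open Cfsg.Agent.H82.Orth (dpre)

universe u

variable {F : Type u} [Field F] [Fintype F] {q : ℕ} (hF : Fintype.card F = q ^ 2) {p : ℕ} [Fact p.Prime] [CharP F p]

include hF

/-- `q` is a power of the characteristic. -/
theorem dvd_q : ∃ k, 1 ≤ k ∧ q = p ^ k := by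
  obtain ⟨p', k, hp', hc', hk, hqk⟩ := exists_q_eq_pow hF
  obtain rfl : p = p' := CharP.eq F ‹CharP F p› hc'
  exact ⟨k, hk, hqk⟩

/-- The part of the unit count prime to the characteristic. -/
theorem unitCount_split (n : ℕ) : ∃ y, unitCount q n = q ^ n * y ∧ ¬ p ∣ y := by
  refine ⟨if Even n then q ^ (n + 1) + 1 else q ^ (n + 1) - 1, rfl, ?_⟩
  obtain ⟨k, hk, hqk⟩ := dvd_q hF (p := p)
  have hp : p.Prime := Fact.out
  have hd : p ∣ q ^ (n + 1) := dvd_pow (hqk ▸ dvd_pow_self p (by omega)) (Nat.succ_ne_zero n)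
  have h1 : 1 ≤ q ^ (n + 1) := Nat.one_le_pow _ _ (by have := two_le_q hF; omega)
  split_ifs
  · exact fun h => hp.not_dvd_one ((Nat.dvd_add_right hd).1 h)
  · intro h
    have := Nat.dvd_sub hd h
    rw [Nat.sub_sub_self h1] at this
    exact hp.not_dvd_one this

/-- The radical extended by a good subgroup of full order kills the characteristic. -/
theorem kill_char (H : HypPair F q) {m x : ℕ} (hm : 1 ≤ m)
    (hmain : ∀ (Γ : Type u) [Group Γ] (σ : Γ →* SU (2 + m) F q), Function.Surjective σ → σ.ker ≤ Subgroup.center Γ →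
      ∀ S ≤ (blkR (F := F) (q := q) 2 m).range, Good σ S → Good σ (H.Q hF m ⊔ S))
    (S : Subgroup (SU (2 + m) F q)) (hSL : S ≤ (blkR (F := F) (q := q) 2 m).range)
    (hcard : Nat.card S * x = Nat.card (SU m F q)) (hx : ¬ p ∣ x)
    (hgood : ∀ (Γ : Type u) [Group Γ] [Finite Γ] (σ : Γ →* SU (2 + m) F q), Function.Surjective σ →
      σ.ker ≤ Subgroup.center Γ → Good σ S) : Kill p (SU (2 + m) F q) := by
  have hp : p.Prime := Fact.out
  refine kill_of_index (H.Q hF m ⊔ S) ?_ fun Γ _ _ σ hs hc T hT _ =>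
    (hmain Γ σ hs hc S hSL (hgood Γ σ hs hc)).of_le hT
  have hnS : S ≤ Subgroup.normalizer (H.Q hF m : Set (SU (2 + m) F q)) := by
    intro k hk
    obtain ⟨a, rfl⟩ := hSL hk
    refine Subgroup.mem_normalizer_fintype fun y hy => ?_
    obtain ⟨y, b, hb, rfl⟩ := hy
    exact ⟨_, _, _, HypPair.IsLev.conj hF H (H.isLev_blkR hF a) y b hb⟩
  have hdis : Disjoint (H.Q hF m) S := Subgroup.disjoint_def.2 fun h1 h2 => H.eq_one_of_mem_Q hF h1 (hSL h2)
  have hK : Nat.card ↥(H.Q hF m ⊔ S) = q ^ (2 * m + 1) * Nat.card S := by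
    rw [card_sup_of_disjoint hnS hdis, H.card_Q hF]
  obtain ⟨y₁, e₁, h₁⟩ := unitCount_split hF (p := p) (m + 1)
  obtain ⟨y₂, e₂, h₂⟩ := unitCount_split hF (p := p) m
  have hG : Nat.card (SU (2 + m) F q) = q ^ (2 * m + 1) * Nat.card S * (y₁ * y₂ * x) := by
    rw [show Nat.card (SU (2 + m) F q) = Nat.card (SU (m + 1 + 1) F q) by rw [show 2 + m = m + 1 + 1 by omega],
      card_SU_succ hF (by omega : 1 ≤ m + 1), card_SU_succ hF hm, e₁, e₂, ← hcard]
    ring
  have hidx : (H.Q hF m ⊔ S).index = y₁ * y₂ * x :=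
    Nat.eq_of_mul_eq_mul_left (Nat.card_pos (α := ↥(H.Q hF m ⊔ S))) ((H.Q hF m ⊔ S).card_mul_index.trans
      (by rw [hG, hK]))
  rw [hidx, hp.dvd_mul, hp.dvd_mul]
  rintro ((h | h) | h)
  · exact h₁ h
  · exact h₂ h
  · exact hx h

/-- The main step, more than two elements in the fixed field. -/
theorem hmain_big (H : HypPair F q) (hq : 3 ≤ q) {m : ℕ} (hm : 1 ≤ m) (hcase : m = 1 ∨ 3 ≤ m ∨ 4 ≤ q)
    (Γ : Type u) [Group Γ] (σ : Γ →* SU (2 + m) F q) (hs : Function.Surjective σ) (hc : σ.ker ≤ Subgroup.center Γ)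
    (S : Subgroup (SU (2 + m) F q)) (hSL : S ≤ (blkR (F := F) (q := q) 2 m).range) (hgood : Good σ S) :
    Good σ (H.Q hF m ⊔ S) :=
  H.good_big hF hs hc (H.zcentral_of_move hF hs hc hm (H.exists_move hF (Or.inr hq))) hq hm hcase hSL hgood

/-- The main step for the field with four elements. -/
theorem hmain_two (H : HypPair F q) (hq : q = 2) {m : ℕ} (hm : 3 ≤ m) (hm' : m % 3 ≠ 1)
    (Γ : Type u) [Group Γ] (σ : Γ →* SU (2 + m) F q) (hs : Function.Surjective σ) (hc : σ.ker ≤ Subgroup.center Γ)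
    (S : Subgroup (SU (2 + m) F q)) (hSL : S ≤ (blkR (F := F) (q := q) 2 m).range) (hgood : Good σ S) :
    Good σ (H.Q hF m ⊔ S) :=
  H.good_two hF hs hc (H.zcentral_of_move hF hs hc (by omega) (H.exists_move hF (Or.inl (by omega)))) hq hm hm' hSL
    hgood

/-- Dimension three, more than two elements in the fixed field. -/
theorem kill_three_char (hq : 3 ≤ q) : Kill p (SU 3 F q) := by
  obtain ⟨H⟩ := nonempty_hypPair hF
  exact kill_char hF H (m := 1) (x := 1) le_rfl (hmain_big hF H hq le_rfl (Or.inl rfl)) ⊥ bot_le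
    (by rw [Subgroup.card_bot, card_SU_one hF]) (Fact.out : p.Prime).not_dvd_one
    fun Γ _ _ σ hs hc => good_of_isCyclic hs hc ⊥

/-- Dimension four, at least four elements in the fixed field. -/
theorem kill_four_char (hq : 4 ≤ q) : Kill p (SU 4 F q) := by
  classical
  obtain ⟨H⟩ := nonempty_hypPair hF
  obtain ⟨w, hw0⟩ := exists_monomial hF (Equiv.swap (0 : Fin 4) 2 * Equiv.swap 1 3) (fun _ => (1 : F))
    (fun _ => one_pow _) (by simp)
  have hw : ∀ u v : Fin 2 → F, sv w (Fin.append u v) = Fin.append v u := fun u v => by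
    funext i; rw [hw0, one_mul]; fin_cases i <;> rfl
  have hwblk : ∀ x y : SU 2 F q, w * blk 2 2 (x, y) * w⁻¹ = blk 2 2 (y, x) := fun x y => by
    rw [mul_inv_eq_iff_eq_mul]
    refine sv_ext fun z => ?_
    rw [← Fin.append_castAdd_natAdd (m := 2) (n := 2) (f := z), sv_mul, sv_mul, sv_blk, hw, hw, sv_blk]
  have hZL : H.Z hF 2 ≤ (blkL (F := F) (q := q) 2 2).range := by
    rw [show (blkL (F := F) (q := q) 2 2).range = stabs q (tail 2 2 F) from range_emb hF]
    rintro _ ⟨a, ha, rfl⟩ i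
    rw [tail_eq, show Fin.append (0 : Fin 2 → F) (Pi.single i 1) = HypPair.inc (Pi.single i 1) from rfl,
      H.sv_root hF, H.hincE hF, HypPair.inc_zero, hermForm_zero_right hF]
    simp
  set S := (H.Z hF 2).map (MulAut.conj w).toMonoidHom with hS
  have hSL : S ≤ (blkR (F := F) (q := q) 2 2).range := by
    rintro _ ⟨z, hz, rfl⟩
    obtain ⟨a, rfl⟩ := hZL hz
    exact ⟨a, (hwblk a 1).symm⟩
  have hcardS : Nat.card S = q := by
    rw [hS, ← Nat.card_congr (Subgroup.equivMapOfInjective _ _ (MulAut.conj w).injective).toEquiv]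
    refine Eq.trans ?_ (card_trace_zero hF)
    refine (Nat.card_congr (Equiv.ofBijective (fun z : {z : F // z + z ^ q = 0} =>
      (⟨H.root hF (0 : Fin 2 → F) z.1 ((HypPair.adm_zero_iff hF).2 z.2), _, _, rfl⟩ : H.Z hF 2)) ⟨?_, ?_⟩)).symm
    · intro a b h
      exact Subtype.ext (H.root_inj hF (ha := (HypPair.adm_zero_iff hF).2 a.2) (ha' := (HypPair.adm_zero_iff hF).2 b.2)
        (congrArg Subtype.val h)).2
    · rintro ⟨_, a, ha, rfl⟩
      exact ⟨⟨a, (HypPair.adm_zero_iff hF).1 ha⟩, rfl⟩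
  obtain ⟨y, hy, hy'⟩ := unitCount_split hF (p := p) 1
  refine kill_char hF H (m := 2) (x := y) (by norm_num) (hmain_big hF H (by omega) (by norm_num) (Or.inr (Or.inr hq)))
    S hSL (by rw [hcardS, card_SU_succ hF le_rfl, card_SU_one hF, hy]; ring) hy' fun Γ _ _ σ hs hc => ?_
  have hz := H.zcentral_of_move hF hs hc (m := 2) (by norm_num) (H.exists_move hF (Or.inl le_rfl))
  have hZgood : Good σ (H.Z hF 2) := by
    rw [Good, show dpre σ (H.Z hF 2) = ⊥ from eq_bot_iff.2 (Subgroup.commutator_le.2 fun x hx y hy => by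
      rw [Subgroup.mem_bot, commutatorElement_eq_one_iff_commute]
      exact hz x hx y (H.Z_le hF hy))]
    exact inf_bot_eq _
  refine hZgood.conj hs hc w⁻¹ ?_
  rintro _ ⟨z, hz', rfl⟩
  show w⁻¹ * (w * z * w⁻¹) * w⁻¹⁻¹ ∈ H.Z hF 2
  simpa [mul_assoc] using hz'

/-- The Sylow subgroups of the smaller group transported to the complement. -/
theorem kill_char_sylow (H : HypPair F q) {m : ℕ} (hm : 1 ≤ m)
    (hmain : ∀ (Γ : Type u) [Group Γ] (σ : Γ →* SU (2 + m) F q), Function.Surjective σ → σ.ker ≤ Subgroup.center Γ →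
      ∀ S ≤ (blkR (F := F) (q := q) 2 m).range, Good σ S → Good σ (H.Q hF m ⊔ S))
    (hk : Kill p (SU m F q)) : Kill p (SU (2 + m) F q) := by
  have hinj : Function.Injective (blkR (F := F) (q := q) 2 m) :=
    (blk_injective 2 m).comp fun x y h => congrArg Prod.snd h
  obtain ⟨P⟩ : Nonempty (Sylow p (SU m F q)) := inferInstance
  refine kill_char hF H hm hmain ((P : Subgroup (SU m F q)).map (blkR 2 m)) (Subgroup.map_le_range _ _)
    (x := (P : Subgroup (SU m F q)).index) ?_ P.not_dvd_index fun Γ _ _ σ hs hc =>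
      hk.good_of_le hinj hs hc (P.isPGroup'.map _) (Subgroup.map_le_range _ _)
  rw [← Nat.card_congr (Subgroup.equivMapOfInjective _ _ hinj).toEquiv]
  exact (P : Subgroup (SU m F q)).card_mul_index

/-- Dimension five over the field with nine elements. -/
theorem kill_five_three (hq : q = 3) : Kill p (SU 5 F q) := by
  obtain ⟨H⟩ := nonempty_hypPair hF
  exact kill_char_sylow hF H (m := 3) (by norm_num)
    (hmain_big hF H (by omega) (by norm_num) (Or.inr (Or.inl le_rfl))) (kill_three_char hF (by omega))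

omit [Fact p.Prime] [CharP F p] in
/-- The quaternion group in dimension three over the field with four elements. -/
theorem kill_three_two (hq : q = 2) [CharP F 2] : Kill 2 (SU 3 F q) := by
  classical
  haveI : Fact (Nat.Prime 2) := ⟨Nat.prime_two⟩
  subst hq
  obtain ⟨H⟩ := nonempty_hypPair hF
  obtain ⟨ν, hν0, hν, hνj⟩ := HypPair.exists_norm_one_ne hF
  have hν1 : ν ≠ 1 := by simpa using hνj 1 one_pos (by norm_num)
  have h2 : (2 : F) = 0 := CharTwo.two_eq_zero
  have hν2 : ν ^ 2 = ν + 1 := by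
    have h : (ν - 1) * (ν ^ 2 + ν + 1) = 0 := by linear_combination hν
    have h' := (mul_eq_zero.1 h).resolve_left (sub_ne_zero.2 hν1)
    linear_combination h' - (ν + 1) * h2
  have helts : ∀ x : F, x = 0 ∨ x = 1 ∨ x = ν ∨ x = ν + 1 := by
    intro x
    by_contra h
    push Not at h
    have hne : ν + 1 ≠ 0 := fun e => hν1 (by linear_combination e - h2)
    have hsub : ({0, 1, ν, ν + 1, x} : Finset F).card ≤ 4 := (show Fintype.card F = 4 by rw [hF]; norm_num) ▸
      Finset.card_le_univ _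
    rw [Finset.card_insert_of_notMem (by simp [hν0.symm, hne.symm, h.1.symm]),
      Finset.card_insert_of_notMem (by simp [hν1.symm, h.2.1.symm, hν0]),
      Finset.card_insert_of_notMem (by simp [h.2.2.1.symm]),
      Finset.card_insert_of_notMem (by simp [h.2.2.2.symm]), Finset.card_singleton] at hsub
    omega
  refine kill_char hF H (m := 1) (x := 1) le_rfl (fun Γ _ σ hs hc S hSL _ => ?_) ⊥ bot_le
    (by rw [Subgroup.card_bot, card_SU_one hF]) Nat.prime_two.not_dvd_one fun Γ _ _ σ hs hc => good_of_isCyclic hs hc ⊥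
  have hS : S = ⊥ := by
    rw [Subgroup.eq_bot_iff_forall]
    intro k hk
    obtain ⟨a, rfl⟩ := hSL hk
    haveI : Subsingleton (SU 1 F 2) := (Nat.card_eq_one_iff_unique.1 (card_SU_one hF)).1
    rw [Subsingleton.elim a 1, map_one]
  rw [hS, sup_bot_eq]
  have hadm : ∀ x : F, x ^ 3 = 1 → HypPair.Adm 2 (fun _ : Fin 1 => x) ν := by
    intro x hx
    show ν + ν ^ 2 + hermForm 1 F 2 (fun _ => x) (fun _ => x) = 0
    simp only [hermForm, Fin.sum_univ_one]
    linear_combination hν2 + hx + (ν + 1) * h2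
  set A := H.root hF _ ν (hadm 1 (one_pow 3)) with hA
  set B := H.root hF _ ν (hadm ν hν) with hB
  have hz : HypPair.Adm 2 (0 : Fin 1 → F) 1 := (HypPair.adm_zero_iff hF).2 (by linear_combination h2)
  set Z := H.root hF (0 : Fin 1 → F) 1 hz with hZ
  have hf : ∀ x y : F, hermForm 1 F 2 (fun _ => x) (fun _ => y) = x * y ^ 2 := fun x y => by
    simp [hermForm]
  have hsq : ∀ (x : F) (hx : x ^ 3 = 1), H.root hF _ ν (hadm x hx) ^ 2 = Z := by
    intro x hx
    rw [sq, H.root_mul hF]
    refine H.root_congr hF (funext fun i => ?_) ?_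
    · show x + x = 0
      linear_combination x * h2
    · rw [hf]; linear_combination -hx + (ν - 1) * h2
  have hA2 : A ^ 2 = Z := hsq 1 (one_pow 3)
  have hB2 : B ^ 2 = A ^ 2 := (hsq ν hν).trans hA2.symm
  have hZ2 : Z * Z = 1 := by
    rw [hZ, H.root_mul hF, ← H.root_one hF]
    exact H.root_congr hF (add_zero 0) (by rw [hermForm_zero_left hF]; linear_combination h2)
  have hA4 : A ^ 4 = 1 := by rw [show (4 : ℕ) = 2 * 2 from rfl, pow_mul, hA2, sq, hZ2]
  have hAo : orderOf A = 2 * 2 := by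
    have : orderOf A = 2 ^ (1 + 1) := orderOf_eq_prime_pow (by
      rw [pow_one, hA2, hZ, ← H.root_one hF]
      exact fun h => one_ne_zero (H.root_inj hF h).2) (by simpa using hA4)
    simpa using this
  have hconj : B * A * B⁻¹ = A⁻¹ := by
    have hc' : ⁅B, A⁆ = Z := by
      rw [hB, hA, H.root_comm hF]
      exact H.root_congr hF rfl (by rw [hf, hf]; linear_combination -hν2 - h2)
    rw [eq_inv_iff_mul_eq_one, show B * A * B⁻¹ * A = ⁅B, A⁆ * A ^ 2 by simp only [commutatorElement_def]; group, hc',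
      hA2, hZ2]
  have hall : ∀ k ∈ H.Q hF 1, ∃ i : ℤ, k = A ^ i ∨ k = A ^ i * B := by
    rintro _ ⟨x, a, ha, rfl⟩
    have hxc : x = fun _ => x 0 := funext fun i => by rw [Subsingleton.elim i 0]
    have hZcase : ∀ k : SU (2 + 1) F 2, k ∈ H.Z hF 1 → k = 1 ∨ k = Z := by
      rintro _ ⟨b, hb, rfl⟩
      have hb' := (HypPair.adm_zero_iff hF).1 hb
      have : b * (b - 1) = 0 := by linear_combination hb' - b * h2
      rcases mul_eq_zero.1 this with h | h
      · left; rw [← H.root_one hF]; exact H.root_congr hF rfl h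
      · right; exact H.root_congr hF rfl (sub_eq_zero.1 h)
    have key : ∀ (k : SU (2 + 1) F 2), (∃ b hb, k = H.root hF x b hb) →
        H.root hF x a ha = k ∨ H.root hF x a ha = k * A ^ 2 := by
      rintro _ ⟨b, hb, rfl⟩
      rcases hZcase _ (H.root_div hF hb ha) with h | h
      · left; exact (inv_mul_eq_one.1 h).symm
      · right; rw [hA2, ← h, mul_inv_cancel_left]
    have hA2B : ∀ n : ℕ, A ^ n * B * A ^ 2 = A ^ (n + 2) * B := fun n => by
      rw [mul_assoc, hA2, ← hB2.trans hA2, ← pow_succ', pow_succ, hB2, pow_add, mul_assoc]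
    rcases helts (x 0) with h | h | h | h
    · rcases key 1 ⟨0, by rw [hxc, h]; exact HypPair.adm_zero hF, by
        rw [← H.root_one hF]; exact H.root_congr hF (by rw [hxc, h]; rfl) rfl⟩ with e | e
      · exact ⟨0, Or.inl (by rw [e, zpow_zero])⟩
      · exact ⟨2, Or.inl (by rw [e, one_mul]; rfl)⟩
    · rcases key A ⟨ν, by rw [hxc, h]; exact hadm 1 (one_pow 3), H.root_congr hF (by rw [hxc, h]) rfl⟩ with e | e
      · exact ⟨1, Or.inl (by rw [e, zpow_one])⟩
      · exact ⟨3, Or.inl (by rw [e, ← pow_succ']; rfl)⟩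
    · rcases key B ⟨ν, by rw [hxc, h]; exact hadm ν hν, H.root_congr hF (by rw [hxc, h]) rfl⟩ with e | e
      · exact ⟨0, Or.inr (by rw [e, zpow_zero, one_mul])⟩
      · refine ⟨2, Or.inr ?_⟩
        rw [e]
        simpa using hA2B 0
    · have hx : (fun _ : Fin 1 => (1 : F)) + (fun _ => ν) = x := by
        rw [hxc, h]; funext i; simp [add_comm]
      rcases key (A * B) ⟨_, hx ▸ HypPair.adm_mul hF (hadm 1 (one_pow 3)) (hadm ν hν),
        (H.root_mul hF (hadm 1 (one_pow 3)) (hadm ν hν)).trans (H.root_congr hF hx rfl)⟩ with e | e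
      · exact ⟨1, Or.inr (by rw [e, zpow_one])⟩
      · refine ⟨3, Or.inr ?_⟩
        rw [e]
        simpa using hA2B 1
  have hmap : ((H.Q hF 1).comap σ).map σ = H.Q hF 1 := Subgroup.map_comap_eq_self_of_surjective hs _
  exact Cfsg.Agent.H64.ker_inf_commutator_eq_bot_of_quaternion hc ((H.Q hF 1).comap σ)
    (by rw [hmap]; exact H.root_mem hF _ _ _) (by rw [hmap]; exact H.root_mem hF _ _ _)
    (by rw [hmap]; exact hall) hconj hB2 hAo

omit [Fact p.Prime] [CharP F p] in
/-- Dimension five over the field with four elements. -/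
theorem kill_five_two (hq : q = 2) [CharP F 2] : Kill 2 (SU 5 F q) := by
  haveI : Fact (Nat.Prime 2) := ⟨Nat.prime_two⟩
  obtain ⟨H⟩ := nonempty_hypPair hF
  exact kill_char_sylow hF H (m := 3) (by norm_num) (hmain_two hF H hq le_rfl (by norm_num)) (kill_three_two hF hq)

omit [Fact p.Prime] [CharP F p] in
/-- Dimension seven over the field with four elements. -/
theorem kill_seven_two (hq : q = 2) [CharP F 2] : Kill 2 (SU 7 F q) := by
  haveI : Fact (Nat.Prime 2) := ⟨Nat.prime_two⟩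
  obtain ⟨H⟩ := nonempty_hypPair hF
  exact kill_char_sylow hF H (m := 5) (by norm_num) (hmain_two hF H hq (by norm_num) (by norm_num))
    (kill_five_two hF hq)

end Cfsg.Agent.H46.SUMult
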