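import Cfsg.Agent.H46.SUMult.Four

/-!
# The primes away from the characteristic in dimensions five, six and seven
-/

set_option autoImplicit false

open scoped commutatorElement Pointwise

namespace Cfsg.Agent.H46.SUMult

open Matrix Cfsg Cfsg.Agent.H3
open Cfsg.Agent.H82.Orth (dpre dpre_mono dpre_le_comap exists_mem_dpre conj_mem_dpre)

universe u

variable {F : Type u} [Field F] [Fintype F] {q : ℕ} (hF : Fintype.card F = q ^ 2)

include hF

omit hF in
theorem unitCount_values : unitCount 2 1 = 6 ∧ unitCount 2 2 = 36 ∧ unitCount 2 3 = 120 ∧ unitCount 2 4 = 528 ∧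
    unitCount 2 5 = 2016 ∧ unitCount 2 6 = 8256 ∧
    unitCount 3 1 = 24 ∧ unitCount 3 2 = 252 ∧ unitCount 3 3 = 2160 ∧ unitCount 3 4 = 19764 := by decide

/-- Dimension five over the fields with four and nine elements. -/
theorem kill_five (hq : q = 2 ∨ q = 3) {p : ℕ} [Fact p.Prime] [CharP F p] {r : ℕ} [Fact r.Prime] (hrp : r ≠ p) :
    Kill r (SU 5 F q) := by
  have hr : r.Prime := Fact.out
  have hp : p.Prime := Fact.out
  obtain ⟨p', k, hp', hc', -, hqk⟩ := exists_q_eq_pow hF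
  obtain rfl : p = p' := CharP.eq F ‹CharP F p› hc'
  have hpq : p = q := by
    rcases hq with rfl | rfl <;>
      exact ((Nat.prime_dvd_prime_iff_eq hp (by norm_num)).1 (by
        rw [hqk]; exact dvd_pow_self p (by rintro rfl; simp at hqk)))
  subst hpq
  obtain ⟨v1, v2, v3, v4, -, -, w1, w2, w3, w4⟩ := unitCount_values
  have hcard : Nat.card (SU 4 F p) = unitCount p 3 * (unitCount p 2 * (unitCount p 1 * 1)) := by
    rw [card_SU_succ hF (by norm_num : 1 ≤ 3), card_SU_succ hF (by norm_num : 1 ≤ 2), card_SU_succ hF le_rfl,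
      card_SU_one hF]
  have e11 : r ∣ 11 → r = 11 := fun h => (Nat.prime_dvd_prime_iff_eq hr (by norm_num)).1 h
  have e61 : r ∣ 61 → r = 61 := fun h => (Nat.prime_dvd_prime_iff_eq hr (by norm_num)).1 h
  by_cases h : r = 11 ∧ p = 2 ∨ r = 61 ∧ p = 3
  · refine kill_top hF (p := p) (by norm_num : 1 ≤ 4) (by omega) hrp ?_
    rw [hcard]
    rcases h with ⟨rfl, rfl⟩ | ⟨rfl, rfl⟩
    · rw [v1, v2, v3]; decide
    · rw [w1, w2, w3]; decide
  · refine kill_succ hF (by norm_num : 1 ≤ 4) (kill_four hF hrp)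
      (not_dvd_index_SU hF hp hr hrp (by norm_num) (by omega)) fun x hx hd => ?_
    rcases hq with rfl | rfl
    · rw [v4] at hx
      obtain rfl : x = 2 ^ 4 * 11 := by omega
      rcases hr.dvd_mul.1 hd with hd | hd
      · exact hrp ((Nat.prime_dvd_prime_iff_eq hr hp).1 (hr.dvd_of_dvd_pow hd))
      · exact h (Or.inl ⟨e11 hd, rfl⟩)
    · rw [w4] at hx
      obtain rfl : x = 3 ^ 4 * 61 := by omega
      rcases hr.dvd_mul.1 hd with hd | hd
      · exact hrp ((Nat.prime_dvd_prime_iff_eq hr hp).1 (hr.dvd_of_dvd_pow hd))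
      · exact h (Or.inr ⟨e61 hd, rfl⟩)

/-- The prime three for `SU 6 (2)`. -/
theorem kill_six_three (hq : q = 2) [CharP F 2] : Kill 3 (SU 6 F q) := by
  classical
  haveI : Fact (Nat.Prime 3) := ⟨Nat.prime_three⟩
  haveI : Fact (Nat.Prime 2) := ⟨Nat.prime_two⟩
  obtain ⟨ζ, hζo, hζn⟩ := exists_order hF (N := 3) (by subst hq; decide)
  have hζin : ((ζ⁻¹ : Fˣ) : F) ^ (q + 1) = 1 := by rw [Units.val_inv_eq_inv_val, inv_pow, hζn, inv_one]
  obtain ⟨c, hc0⟩ := exists_diag hF (![(ζ : F), 1, 1, ((ζ⁻¹ : Fˣ) : F), 1, 1] : Fin 6 → F)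
    (fun i => by fin_cases i <;> simp [hζn, hζin]) (by simp [Fin.prod_univ_six])
  have hc : ∀ x : Fin 6 → F, sv c x = ![(ζ : F) * x 0, x 1, x 2, ((ζ⁻¹ : Fˣ) : F) * x 3, x 4, x 5] := fun x => by
    funext i; rw [hc0]; fin_cases i <;> simp
  have h2 : (-1 : F) = 1 := CharTwo.neg_eq 1
  obtain ⟨w, hw0⟩ := exists_monomial hF (Equiv.swap (0 : Fin 6) 3 * Equiv.swap 1 4 * Equiv.swap 2 5) (fun _ => (1 : F))
    (fun _ => one_pow _) (by simp [h2])
  have hw : ∀ x : Fin 6 → F, sv w x = ![x 3, x 4, x 5, x 0, x 1, x 2] := fun x => by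
    funext i; rw [hw0, one_mul]; fin_cases i <;> rfl
  have hw2 : w * w = 1 := sv_ext fun x => by
    rw [sv_mul, hw, hw, sv_one]; funext i; fin_cases i <;> simp
  have hwi : w⁻¹ = w := inv_eq_of_mul_eq_one_right hw2
  have hwc : w * c * w⁻¹ = c⁻¹ := by
    rw [eq_inv_iff_mul_eq_one, hwi]
    refine sv_ext fun x => ?_
    rw [sv_mul, sv_mul, sv_mul, hw, hc, hw, hc, sv_one]
    funext i; fin_cases i <;> simp
  set fL := blkL (F := F) (q := q) 3 3 with hfL
  set fR := blkR (F := F) (q := q) 3 3 with hfR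
  have happ : ∀ (u v : Fin 3 → F), sv w (Fin.append u v) = Fin.append v u := fun u v => by
    rw [hw]; funext i; fin_cases i <;> rfl
  have hwblk : ∀ x y, w * blk 3 3 (x, y) * w⁻¹ = blk 3 3 (y, x) := fun x y => by
    rw [mul_inv_eq_iff_eq_mul]
    refine sv_ext fun z => ?_
    rw [← Fin.append_castAdd_natAdd (m := 3) (n := 3) (f := z), sv_mul, sv_mul, sv_blk, happ, happ, sv_blk]
  have hwL : ∀ x ∈ fL.range, w * x * w⁻¹ ∈ fR.range := by
    rintro _ ⟨u, rfl⟩; exact ⟨u, (hwblk u 1).symm⟩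
  have hwR : ∀ x ∈ fR.range, w * x * w⁻¹ ∈ fL.range := by
    rintro _ ⟨u, rfl⟩; exact ⟨u, (hwblk 1 u).symm⟩
  have hLstabs : fL.range = stabs q (tail 3 3 F) := range_emb hF
  have hconjL : ∀ g : SU 6 F q, (∀ i : Fin 3, ∃ a : F, sv g (tail 3 3 F i) = a • tail 3 3 F i) →
      ∀ x ∈ fL.range, g * x * g⁻¹ ∈ fL.range := fun g hg x hx => by
    rw [hLstabs] at hx ⊢; exact conj_mem_stabs hg hx
  have hcL : ∀ x ∈ fL.range, c * x * c⁻¹ ∈ fL.range := hconjL c fun i => by
    fin_cases i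
    · exact ⟨((ζ⁻¹ : Fˣ) : F), by rw [hc]; funext l; fin_cases l <;> simp [tail]⟩
    · exact ⟨1, by rw [hc]; funext l; fin_cases l <;> simp [tail]⟩
    · exact ⟨1, by rw [hc]; funext l; fin_cases l <;> simp [tail]⟩
  have hciL : ∀ x ∈ fL.range, c⁻¹ * x * (c⁻¹)⁻¹ ∈ fL.range := hconjL c⁻¹ fun i => by
    rw [← hwc, hwi]
    fin_cases i
    · exact ⟨(ζ : F), by rw [sv_mul, sv_mul, hw, hc, hw]; funext l; fin_cases l <;> simp [tail]⟩
    · exact ⟨1, by rw [sv_mul, sv_mul, hw, hc, hw]; funext l; fin_cases l <;> simp [tail]⟩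
    · exact ⟨1, by rw [sv_mul, sv_mul, hw, hc, hw]; funext l; fin_cases l <;> simp [tail]⟩
  have hcR : ∀ x ∈ fR.range, c * x * c⁻¹ ∈ fR.range := fun x hx => by
    have h := hwL _ (hciL _ (hwR x hx))
    rw [← hwc] at h
    rwa [show w * (w * c * w⁻¹ * (w * x * w⁻¹) * (w * c * w⁻¹)⁻¹) * w⁻¹ = (w * w) * (c * x * c⁻¹) * (w * w)⁻¹ by group,
      hw2, one_mul, inv_one, mul_one] at h
  have hpowLR : ∀ m : ℕ, (∀ x ∈ fL.range, c ^ m * x * (c ^ m)⁻¹ ∈ fL.range) ∧
      ∀ x ∈ fR.range, c ^ m * x * (c ^ m)⁻¹ ∈ fR.range := by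
    intro m
    induction m with
    | zero => exact ⟨fun x hx => by simpa using hx, fun x hx => by simpa using hx⟩
    | succ m ih =>
      refine ⟨fun x hx => ?_, fun x hx => ?_⟩ <;>
        rw [pow_succ', show c * c ^ m * x * (c * c ^ m)⁻¹ = c * (c ^ m * x * (c ^ m)⁻¹) * c⁻¹ by group]
      · exact hcL _ (ih.1 x hx)
      · exact hcR _ (ih.2 x hx)
  set K₀ := blkD (F := F) (q := q) 3 3 with hK₀
  have hnorm : Subgroup.zpowers c ≤ Subgroup.normalizer (K₀ : Set (SU 6 F q)) := by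
    rw [Subgroup.zpowers_le]
    refine Subgroup.mem_normalizer_fintype fun x hx => ?_
    obtain ⟨⟨u, v⟩, ⟨hu, hv⟩, rfl⟩ := hx
    have hu' : fL u ∈ ⁅fL.range, fL.range⁆ := by
      rw [MonoidHom.range_eq_map, ← Subgroup.map_commutator, ← commutator_def]; exact ⟨u, hu, rfl⟩
    have hv' : fR v ∈ ⁅fR.range, fR.range⁆ := by
      rw [MonoidHom.range_eq_map, ← Subgroup.map_commutator, ← commutator_def]; exact ⟨v, hv, rfl⟩
    have key : ⁅fL.range, fL.range⁆ ⊔ ⁅fR.range, fR.range⁆ ≤ K₀ := by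
      refine sup_le ?_ ?_ <;>
        rw [MonoidHom.range_eq_map, ← Subgroup.map_commutator, ← commutator_def]
      · rintro _ ⟨u, hu, rfl⟩; exact ⟨(u, 1), ⟨hu, one_mem _⟩, rfl⟩
      · rintro _ ⟨u, hu, rfl⟩; exact ⟨(1, u), ⟨one_mem _, hu⟩, rfl⟩
    refine key ?_
    rw [show blk 3 3 (u, v) = fL u * fR v by
      rw [hfL, hfR, blkL, blkR, MonoidHom.comp_apply, MonoidHom.comp_apply, ← map_mul]; simp,
      show c * (fL u * fR v) * c⁻¹ = c * fL u * c⁻¹ * (c * fR v * c⁻¹) by group]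
    exact mul_mem (Subgroup.mem_sup_left (conj_mem_commutator hcL hu'))
      (Subgroup.mem_sup_right (conj_mem_commutator hcR hv'))
  have hcn : ∀ (m : ℕ) (x : Fin 6 → F),
      sv (c ^ m) x = ![(ζ : F) ^ m * x 0, x 1, x 2, ((ζ⁻¹ : Fˣ) : F) ^ m * x 3, x 4, x 5] := by
    intro m
    induction m with
    | zero => intro x; rw [pow_zero, sv_one]; funext i; fin_cases i <;> simp
    | succ m ih => intro x; rw [pow_succ', sv_mul, ih, hc]; funext i; fin_cases i <;> simp [pow_succ'] <;> ring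
  have hcord : orderOf c = 3 := by
    refine orderOf_eq_prime ?_ fun h => ?_
    · have h1 : ζ ^ 3 = 1 := orderOf_dvd_iff_pow_eq_one.1 hζo.dvd
      refine sv_ext fun x => ?_
      rw [hcn, sv_one]
      funext i
      fin_cases i <;> simp [← Units.val_pow_eq_pow_val, h1]
    · have h1 := congrFun (congrArg (fun g => sv g (Pi.single 0 1)) h) 0
      simp [hc] at h1
      rw [h1, orderOf_one] at hζo
      omega
  have hdis : Disjoint K₀ (Subgroup.zpowers c) := by
    rw [Subgroup.disjoint_def]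
    intro x hx hx'
    obtain ⟨m, rfl⟩ := mem_powers_iff_mem_zpowers.2 hx'
    obtain ⟨⟨a, b⟩, -, hab⟩ := hx
    simp only at hab ⊢
    have hA : ∀ u, sv a u = ![(ζ : F) ^ m * u 0, u 1, u 2] := fun u => by
      have h := congrArg (fun g => sv g (Fin.append u 0)) hab
      simp only [sv_blk, sv_zero, hcn] at h
      funext i
      have h' := congrFun h (Fin.castAdd 3 i)
      fin_cases i <;> simpa [Fin.append, Fin.addCases] using h'
    have hmat : (a.1 : Matrix (Fin 3) (Fin 3) F) = Matrix.diagonal ![(ζ : F) ^ m, 1, 1] :=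
      Matrix.ext_of_mulVec_single fun i => by
        rw [show (a.1 : Matrix (Fin 3) (Fin 3) F) *ᵥ Pi.single i 1 = sv a (Pi.single i 1) from rfl, hA]
        funext l; fin_cases i <;> fin_cases l <;> simp [Matrix.mulVec_diagonal]
    have hdet : (a.1 : Matrix (Fin 3) (Fin 3) F).det = 1 := a.1.2
    rw [hmat, Matrix.det_diagonal, Fin.prod_univ_three] at hdet
    have : ζ ^ m = 1 := Units.ext (by simpa using hdet)
    have hm3 : orderOf ζ ∣ m := orderOf_dvd_of_pow_eq_one this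
    exact orderOf_dvd_iff_pow_eq_one.1 (by rwa [hcord, ← hζo])
  have hk3 : Kill 3 (SU 3 F q) := kill_three hF (p := 2) (by norm_num)
  refine kill_of_index (K₀ ⊔ Subgroup.zpowers c) ?_ ?_
  · have h1 := (K₀ ⊔ Subgroup.zpowers c).card_mul_index
    obtain ⟨v1, v2, v3, v4, v5, -⟩ := unitCount_values
    have hG : Nat.card (SU 6 F q) = Nat.card (SU 3 F q) * Nat.card (SU 3 F q) * (3 * 197120) := by
      rw [card_SU_succ hF (by norm_num : 1 ≤ 5), card_SU_succ hF (by norm_num : 1 ≤ 4),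
        card_SU_succ hF (by norm_num : 1 ≤ 3), card_SU_succ hF (by norm_num : 1 ≤ 2), card_SU_succ hF le_rfl,
        card_SU_one hF, hq, v1, v2, v3, v4, v5]
    rw [card_sup_of_disjoint hnorm hdis, Nat.card_zpowers, hcord, hG, ← card_blkD hF 3 3, ← hK₀] at h1
    have h2 : (K₀ ⊔ Subgroup.zpowers c).index =
        (commutator (SU 3 F q)).index * (commutator (SU 3 F q)).index * 197120 :=
      Nat.eq_of_mul_eq_mul_left (Nat.mul_pos (Nat.card_pos (α := K₀)) (by norm_num : 0 < 3)) (by rw [h1]; ring)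
    rw [h2, Nat.prime_three.dvd_mul, Nat.prime_three.dvd_mul]
    rintro ((h | h) | h)
    · exact three_not_dvd_index hF hq h
    · exact three_not_dvd_index hF hq h
    · omega
  · intro Γ _ _ σ hs hc' S hS hS3
    obtain ⟨hclX, hsur⟩ := clean_blk hF hk3 hk3 hs hc'
    obtain ⟨ch, hch⟩ := hs c
    refine hclX.good hs hc' hS3 (dpre_le_of_cyclic hs hc' (c := ch) (fun i x hx => ?_) fun s hs' => ?_)
    · obtain ⟨m, hm⟩ := mem_powers_iff_mem_zpowers.2 (⟨i, rfl⟩ : c ^ i ∈ Subgroup.zpowers c)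
      simp only at hm
      have hle : (dpre σ fL.range ⊔ dpre σ fR.range).map (MulAut.conj (ch ^ i)).toMonoidHom ≤
          dpre σ fL.range ⊔ dpre σ fR.range := by
        rw [Subgroup.map_sup]
        refine sup_le_sup ?_ ?_ <;> rintro _ ⟨z, hz, rfl⟩
        · exact conj_mem_dpre _ (by rw [map_zpow, hch, ← hm]; exact (hpowLR m).1) hz
        · exact conj_mem_dpre _ (by rw [map_zpow, hch, ← hm]; exact (hpowLR m).2) hz
      exact hle ⟨x, hx, rfl⟩
    · have hk : s ∈ (↑(K₀ ⊔ Subgroup.zpowers c) : Set (SU 6 F q)) := hS hs'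
      rw [Subgroup.coe_mul_of_right_le_normalizer_left _ _ hnorm] at hk
      obtain ⟨y, hy, t, ⟨i, rfl⟩, e⟩ := hk
      obtain ⟨y', hy', ey⟩ := hsur y hy
      exact ⟨y', hy', i, by rw [ey, hch]; exact e⟩

/-- Dimension six over the field with four elements. -/
theorem kill_six (hq : q = 2) [CharP F 2] {r : ℕ} [Fact r.Prime] (hr2 : r ≠ 2) : Kill r (SU 6 F q) := by
  haveI : Fact (Nat.Prime 2) := ⟨Nat.prime_two⟩
  have hr : r.Prime := Fact.out
  obtain ⟨v1, v2, v3, v4, v5, -⟩ := unitCount_values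
  rcases eq_or_ne r 3 with rfl | hr3
  · exact kill_six_three hF hq
  rcases eq_or_ne r 7 with rfl | hr7
  · refine kill_top hF (p := 2) (by norm_num : 1 ≤ 5) (by norm_num) (by norm_num) ?_
    rw [card_SU_succ hF (by norm_num : 1 ≤ 4), card_SU_succ hF (by norm_num : 1 ≤ 3),
      card_SU_succ hF (by norm_num : 1 ≤ 2), card_SU_succ hF le_rfl, card_SU_one hF, hq, v1, v2, v3, v4]
    decide
  refine kill_succ hF (by norm_num : 1 ≤ 5) (kill_five hF (Or.inl hq) (p := 2) hr2)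
    (not_dvd_index_SU hF Nat.prime_two hr hr2 (by norm_num) (by omega)) fun x hx hd => ?_
  rw [hq, v5] at hx
  obtain rfl : x = 2 ^ 5 * (3 * 7) := by omega
  rcases hr.dvd_mul.1 hd with hd | hd
  · exact hr2 ((Nat.prime_dvd_prime_iff_eq hr Nat.prime_two).1 (hr.dvd_of_dvd_pow hd))
  · rcases hr.dvd_mul.1 hd with hd | hd
    · exact hr3 ((Nat.prime_dvd_prime_iff_eq hr Nat.prime_three).1 hd)
    · exact hr7 ((Nat.prime_dvd_prime_iff_eq hr (by norm_num)).1 hd)

/-- Dimension seven over the field with four elements. -/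
theorem kill_seven (hq : q = 2) [CharP F 2] {r : ℕ} [Fact r.Prime] (hr2 : r ≠ 2) : Kill r (SU 7 F q) := by
  haveI : Fact (Nat.Prime 2) := ⟨Nat.prime_two⟩
  have hr : r.Prime := Fact.out
  obtain ⟨v1, v2, v3, v4, v5, v6, -⟩ := unitCount_values
  rcases eq_or_ne r 43 with rfl | hr43
  · refine kill_top hF (p := 2) (by norm_num : 1 ≤ 6) (by norm_num) (by norm_num) ?_
    rw [card_SU_succ hF (by norm_num : 1 ≤ 5), card_SU_succ hF (by norm_num : 1 ≤ 4),
      card_SU_succ hF (by norm_num : 1 ≤ 3), card_SU_succ hF (by norm_num : 1 ≤ 2), card_SU_succ hF le_rfl,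
      card_SU_one hF, hq, v1, v2, v3, v4, v5]
    decide
  refine kill_succ hF (by norm_num : 1 ≤ 6) (kill_six hF hq hr2)
    (not_dvd_index_SU hF Nat.prime_two hr hr2 (by norm_num) (by omega)) fun x hx hd => ?_
  rw [hq, v6] at hx
  obtain rfl : x = 2 ^ 6 * 43 := by omega
  rcases hr.dvd_mul.1 hd with hd | hd
  · exact hr2 ((Nat.prime_dvd_prime_iff_eq hr Nat.prime_two).1 (hr.dvd_of_dvd_pow hd))
  · exact hr43 ((Nat.prime_dvd_prime_iff_eq hr (by norm_num)).1 hd)

end Cfsg.Agent.H46.SUMult
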