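import Cfsg.Agent.H46.SUMult.Engine
import Cfsg.Agent.H46.SUMult.Small
import Cfsg.Agent.H46.SUMult.PPart
import Cfsg.Agent.H64.QuotCenter

/-!
# The Schur multiplier of the special unitary groups
-/

set_option autoImplicit false

namespace Cfsg.Agent.H46.SUMult

open Matrix Cfsg Cfsg.Agent.H3

universe u

variable {F : Type u} [Field F] [Fintype F] {q : ℕ} (hF : Fintype.card F = q ^ 2)

include hF

omit hF in
/-- Killing every prime gives a trivial multiplier. -/
theorem mult_one_of_kill {G : Type u} [Group G] [Finite G] (h : ∀ (r : ℕ) [Fact r.Prime], Kill r G) :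
    Cfsg.HasCyclicSchurMultiplier G 1 :=
  Cfsg.Agent.H64.hasCyclicSchurMultiplier_one fun _ hσ r hr => by
    haveI := Fact.mk hr
    exact (h r).not_dvd_stem hσ

/-- `SU n` has trivial multiplier outside the exceptional pairs. -/
theorem mult_one : ∀ n : ℕ, 3 ≤ n → ¬(n = 3 ∧ q = 2) → ¬(n = 4 ∧ q = 2) → ¬(n = 4 ∧ q = 3) → ¬(n = 6 ∧ q = 2) →
    Cfsg.HasCyclicSchurMultiplier (SU n F q) 1 := by
  obtain ⟨p, k, hp, hpc, hk, hqk⟩ := exists_q_eq_pow hF
  haveI := Fact.mk hp
  have hq2 := two_le_q hF
  intro n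
  induction n using Nat.strong_induction_on with
  | _ n ih =>
    intro hn h32 h42 h43 h62
    have hpq : ∀ c, c.Prime → q = c → p = c := fun c hc h => by
      subst h
      exact ((Nat.prime_dvd_prime_iff_eq hp hc).1 (hqk ▸ dvd_pow_self p (by omega)))
    rcases Nat.lt_or_ge n 5 with h5 | h5
    · rcases (show n = 3 ∨ n = 4 by omega) with rfl | rfl
      · refine mult_one_of_kill fun r _ => ?_
        rcases eq_or_ne r p with rfl | hrp
        · exact kill_three_char hF (by omega)
        · exact kill_three hF hrp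
      · refine mult_one_of_kill fun r _ => ?_
        rcases eq_or_ne r p with rfl | hrp
        · exact kill_four_char hF (by omega)
        · exact kill_four hF hrp
    by_cases h53 : n = 5 ∧ (q = 2 ∨ q = 3)
    · obtain ⟨rfl, hq⟩ := h53
      refine mult_one_of_kill fun r _ => ?_
      rcases eq_or_ne r p with rfl | hrp
      · rcases hq with hq | hq
        · obtain rfl := hpq 2 Nat.prime_two hq
          exact kill_five_two hF hq
        · exact kill_five_three hF hq
      · exact kill_five hF hq hrp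
    by_cases h72 : n = 7 ∧ q = 2
    · obtain ⟨rfl, hq⟩ := h72
      obtain rfl := hpq 2 Nat.prime_two hq
      refine mult_one_of_kill fun r _ => ?_
      rcases eq_or_ne r 2 with rfl | hr2
      · exact kill_seven_two hF hq
      · exact kill_seven hF hq hr2
    obtain ⟨m, rfl⟩ : ∃ m, n = m + 1 := ⟨n - 1, by omega⟩
    exact mult_one_succ hF (by omega) (by omega) (by omega)
      (ih m (by omega) (by omega) (by omega) (by omega) (by omega) (by omega))

/-- The centre of `SU n` is cyclic. -/
theorem isCyclic_center {n : ℕ} (hn : 2 ≤ n) : IsCyclic (Subgroup.center (SU n F q)) := by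
  classical
  set i₀ : Fin n := ⟨0, by omega⟩
  set e₀ : Fin n → F := Pi.single i₀ 1
  have hl : ∀ z : Subgroup.center (SU n F q), ∀ x, sv z.1 x = sv z.1 e₀ i₀ • x := by
    intro z x
    obtain ⟨l, hl⟩ := (mem_center_SU_iff hF hn z.1).1 z.2
    have h0 : sv z.1 e₀ i₀ = l := by
      show ((z.1.1 : Matrix (Fin n) (Fin n) F) *ᵥ e₀) i₀ = l
      rw [hl]; simp [e₀]
    rw [h0]
    exact hl x
  let φ : Subgroup.center (SU n F q) →* F :=
    { toFun := fun z => sv z.1 e₀ i₀
      map_one' := by simp [e₀]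
      map_mul' := fun z z' => by
        show sv (z.1 * z'.1) e₀ i₀ = _
        rw [sv_mul, hl z (sv z'.1 e₀), Pi.smul_apply, smul_eq_mul] }
  refine isCyclic_of_subgroup_isDomain φ fun z z' h => Subtype.ext (sv_ext fun x => ?_)
  rw [hl z, hl z']
  exact congrArg (· • x) h

/-- The multiplier of `PSU n`. -/
theorem hasCyclicSchurMultiplier_psu {n : ℕ} (hn : 3 ≤ n) (h32 : ¬(n = 3 ∧ q = 2)) (h42 : ¬(n = 4 ∧ q = 2))
    (h43 : ¬(n = 4 ∧ q = 3)) (h62 : ¬(n = 6 ∧ q = 2)) :
    Cfsg.HasCyclicSchurMultiplier (PSU n F q) (Nat.gcd n (q + 1)) := by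
  have h := Cfsg.Agent.H64.hasCyclicSchurMultiplier_quotient_center (commutator_SU_eq_top hF hn h32)
    (mult_one hF n hn h32 h42 h43 h62) (isCyclic_center hF (by omega))
  rwa [card_center_SU hF (by omega)] at h

end Cfsg.Agent.H46.SUMult
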