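import Cfsg.Agent.H46.SUMult.Basic

/-!
# Monomial elements of special unitary groups
-/

set_option autoImplicit false

namespace Cfsg.Agent.H46.SUMult

open Matrix Cfsg Cfsg.Agent.H3

universe u

variable {F : Type u} [Field F] [Fintype F] {q n : ℕ} (hF : Fintype.card F = q ^ 2)

include hF

/-- Monomial matrices of determinant one. -/
theorem exists_monomial (π : Equiv.Perm (Fin n)) (s : Fin n → F) (hs : ∀ l, s l ^ (q + 1) = 1)
    (hdet : ((Equiv.Perm.sign π : ℤ) : F) * ∏ l, s l = 1) :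
    ∃ g : SU n F q, ∀ x l, sv g x l = s l * x (π.symm l) := by
  classical
  set A : Matrix (Fin n) (Fin n) F := Matrix.diagonal s * Equiv.Perm.permMatrix F π.symm with hAdef
  have hact : ∀ x, A *ᵥ x = fun l => s l * x (π.symm l) := fun x => by
    funext l
    simp [A, ← Matrix.mulVec_mulVec, Matrix.mulVec_diagonal, Matrix.permMatrix_mulVec]
  have hA : A.det = 1 := by
    rw [hAdef, Matrix.det_mul, Matrix.det_diagonal, Matrix.det_permutation, Equiv.Perm.sign_symm, mul_comm]
    exact hdet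
  refine ⟨⟨⟨A, hA⟩, mem_SU_iff.2 fun u v => ?_⟩, fun x l => congrFun (hact x) l⟩
  show hermForm n F q (A *ᵥ u) (A *ᵥ v) = _
  rw [hact, hact]
  unfold hermForm
  refine Fintype.sum_equiv π.symm _ _ fun l => ?_
  have h := hs l
  rw [pow_succ] at h
  rw [mul_pow]
  linear_combination (u (π.symm l) * v (π.symm l) ^ q) * h

/-- Powers of an element of order dividing `q + 1` stay of norm one. -/
theorem norm_one_of_pow_eq_one {x : F} {N : ℕ} (hN : N ∣ q + 1) (hx : x ^ N = 1) : x ^ (q + 1) = 1 := by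
  obtain ⟨k, hk⟩ := hN
  rw [hk, pow_mul, hx, one_pow]

/-- `-1` has norm one. -/
theorem neg_one_pow_succ : (-1 : F) ^ (q + 1) = 1 := by
  rw [pow_succ, ← conjQ_apply hF, map_neg, map_one]
  ring

/-- There is an element of norm one of every order dividing `q + 1`. -/
theorem exists_order {N : ℕ} (hN : N ∣ q + 1) : ∃ z : Fˣ, orderOf z = N ∧ (z : F) ^ (q + 1) = 1 := by
  classical
  obtain ⟨z, hz⟩ := IsCyclic.exists_generator (α := (powMonoidHom (q + 1) : Fˣ →* Fˣ).ker)
  have hord : orderOf z.1 = q + 1 := by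
    rw [Subgroup.orderOf_coe, orderOf_eq_card_of_forall_mem_zpowers hz, card_norm_one_units hF]
  obtain ⟨k, hk⟩ := hN
  have hk0 : k ≠ 0 := by rintro rfl; simp at hk
  refine ⟨z.1 ^ k, ?_, ?_⟩
  · rw [orderOf_pow' z.1 hk0, hord, hk, Nat.gcd_mul_left_left, Nat.mul_div_cancel _ (Nat.pos_of_ne_zero hk0)]
  · have h : z.1 ^ (q + 1) = 1 := orderOf_dvd_iff_pow_eq_one.1 hord.dvd
    have h' := congrArg Units.val h
    rw [Units.val_pow_eq_pow_val] at h' ⊢
    rw [← pow_mul, mul_comm, pow_mul, h', Units.val_one, one_pow]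

end Cfsg.Agent.H46.SUMult
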