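import Cfsg.Agent.H46.SUMult.Basic
import Cfsg.Agent.H3.SUTwo
import Cfsg.Agent.H1.Generation

/-!
# Unit vectors orthogonal to given vectors, and perfectness in dimension two
-/

set_option autoImplicit false

namespace Cfsg.Agent.H46.SUMult

open Matrix Cfsg Cfsg.Agent.H3

universe u

variable {F : Type u} [Field F] [Fintype F] {q : ℕ} (hF : Fintype.card F = q ^ 2)

include hF

/-- Without a unit vector orthogonal to `w`, the orthogonal space would be too small. -/
theorem exists_unit_orth {n k j : ℕ} (w : Fin k → Fin n → F) (e : Fin j → Fin n → F) (he : Orth (hermB hF n) e)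
    (hmem : ∀ i, ∃ l, w l = e i) (h : 2 * k < n + j) :
    ∃ u : Pt n F q, ∀ i, hermForm n F q u.1 (w i) = 0 := by
  classical
  by_contra hne
  push Not at hne
  let φ : (Fin n → F) →ₗ[F] (Fin k → F) :=
    { toFun := fun x i => hermForm n F q x (w i)
      map_add' := fun x y => funext fun i => hermForm_add_left hF x y (w i)
      map_smul' := fun c x => funext fun i => hermForm_smul_left hF c x (w i) }
  set U := LinearMap.ker φ
  have hUw : ∀ x ∈ U, ∀ i, hermForm n F q x (w i) = 0 := fun x hx i => congrFun (LinearMap.mem_ker.1 hx) i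
  have hiso : ∀ x ∈ U, hermForm n F q x x = 0 := by
    intro x hx
    by_contra h0
    obtain ⟨c, hc⟩ := (isHerm_hermB hF n).exists_smul_self_eq_one (v := x) (by simpa using h0)
    obtain ⟨i, hi⟩ := hne ⟨c • x, by simpa [hermForm_smul_left hF, hermForm_smul_right hF, mul_assoc] using hc.2⟩
    exact hi (by show hermForm n F q (c • x) (w i) = 0; rw [hermForm_smul_left hF, hUw x hx i, mul_zero])
  have hzero : ∀ x ∈ U, ∀ y ∈ U, hermForm n F q x y = 0 := by
    intro x hx y hy
    by_contra h0
    obtain ⟨s, hs⟩ := exists_trace_eq hF (a := (1 : F)) (one_pow q)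
    have h1 := hiso _ (U.add_mem (U.smul_mem (s / hermForm n F q x y) hx) hy)
    simp only [hermForm_add_left hF, hermForm_add_right hF, hermForm_smul_left hF, hermForm_smul_right hF, hiso x hx,
      hiso y hy, ← hermForm_pow_q hF x y, ← mul_pow, div_mul_cancel₀ _ h0, mul_zero, zero_add, add_zero] at h1
    rw [hs] at h1
    exact one_ne_zero h1
  set d := Module.finrank F U with hd
  let b := Module.finBasis F U
  let ψ : (Fin n → F) →ₗ[F] (Fin d → F) :=
    { toFun := fun x i => hermForm n F q x (b i).1
      map_add' := fun x y => funext fun i => hermForm_add_left hF x y _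
      map_smul' := fun c x => funext fun i => hermForm_smul_left hF c x _ }
  have hψ : Function.Surjective ψ := fun a => by
    obtain ⟨s, hs⟩ := (isHerm_hermB hF n).exists_values (b.linearIndependent.map' U.subtype U.ker_subtype)
      fun i => a i ^ q
    refine ⟨s, funext fun i => ?_⟩
    show hermForm n F q s (b i).1 = a i
    rw [← hermForm_pow_q hF, show hermForm n F q (b i).1 s = a i ^ q from hs i, pow_q_pow_q hF]
  let χ : (U × (Fin j → F)) →ₗ[F] (Fin n → F) := U.subtype.coprod (Fintype.linearCombination F e)
  have heU : ∀ (i : Fin j), ∀ x ∈ U, hermForm n F q x (e i) = 0 := fun i x hx => by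
    obtain ⟨l, hl⟩ := hmem i; rw [← hl]; exact hUw x hx l
  have hlin : ∀ (c : Fin j → F) (y : Fin n → F),
      hermForm n F q (Fintype.linearCombination F e c) y = ∑ i, c i * hermForm n F q (e i) y := by
    intro c y
    rw [Fintype.linearCombination_apply]
    let L : (Fin n → F) →ₗ[F] F :=
      { toFun := fun x => hermForm n F q x y
        map_add' := fun a b => hermForm_add_left hF a b y
        map_smul' := fun c a => hermForm_smul_left hF c a y }
    show L (∑ i, c i • e i) = _
    rw [map_sum]
    exact Finset.sum_congr rfl fun i _ => map_smul L (c i) (e i)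
  have hχinj : Function.Injective χ := by
    rw [← LinearMap.ker_eq_bot, LinearMap.ker_eq_bot']
    rintro ⟨x, c⟩ hxc
    have hc : c = 0 := funext fun i => by
      have h1 := congrArg (fun y => hermForm n F q y (e i)) hxc
      simp only [χ, LinearMap.coprod_apply, hermForm_add_left hF, Submodule.subtype_apply, heU i x.1 x.2, hlin,
        hermForm_zero_left hF, zero_add] at h1
      rw [Finset.sum_eq_single i (fun l _ hl => by
        have := he i l
        rw [hermB_apply, if_neg hl.symm] at this
        rw [this, mul_zero]) (by simp)] at h1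
      have h2 := he i i
      rw [hermB_apply, if_pos rfl] at h2
      simpa [h2] using h1
    subst hc
    simp only [χ, LinearMap.coprod_apply, map_zero, add_zero, Submodule.subtype_apply] at hxc
    exact Prod.ext (Subtype.ext hxc) rfl
  have hle : LinearMap.range χ ≤ LinearMap.ker ψ := by
    rintro _ ⟨⟨x, c⟩, rfl⟩
    refine LinearMap.mem_ker.2 (funext fun i => ?_)
    show hermForm n F q (χ (x, c)) (b i).1 = 0
    simp only [χ, LinearMap.coprod_apply, hermForm_add_left hF, Submodule.subtype_apply, hlin,
      hzero x.1 x.2 _ (b i).2, zero_add]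
    exact Finset.sum_eq_zero fun l _ => by
      rw [(hermForm_eq_zero_comm hF).1 (heU l _ (b i).2), mul_zero]
  have h1 := LinearMap.finrank_range_add_finrank_ker φ
  have h2 := Submodule.finrank_le (LinearMap.range φ)
  have h3 := LinearMap.finrank_range_add_finrank_ker ψ
  rw [LinearMap.range_eq_top.2 hψ, finrank_top] at h3
  have h4 := Submodule.finrank_mono hle
  rw [LinearMap.finrank_range_of_inj hχinj, Module.finrank_prod] at h4
  simp only [Module.finrank_fintype_fun_eq_card, Fintype.card_fin] at h1 h2 h3 h4
  change Module.finrank F (LinearMap.range φ) + Module.finrank F U = n at h1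
  omega

/-- `SU 2` is perfect over fields with at least sixteen elements. -/
theorem commutator_SU_two (hq : 4 ≤ q) : commutator (SU 2 F q) = ⊤ := by
  classical
  haveI : Fintype ↥(RingHom.eqLocusField (conjQ hF) (RingHom.id F)) := Fintype.ofFinite _
  have hK : Fintype.card ↥(RingHom.eqLocusField (conjQ hF) (RingHom.id F)) = q := by
    rw [← Nat.card_eq_fintype_card]
    exact (Nat.card_congr (Equiv.subtypeEquivRight fun x => Iff.rfl)).trans (card_fixed hF)
  obtain ⟨e⟩ := su_two_equiv hF hK
  have hx : ∃ x : ↥(RingHom.eqLocusField (conjQ hF) (RingHom.id F)), x ≠ 0 ∧ x ^ 2 ≠ 1 := by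
    by_contra h
    push Not at h
    have hsub : (Finset.univ : Finset ↥(RingHom.eqLocusField (conjQ hF) (RingHom.id F))) ⊆ {0, 1, -1} := by
      intro x _
      by_cases h0 : x = 0
      · simp [h0]
      · rcases sq_eq_one_iff.1 (h x h0) with h1 | h1 <;> simp [h1]
    have := (Finset.card_le_card hsub).trans Finset.card_le_three
    rw [Finset.card_univ, hK] at this
    omega
  have htop := Cfsg.Agent.H1.commutator_SL_eq_top (ι := Fin 2)
    (F := ↥(RingHom.eqLocusField (conjQ hF) (RingHom.id F))) (Or.inr hx)
  rw [eq_top_iff]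
  intro g _
  have : e g ∈ commutator (Matrix.SpecialLinearGroup (Fin 2) ↥(RingHom.eqLocusField (conjQ hF) (RingHom.id F))) := by
    rw [htop]; exact Subgroup.mem_top _
  have h2 : e.symm (e g) ∈ (commutator (Matrix.SpecialLinearGroup (Fin 2)
      ↥(RingHom.eqLocusField (conjQ hF) (RingHom.id F)))).map e.symm.toMonoidHom := ⟨_, this, rfl⟩
  rw [commutator_def, Subgroup.map_commutator, e.symm_apply_apply] at h2
  exact Subgroup.commutator_mono le_top le_top h2

end Cfsg.Agent.H46.SUMult
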