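import Cfsg.Agent.H46.SUMult.Unipotent

/-!
# The central pairings on the radical vanish
-/

set_option autoImplicit false

open scoped commutatorElement Pointwise

namespace Cfsg.Agent.H46.SUMult

open Matrix Cfsg Cfsg.Agent.H3
open Cfsg.Agent.H82.Orth (dpre)
open Cfsg.Agent.H82.Chev (commutator_congr)

universe u

namespace HypPair

variable {F : Type u} [Field F] [Fintype F] {q : ℕ} (hF : Fintype.card F = q ^ 2) {m : ℕ} (H : HypPair F q)
variable {Γ : Type u} [Group Γ] {σ : Γ →* SU (2 + m) F q} (hs : Function.Surjective σ) (hc : σ.ker ≤ Subgroup.center Γ)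

omit [Fintype F] in
theorem exists_pow_eq_of_order {w : F} {k N : ℕ} (hN : k % N = 1 % N) (hw : w ^ N = 1) : w ^ k = w := by
  have h : ∀ a, w ^ a = w ^ (a % N) := fun a => by
    conv_lhs => rw [← Nat.div_add_mod a N, pow_add, pow_mul, hw, one_pow, one_mul]
  rw [h k, hN, ← h 1, pow_one]

include hF

/-- A generator of the multiplicative group. -/
theorem exists_gen : ∃ g : F, g ≠ 0 ∧ g ^ (q ^ 2 - 1) = 1 ∧ ∀ j, g ^ j = 1 → q ^ 2 - 1 ∣ j := by
  classical
  obtain ⟨z, hz⟩ := IsCyclic.exists_generator (α := Fˣ)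
  have ho : orderOf z = q ^ 2 - 1 := by
    rw [orderOf_eq_card_of_forall_mem_zpowers hz, Nat.card_units, Nat.card_eq_fintype_card, hF]
  refine ⟨z, z.ne_zero, ?_, fun j hj => ?_⟩
  · rw [← ho, ← Units.val_pow_eq_pow_val, pow_orderOf_eq_one, Units.val_one]
  · rw [← ho]
    exact orderOf_dvd_of_pow_eq_one (Units.ext (by rwa [Units.val_pow_eq_pow_val, Units.val_one]))

/-- Torus elements with one non-trivial eigenvalue on the complement. -/
theorem exists_tor_one {c : F} (hc : c ≠ 0) (k : Fin m) :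
    ∃ g : SU (2 + m) F q, H.IsTor g c (Function.update 1 k (c ^ q / c)) := by
  classical
  refine H.exists_lev hF hc _ (fun i => ?_) ?_
  · rcases eq_or_ne i k with rfl | hi
    · rw [Function.update_self, div_pow, pow_succ, pow_q_pow_q hF, pow_succ c q]
      rw [mul_comm, div_self (mul_ne_zero (pow_ne_zero _ hc) hc)]
    · rw [Function.update_of_ne hi, Pi.one_apply, one_pow]
  · rw [Finset.prod_update_of_mem (Finset.mem_univ k)]
    simp only [Pi.one_apply, Finset.prod_const_one, mul_one]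
    have : c ^ q ≠ 0 := pow_ne_zero _ hc
    field_simp

/-- Torus elements with two non-trivial eigenvalues on the complement. -/
theorem exists_tor_two {c a b : F} (hc : c ≠ 0) {j k : Fin m} (hjk : j ≠ k) (ha : a ^ (q + 1) = 1)
    (hb : b ^ (q + 1) = 1) (hdet : c * (c ^ q)⁻¹ * (a * b) = 1) :
    ∃ g : SU (2 + m) F q, H.IsTor g c (Function.update (Function.update 1 j a) k b) := by
  classical
  refine H.exists_lev hF hc _ (fun i => ?_) ?_
  · rcases eq_or_ne i k with rfl | hi
    · rw [Function.update_self, hb]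
    · rw [Function.update_of_ne hi]
      rcases eq_or_ne i j with rfl | hi'
      · rw [Function.update_self, ha]
      · rw [Function.update_of_ne hi', Pi.one_apply, one_pow]
  · rw [Finset.prod_update_of_mem (Finset.mem_univ k), Finset.prod_update_of_mem (by simp [hjk] : j ∈ Finset.univ \ {k})]
    simpa [mul_comm a b] using hdet

/-- An element of norm one whose fourth power is not one. -/
theorem exists_norm_one_ne : ∃ ν : F, ν ≠ 0 ∧ ν ^ (q + 1) = 1 ∧ ∀ j, 0 < j → j < q + 1 → ν ^ j ≠ 1 := by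
  obtain ⟨z, hz, hz'⟩ := exists_order hF (N := q + 1) dvd_rfl
  refine ⟨z, z.ne_zero, hz', fun j h0 hj h => ?_⟩
  have := Nat.le_of_dvd h0 (hz ▸ orderOf_dvd_of_pow_eq_one (show z ^ j = 1 from Units.ext
    (by rwa [Units.val_pow_eq_pow_val, Units.val_one])))
  omega

/-- The moves for the centrality. -/
theorem exists_move (hcase : 2 ≤ m ∨ 3 ≤ q) (i : Fin m) :
    ∃ (g : SU (2 + m) F q) (c : F) (μ : Fin m → F), H.IsTor g c μ ∧ c ^ (q + 1) = 1 ∧ c ^ q * μ i ≠ 1 := by
  classical
  obtain ⟨ν, hν0, hν, hνj⟩ := exists_norm_one_ne hF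
  have h2 := two_le_q hF
  by_cases hm : 2 ≤ m
  · haveI : Nontrivial (Fin m) := Fin.nontrivial_iff_two_le.2 hm
    obtain ⟨k, hk⟩ := _root_.exists_ne i
    obtain ⟨g, hg⟩ := H.exists_tor_two hF (c := 1) (a := ν) (b := ν⁻¹) one_ne_zero hk.symm hν
      (by rw [inv_pow, hν, inv_one]) (by simp [hν0])
    refine ⟨g, 1, _, hg, one_pow _, ?_⟩
    rw [Function.update_of_ne hk.symm, Function.update_self, one_pow, one_mul]
    simpa using hνj 1 one_pos (by omega)
  · obtain ⟨g, hg⟩ := H.exists_tor_one hF hν0 i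
    refine ⟨g, ν, _, hg, hν, ?_⟩
    rw [Function.update_self]
    intro h
    have h3 : ν ^ 3 = 1 := by
      rw [pow_succ] at hν
      field_simp at h
      linear_combination -ν ^ 2 * h + (ν ^ q * ν + 1) * hν
    exact hνj 3 (by norm_num) (by omega) h3

/-- The weights needed on a line. -/
theorem exists_line_weights (hq : 3 ≤ q) (i : Fin m) :
    ∃ w : F, w ≠ 0 ∧ 1 + w + w⁻¹ ≠ 0 ∧
      (∃ (g : SU (2 + m) F q) (c : F) (μ : Fin m → F), H.IsTor g c μ ∧ c ^ q * μ i = w) ∧
      ∃ (g : SU (2 + m) F q) (c : F) (μ : Fin m → F), H.IsTor g c μ ∧ c ^ q * μ i = 1 + w := by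
  classical
  have hbad : ∀ s : Finset F, 4 < s.card → ∃ w ∈ s, w ≠ 0 ∧ w + 1 ≠ 0 ∧ w ^ 2 + w + 1 ≠ 0 := by
    intro s hs
    let P : Polynomial F := Polynomial.X * (Polynomial.X + 1) * (Polynomial.X ^ 2 + Polynomial.X + 1)
    by_contra h
    push Not at h
    have hP : P ≠ 0 := fun e => by
      have := congrArg (Polynomial.coeff · 1) e
      simp [P, Polynomial.coeff_one, Polynomial.mul_coeff_one, Polynomial.coeff_mul,
        Finset.Nat.antidiagonal_succ] at this
    have hsub : s ⊆ P.roots.toFinset := fun w hw => by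
      rw [Multiset.mem_toFinset, Polynomial.mem_roots hP, Polynomial.IsRoot]
      simp only [P, Polynomial.eval_mul, Polynomial.eval_add, Polynomial.eval_pow, Polynomial.eval_X,
        Polynomial.eval_one, mul_eq_zero]
      by_cases h0 : w = 0
      · exact Or.inl (Or.inl h0)
      by_cases h1 : w + 1 = 0
      · exact Or.inl (Or.inr h1)
      exact Or.inr (h w hw h0 h1)
    have h4 : P.natDegree ≤ 4 := by simp only [P]; compute_degree
    have := ((Finset.card_le_card hsub).trans (Multiset.toFinset_card_le _)).trans ((Polynomial.card_roots' P).trans h4)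
    omega
  have hsuff : ∀ s : Finset F, 4 < s.card → (∀ w ∈ s, w ≠ 0 → 1 + w ≠ 0 →
      (∃ (g : SU (2 + m) F q) (c : F) (μ : Fin m → F), H.IsTor g c μ ∧ c ^ q * μ i = w) ∧
      ∃ (g : SU (2 + m) F q) (c : F) (μ : Fin m → F), H.IsTor g c μ ∧ c ^ q * μ i = 1 + w) →
      ∃ w : F, w ≠ 0 ∧ 1 + w + w⁻¹ ≠ 0 ∧
      (∃ (g : SU (2 + m) F q) (c : F) (μ : Fin m → F), H.IsTor g c μ ∧ c ^ q * μ i = w) ∧
      ∃ (g : SU (2 + m) F q) (c : F) (μ : Fin m → F), H.IsTor g c μ ∧ c ^ q * μ i = 1 + w := by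
    intro s hs h
    obtain ⟨w, hw, h0, h1, h2⟩ := hbad s hs
    refine ⟨w, h0, fun e => h2 ?_, h w hw h0 (by rwa [add_comm])⟩
    field_simp at e
    linear_combination e
  by_cases hm : 2 ≤ m
  · haveI : Nontrivial (Fin m) := Fin.nontrivial_iff_two_le.2 hm
    obtain ⟨k, hk⟩ := _root_.exists_ne i
    have hall : ∀ v : F, v ≠ 0 → ∃ (g : SU (2 + m) F q) (c : F) (μ : Fin m → F), H.IsTor g c μ ∧ c ^ q * μ i = v := by
      intro v hv
      obtain ⟨g, hg⟩ := H.exists_tor_one hF (c := v ^ q) (pow_ne_zero _ hv) k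
      refine ⟨g, v ^ q, _, hg, ?_⟩
      rw [Function.update_of_ne hk.symm, Pi.one_apply, mul_one, pow_q_pow_q hF]
    refine hsuff Finset.univ ?_ fun w _ h0 h1 => ⟨hall w h0, hall (1 + w) h1⟩
    rw [Finset.card_univ, hF]; nlinarith
  · have hone : ∀ c : F, c ≠ 0 → ∀ v, c ^ (2 * q) = c * v →
        ∃ (g : SU (2 + m) F q) (c : F) (μ : Fin m → F), H.IsTor g c μ ∧ c ^ q * μ i = v := by
      intro c hc v hv
      obtain ⟨g, hg⟩ := H.exists_tor_one hF hc i
      refine ⟨g, c, _, hg, ?_⟩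
      rw [Function.update_self, ← mul_div_assoc, ← pow_add, ← two_mul, hv, mul_div_cancel_left₀ _ hc]
    rcases le_or_gt 5 q with h5 | h5
    · refine hsuff (Finset.univ.filter fun x : F => x ^ q = x) ?_ fun w hw h0 h1 => ?_
      · rw [← Fintype.card_subtype, ← Nat.card_eq_fintype_card, card_fixed hF]; omega
      · rw [Finset.mem_filter] at hw
        exact ⟨hone w h0 w (by rw [two_mul, pow_add, hw.2]), hone (1 + w) h1 (1 + w) (by
          rw [two_mul, pow_add, add_pow_q hF, one_pow, hw.2])⟩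
    · obtain ⟨g, -, hgN, -⟩ := exists_gen hF
      have hsurj : ∀ v : F, v ≠ 0 → ∃ c : F, c ≠ 0 ∧ c ^ (2 * q) = c * v := by
        intro v hv
        have hv' : v ^ (q ^ 2 - 1) = 1 := by
          rw [← hF]; exact FiniteField.pow_card_sub_one_eq_one v hv
        interval_cases q
        · refine ⟨v ^ 5, pow_ne_zero _ hv, ?_⟩
          rw [← pow_mul, ← pow_succ]
          calc v ^ (5 * (2 * 3)) = v ^ (3 ^ 2 - 1) * v ^ (3 ^ 2 - 1) * v ^ (3 ^ 2 - 1) * v ^ 6 := by ring
            _ = v ^ (5 + 1) := by rw [hv']; simp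
        · refine ⟨v ^ 13, pow_ne_zero _ hv, ?_⟩
          rw [← pow_mul, ← pow_succ]
          calc v ^ (13 * (2 * 4)) = v ^ (4 ^ 2 - 1) * v ^ (4 ^ 2 - 1) * v ^ (4 ^ 2 - 1) * v ^ (4 ^ 2 - 1) *
              v ^ (4 ^ 2 - 1) * v ^ (4 ^ 2 - 1) * v ^ 14 := by ring
            _ = v ^ (13 + 1) := by rw [hv']; simp
      refine hsuff Finset.univ ?_ fun w _ h0 h1 => ?_
      · rw [Finset.card_univ, hF]; nlinarith
      · obtain ⟨c, hc0, hc⟩ := hsurj w h0
        obtain ⟨d, hd0, hd⟩ := hsurj (1 + w) h1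
        exact ⟨hone c hc0 w hc, hone d hd0 (1 + w) hd⟩

/-- The weights separating two lines. -/
theorem exists_pair_weight (hcase : 3 ≤ m ∨ 4 ≤ q) {i j : Fin m} (hij : i ≠ j) :
    ∃ (g : SU (2 + m) F q) (c : F) (μ : Fin m → F), H.IsTor g c μ ∧ c ^ (q + 1) = 1 ∧ c ^ q * μ i = 1 ∧
      c ^ q * μ j ≠ 1 := by
  classical
  obtain ⟨ν, hν0, hν, hνj⟩ := exists_norm_one_ne hF
  have h2 := two_le_q hF
  have hνq : ν ^ q * ν = 1 := by rw [← pow_succ]; exact hν
  by_cases hk : ∃ k, k ≠ i ∧ k ≠ j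
  · obtain ⟨k, hki, hkj⟩ := hk
    obtain ⟨g, hg⟩ := H.exists_tor_two hF (c := 1) (a := ν) (b := ν⁻¹) one_ne_zero hkj.symm hν
      (by rw [inv_pow, hν, inv_one]) (by simp [hν0])
    refine ⟨g, 1, _, hg, one_pow _, ?_, ?_⟩
    · rw [Function.update_of_ne hki.symm, Function.update_of_ne hij, Pi.one_apply, one_pow, one_mul]
    · rw [Function.update_of_ne hkj.symm, Function.update_self, one_pow, one_mul]
      simpa using hνj 1 one_pos (by omega)
  · push Not at hk
    have hm3 : ¬ 3 ≤ m := by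
      intro h
      have : (Finset.univ : Finset (Fin m)).card ≤ ({i, j} : Finset (Fin m)).card := Finset.card_le_card fun k _ => by
        by_cases h' : k = i
        · simp [h']
        · simp [hk k h']
      rw [Finset.card_univ, Fintype.card_fin] at this
      have := this.trans Finset.card_le_two
      omega
    obtain ⟨g, hg⟩ := H.exists_tor_two hF (c := ν) (a := ν) (b := (ν ^ 3)⁻¹) hν0 hij hν
      (by rw [inv_pow, ← pow_mul, mul_comm, pow_mul, hν, one_pow, inv_one]) (by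
        field_simp
        linear_combination -hνq)
    refine ⟨g, ν, _, hg, hν, ?_, ?_⟩
    · rw [Function.update_of_ne hij, Function.update_self, hνq]
    · rw [Function.update_self]
      intro h
      field_simp at h
      refine hνj 4 (by norm_num) (by omega) ?_
      linear_combination -ν * h + hνq

variable (hz : H.ZCentral hF σ)

include hs hc hz

/-- Odd characteristic or at least four elements in the fixed field. -/
theorem good_big (hq : 3 ≤ q) (hm : 1 ≤ m) (hcase : m = 1 ∨ 3 ≤ m ∨ 4 ≤ q)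
    {S : Subgroup (SU (2 + m) F q)} (hSL : S ≤ (blkR (F := F) (q := q) 2 m).range) (hgood : Good σ S) :
    Good σ (H.Q hF m ⊔ S) := by
  classical
  set i₀ : Fin m := ⟨0, hm⟩
  obtain ⟨γ, hγ0, -, hγd⟩ := exists_gen hF
  set N := γ ^ (q + 1) with hN
  have hN1 : N - 1 ≠ 0 := sub_ne_zero.2 fun h => by
    have := Nat.le_of_dvd (by omega) (hγd _ h)
    have : 3 * q ≤ q ^ 2 := by rw [sq]; exact Nat.mul_le_mul_right q hq
    omega
  obtain ⟨g₀, hg₀⟩ := H.exists_tor_one hF hγ0 i₀
  obtain ⟨T₀, rfl⟩ := hs g₀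
  have hT₀Z : ∀ z, σ z ∈ H.Z hF m → ∀ b, (∃ hb, σ z = H.root hF (0 : Fin m → F) b hb) →
      ∃ hb', σ ⁅T₀, z⁆ = H.root hF (0 : Fin m → F) ((N - 1) * b) hb' := by
    rintro z - b ⟨hb, e⟩
    have hb' := (adm_zero_iff hF).1 hb
    have hN' : N ^ q = N := norm_pow_q hF γ
    refine ⟨(adm_zero_iff hF).2 ?_, ?_⟩
    · rw [mul_pow, ← conjQ_apply hF, map_sub, map_one, conjQ_apply, hN']
      linear_combination (N - 1) * hb'
    · rw [map_commutatorElement, e, commutatorElement_def, IsLev.conj hF H hg₀, H.root_inv hF, H.root_mul hF]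
      refine H.root_congr hF (by simp [funext_iff]) ?_
      rw [neg_zero, hermForm_zero_left hF, sub_zero]
      linear_combination hb'
  let A₀ : Subgroup Γ :=
    { carrier := {a | ∃ z, σ z ∈ H.Z hF m ∧ a = ⁅T₀, z⁆}
      one_mem' := ⟨1, by rw [map_one]; exact one_mem _, (commutatorElement_one_right _).symm⟩
      mul_mem' := by
        rintro _ _ ⟨x, hx, rfl⟩ ⟨y, hy, rfl⟩
        refine ⟨x * y, by rw [map_mul]; exact mul_mem hx hy, ?_⟩
        obtain ⟨b, hb, e⟩ := hy
        obtain ⟨_, e'⟩ := hT₀Z y ⟨b, hb, e⟩ b ⟨hb, e⟩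
        have hc' : Commute x ⁅T₀, y⁆ := hz x hx _ (e' ▸ H.root_mem hF _ _ _)
        rw [show ⁅T₀, x * y⁆ = ⁅T₀, x⁆ * (x * ⁅T₀, y⁆ * x⁻¹) by simp only [commutatorElement_def]; group,
          hc'.eq, mul_inv_cancel_right]
      inv_mem' := by
        rintro _ ⟨x, hx, rfl⟩
        have hxi : σ x⁻¹ ∈ H.Z hF m := by rw [map_inv]; exact inv_mem hx
        refine ⟨x⁻¹, hxi, inv_eq_of_mul_eq_one_right ?_⟩
        obtain ⟨b, hb, e⟩ := hxi
        obtain ⟨_, e'⟩ := hT₀Z x⁻¹ ⟨b, hb, e⟩ b ⟨hb, e⟩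
        have hc' : Commute x ⁅T₀, x⁻¹⁆ := hz x hx _ (e' ▸ H.root_mem hF _ _ _)
        rw [← commutatorElement_one_right T₀, ← mul_inv_cancel x,
          show ⁅T₀, x * x⁻¹⁆ = ⁅T₀, x⁆ * (x * ⁅T₀, x⁻¹⁆ * x⁻¹) by simp only [commutatorElement_def]; group,
          hc'.eq, mul_inv_cancel_right] }
  have hA1 : ∀ a ∈ A₀, σ a = 1 → a = 1 := by
    rintro _ ⟨z, ⟨b, hb, e⟩, rfl⟩ h1
    obtain ⟨hb', e'⟩ := hT₀Z z ⟨b, hb, e⟩ b ⟨hb, e⟩
    rw [h1, ← H.root_one hF] at e'
    obtain ⟨-, h0⟩ := H.root_inj hF (ha := adm_zero hF) (ha' := hb') e'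
    obtain rfl : b = 0 := (mul_eq_zero.1 h0.symm).resolve_left hN1
    rw [H.root_one hF] at e
    exact commutatorElement_eq_one_iff_commute.2 (Subgroup.mem_center_iff.1 (hc e) T₀)
  have hAsurj : ∀ z, σ z ∈ H.Z hF m → ∃ a ∈ A₀, σ (a⁻¹ * z) = 1 := by
    rintro z ⟨b, hb, e⟩
    have hN' : (N - 1) ^ q = N - 1 := by rw [← conjQ_apply hF, map_sub, map_one, conjQ_apply, norm_pow_q hF]
    have hb2 : Adm q (0 : Fin m → F) (b / (N - 1)) := (adm_zero_iff hF).2 (by
      have := (adm_zero_iff hF).1 hb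
      rw [div_pow, hN', ← add_div, this, zero_div])
    obtain ⟨z', hz'⟩ := hs (H.root hF 0 _ hb2)
    refine ⟨⁅T₀, z'⁆, ⟨z', ⟨_, hb2, hz'⟩, rfl⟩, ?_⟩
    obtain ⟨_, e'⟩ := hT₀Z z' ⟨_, hb2, hz'⟩ _ ⟨hb2, hz'⟩
    rw [map_mul, map_inv, e', e, inv_mul_eq_one]
    exact H.root_congr hF rfl (mul_div_cancel₀ _ hN1)
  have hmove : ∀ (g : Γ) (c : F) (μ : Fin m → F), H.IsTor (σ g) c μ → ∀ z, σ z ∈ H.Z hF m →
      z⁻¹ * (g * z * g⁻¹) ∈ A₀ := by
    intro g c μ hg z hzZ
    obtain ⟨a, ha, hk⟩ := hAsurj z hzZ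
    have hkc : g * (a⁻¹ * z) * g⁻¹ = a⁻¹ * z := by
      rw [Subgroup.mem_center_iff.1 (hc hk) g, mul_inv_cancel_right]
    have e : z⁻¹ * (g * z * g⁻¹) = (a⁻¹ * z)⁻¹ * (a⁻¹ * (g * a * g⁻¹)) * (g * (a⁻¹ * z) * g⁻¹) := by group
    rw [e, hkc, (Subgroup.mem_center_iff.1 (inv_mem (hc hk)) _).symm, inv_mul_cancel_right]
    refine mul_mem (inv_mem ha) ?_
    obtain ⟨x, hx, rfl⟩ := ha
    refine ⟨g * x * g⁻¹, ?_, ?_⟩
    · obtain ⟨b, hb, ex⟩ := hx
      rw [map_mul, map_mul, map_inv, ex, IsLev.conj hF H hg]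
      refine ⟨c ^ (q + 1) * b, ?_, H.root_congr hF (by simp [funext_iff]) rfl⟩
      have := IsLev.adm hF H hg hb
      convert this using 1
      funext l
      simp
    · rw [← commutator_congr hc (show σ (g * T₀ * g⁻¹) = σ T₀ by
        rw [map_mul, map_mul, map_inv, mul_inv_eq_iff_eq_mul]
        exact (IsTor.commute hF H hg hg₀).eq) (rfl : σ (g * x * g⁻¹) = _)]
      simp only [commutatorElement_def]
      group
  have hinv : ∀ (g : SU (2 + m) F q) (c : F) (μ : Fin m → F), H.IsTor g c μ → ∀ i j (s t : F),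
      (H.om hF hs hc (Pi.single i s) (Pi.single j t))⁻¹ *
        H.om hF hs hc (Pi.single i (c ^ q * μ i * s)) (Pi.single j (c ^ q * μ j * t)) ∈ A₀ := by
    intro g c μ hg i j s t
    obtain ⟨g, rfl⟩ := hs g
    have := hmove g c μ hg _ (H.om_mem hF hs hc hz (Pi.single i s) (Pi.single j t))
    rwa [H.om_conj hF hs hc hz hg, tor_weight, tor_weight] at this
  have hdiag : ∀ i (s t : F), H.om hF hs hc (Pi.single i s) (Pi.single i t) ∈ A₀ := by
    intro i
    obtain ⟨w, hw0, hw, ⟨g, c, μ, hg, hgw⟩, g', c', μ', hg', hgw'⟩ := H.exists_line_weights hF hq i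
    have key : ∀ s t : F, H.om hF hs hc (Pi.single i ((1 + w + w⁻¹) * s)) (Pi.single i t) ∈ A₀ := by
      intro s t
      have h3 := hinv g c μ hg i i s t
      have h4 := hinv g' c' μ' hg' i i s t
      have hX := hinv g c μ hg i i (w⁻¹ * s) t
      rw [hgw] at h3 hX
      rw [← mul_assoc w, mul_inv_cancel₀ hw0, one_mul] at hX
      rw [hgw', add_mul, one_mul, add_mul, one_mul, Pi.single_add, Pi.single_add, H.om_add_left hF hs hc hz,
        H.om_add_right hF hs hc hz, H.om_add_right hF hs hc hz] at h4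
      rw [add_mul, add_mul, one_mul, Pi.single_add, Pi.single_add, H.om_add_left hF hs hc hz,
        H.om_add_left hF hs hc hz]
      set p := H.om hF hs hc (Pi.single i s) (Pi.single i t)
      set X1 := H.om hF hs hc (Pi.single i s) (Pi.single i (w * t))
      set X2 := H.om hF hs hc (Pi.single i (w * s)) (Pi.single i t)
      set X3 := H.om hF hs hc (Pi.single i (w * s)) (Pi.single i (w * t))
      set X4 := H.om hF hs hc (Pi.single i (w⁻¹ * s)) (Pi.single i t)
      have hcm : ∀ x y x' y' : Fin m → F, Commute (H.om hF hs hc x y) (H.om hF hs hc x' y') :=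
        H.om_commute hF hs hc hz
      have h5 : X1 * (X2 * p) ∈ A₀ := by
        have := mul_mem h4 (inv_mem h3)
        rwa [show p⁻¹ * (p * X1 * (X2 * X3)) * (p⁻¹ * X3)⁻¹ = X1 * (X2 * p) by group] at this
      have h8 := mul_mem (inv_mem hX) h5
      rwa [show (X4⁻¹ * X1)⁻¹ * (X1 * (X2 * p)) = X1⁻¹ * (X4 * X1) * (X2 * p) by group,
        (hcm _ _ _ _ : Commute X4 X1).eq, inv_mul_cancel_left,
        ((hcm _ _ _ _ : Commute X4 X2).mul_right (hcm _ _ _ _ : Commute X4 p)).eq, (hcm _ _ _ _ : Commute X2 p).eq]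
        at h8
    intro s t
    have := key ((1 + w + w⁻¹)⁻¹ * s) t
    rwa [← mul_assoc, mul_inv_cancel₀ hw, one_mul] at this
  have hoff : ∀ i j (s t : F), H.om hF hs hc (Pi.single i s) (Pi.single j t) ∈ A₀ := by
    intro i j
    rcases eq_or_ne i j with rfl | hij
    · exact hdiag i
    intro s t
    have hij' : (i : ℕ) ≠ j := Fin.val_ne_of_ne hij
    obtain ⟨g, c, μ, hg, -, hi, hj⟩ := H.exists_pair_weight hF (by omega) hij
    set t' := t / (c ^ q * μ j - 1) with ht'
    have h := hinv g c μ hg i j s t'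
    rw [hi, one_mul] at h
    have e : c ^ q * μ j * t' = t' + t := by
      rw [ht']
      have : c ^ q * μ j - 1 ≠ 0 := sub_ne_zero.2 hj
      field_simp
      ring
    rwa [e, Pi.single_add, H.om_add_right hF hs hc hz, inv_mul_cancel_left] at h
  have hle : dpre σ (H.Q hF m) ≤ A₀ := H.dpre_le_of_singles hF hs hc hz hoff
  obtain ⟨x₀, hx₀, hx1⟩ : ∃ x : F, x ^ q = x ∧ x ≠ 0 ∧ x ≠ 1 := by
    by_contra h
    push Not at h
    have hsub : Nat.card {x : F // x ^ q = x} ≤ Nat.card ↥({0, 1} : Finset F) :=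
      Nat.card_le_card_of_injective (fun x => ⟨x.1, by
        by_cases h0 : x.1 = 0
        · simp [h0]
        · simp [h x.1 x.2 h0]⟩) fun a b e => Subtype.ext (congrArg (fun z => z.1) e)
    rw [card_fixed hF, Nat.card_eq_fintype_card, Fintype.card_coe] at hsub
    have := hsub.trans Finset.card_le_two
    omega
  obtain ⟨g, hg⟩ := H.exists_lev hF hx1.1 (fun _ : Fin m => (1 : F)) (fun _ => one_pow _) (by
    rw [Finset.prod_const_one, mul_one, hx₀, mul_inv_cancel₀ hx1.1])
  obtain ⟨t, rfl⟩ := hs g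
  refine H.good_sup hF hs hc hz hm (fun r hr => hA1 r (hle hr)) hg (w := x₀) hx1.2 (fun x => ?_) (fun a x => ?_)
    (fun z hzZ r hr h1 => hA1 _ (mul_mem ?_ (hle hr)) h1) hSL hgood
  · rw [hx₀]; funext i; simp
  · funext i; simp
  · have h := hmove t x₀ (fun _ => 1) hg z hzZ
    have hcm := hz z⁻¹ (by rw [map_inv]; exact inv_mem hzZ) (t * z * t⁻¹) (by
      obtain ⟨b, hb, ez⟩ := hzZ
      rw [map_mul, map_mul, map_inv, ez, IsLev.conj hF H hg]
      exact H.root_mem hF _ _ _)
    rwa [hcm.eq, ← commutatorElement_def] at h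

/-- The field with four elements. -/
theorem good_two (hq : q = 2) (hm : 3 ≤ m) (hm' : m % 3 ≠ 1) {S : Subgroup (SU (2 + m) F q)}
    (hSL : S ≤ (blkR (F := F) (q := q) 2 m).range) (hgood : Good σ S) : Good σ (H.Q hF m ⊔ S) := by
  classical
  subst hq
  have hcard : Fintype.card F = 4 := by rw [hF]; norm_num
  haveI : CharP F 2 := charP_of_card_eq_prime_pow (p := 2) (f := 2) (by rw [hcard]; norm_num)
  obtain ⟨ν, hν0, hν, hνj⟩ := exists_norm_one_ne hF
  have hν1 : ν ≠ 1 := by simpa using hνj 1 one_pos (by norm_num)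
  have hν3 : ν ^ 3 = 1 := hν
  have hν2 : ν ^ 2 = ν + 1 := by
    have h : (ν - 1) * (ν ^ 2 + ν + 1) = 0 := by linear_combination hν3
    have h' := (mul_eq_zero.1 h).resolve_left (sub_ne_zero.2 hν1)
    linear_combination h' - (ν + 1) * (CharTwo.two_eq_zero (R := F))
  -- elements of odd order fixing the centre fix its preimage
  have hfixA : ∀ (g : Γ) (c : F) (T : (Fin m → F) → (Fin m → F)), H.IsLev (σ g) c T → T 0 = 0 → c ^ 3 = 1 →
      σ g ^ 3 = 1 → ∀ z, σ z ∈ H.Z hF m → g * z * g⁻¹ = z := by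
    rintro g c T hg hT0 hc3 hg3 z ⟨b, hb, ez⟩
    have hb2 : b + b = 0 := CharTwo.add_self_eq_zero b
    have hsq : σ (z * z) = 1 := by
      rw [map_mul, ez, H.root_mul hF, ← H.root_one hF]
      exact H.root_congr hF (add_zero 0) (by rw [hermForm_zero_left hF, sub_zero, hb2])
    have hgz : σ (g * z * g⁻¹) = σ z := by
      rw [map_mul, map_mul, map_inv, ez, IsLev.conj hF H hg]
      exact H.root_congr hF (by rw [hT0, smul_zero]) (by rw [show (2 : ℕ) + 1 = 3 from rfl, hc3, one_mul])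
    set d := z⁻¹ * (g * z * g⁻¹) with hd
    have hdk : σ d = 1 := by rw [hd, map_mul, map_inv, hgz, inv_mul_cancel]
    have hdc : ∀ x : Γ, Commute d x := fun x => (Subgroup.mem_center_iff.1 (hc hdk) x).symm
    have e1 : g * z * g⁻¹ = z * d := by rw [hd, mul_inv_cancel_left]
    have hd2 : d ^ 2 = 1 := by
      have e2 : g * (z * z) * g⁻¹ = z * z := by
        rw [Subgroup.mem_center_iff.1 (hc hsq) g, mul_inv_cancel_right]
      rw [show g * (z * z) * g⁻¹ = g * z * g⁻¹ * (g * z * g⁻¹) by group, e1, mul_assoc z d, ← mul_assoc d z,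
        (hdc z).eq, mul_assoc z d, ← mul_assoc z z, ← sq d, mul_eq_left] at e2
      exact e2
    have hd3 : d ^ 3 = 1 := by
      have hpow : ∀ k : ℕ, g ^ k * z * (g ^ k)⁻¹ = z * d ^ k := by
        intro k
        induction k with
        | zero => simp
        | succ k ih =>
          rw [pow_succ', show g * g ^ k * z * (g * g ^ k)⁻¹ = g * (g ^ k * z * (g ^ k)⁻¹) * g⁻¹ by group, ih,
            show g * (z * d ^ k) * g⁻¹ = g * z * g⁻¹ * (g * d ^ k * g⁻¹) by group, e1,
            ← ((hdc g).pow_left k).eq, mul_inv_cancel_right, mul_assoc, ← pow_succ']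
      have h := hpow 3
      rw [Subgroup.mem_center_iff.1 (hc (show σ (g ^ 3) = 1 by rw [map_pow, hg3])) z |>.symm, mul_inv_cancel_right,
        left_eq_mul] at h
      exact h
    rw [e1, show d = 1 by rw [← hd3, pow_succ, hd2, one_mul], mul_one]
  have hpow3 : ∀ (g : SU (2 + m) F 2) (c : F) (T : (Fin m → F) → (Fin m → F)), H.IsLev g c T → c ^ 3 = 1 →
      (∀ x, T (T (T x)) = x) → g ^ 3 = 1 := by
    intro g c T hg hc3 hT
    have h := IsLev.mul hF H (IsLev.mul hF H hg hg) hg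
    rw [show c * (c * c) = c ^ 3 by ring, hc3, show (T ∘ T) ∘ T = id from funext hT] at h
    rw [pow_succ, pow_two]
    exact IsLev.ext hF H h ⟨by rw [sv_one, one_smul], by rw [sv_one, one_pow, inv_one, one_smul], fun x => by rw [sv_one, id]⟩
  have htor : ∀ (g : Γ) (c : F) (μ : Fin m → F), H.IsTor (σ g) c μ → c ^ 3 = 1 → (∀ i, μ i ^ 3 = 1) →
      ∀ z, σ z ∈ H.Z hF m → g * z * g⁻¹ = z := fun g c μ hg hc3 hμ =>
    hfixA g c _ hg (by funext i; simp) hc3 (hpow3 _ c _ hg hc3 fun x => funext fun i => by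
      linear_combination x i * hμ i)
  -- all values lie in the group generated by one of them
  set i₀ : Fin m := ⟨0, by omega⟩
  set s₀ := H.om hF hs hc (Pi.single i₀ 1) (Pi.single i₀ ν) with hs₀
  set R := Subgroup.zpowers s₀
  have hoff : ∀ i j, i ≠ j → ∀ s t : F, H.om hF hs hc (Pi.single i s) (Pi.single j t) = 1 := by
    intro i j hij s t
    obtain ⟨g, c, μ, hg, hcn, hi, hj⟩ := H.exists_pair_weight hF (Or.inl hm) hij
    obtain ⟨g, rfl⟩ := hs g
    have hμ3 : ∀ l, μ l ^ 3 = 1 := fun l => by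
      have h := sv_preserves (σ g) (inc (Pi.single l 1)) (inc (Pi.single l 1))
      rw [hg.2.2, hincinc hF, hincinc hF, hermForm, hermForm] at h
      rw [Finset.sum_eq_single l (fun b _ hb => by simp [hb]) (by simp),
        Finset.sum_eq_single l (fun b _ hb => by simp [hb]) (by simp)] at h
      simp at h
      rw [pow_succ']; exact h
    set t' := t / (c ^ 2 * μ j - 1) with ht'
    have h := H.om_conj hF hs hc hz hg (Pi.single i s) (Pi.single j t')
    rw [htor g c μ hg hcn hμ3 _ (H.om_mem hF hs hc hz _ _), tor_weight, tor_weight, hi, one_mul] at h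
    have e : c ^ 2 * μ j * t' = t' + t := by
      rw [ht']
      have : c ^ 2 * μ j - 1 ≠ 0 := sub_ne_zero.2 hj
      field_simp
      ring
    rw [e, Pi.single_add, H.om_add_right hF hs hc hz, left_eq_mul] at h
    exact h
  have helts : ∀ x : F, x = 0 ∨ x = 1 ∨ x = ν ∨ x = ν + 1 := by
    intro x
    by_contra h
    push Not at h
    have hne : ν + 1 ≠ 0 := fun e => hν1 (by linear_combination e - CharTwo.two_eq_zero (R := F))
    have hsub : ({0, 1, ν, ν + 1, x} : Finset F).card ≤ 4 := hcard ▸ Finset.card_le_univ _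
    rw [Finset.card_insert_of_notMem (by simp [hν0.symm, hne.symm, h.1.symm]),
      Finset.card_insert_of_notMem (by simp [hν1.symm, h.2.1.symm, hν0]),
      Finset.card_insert_of_notMem (by simp [h.2.2.1.symm]),
      Finset.card_insert_of_notMem (by simp [h.2.2.2.symm]), Finset.card_singleton] at hsub
    omega
  have hself : ∀ x : Fin m → F, H.om hF hs hc x x = 1 := fun x => by rw [om]; exact commutatorElement_self _
  -- moving one line to another
  have hperm : ∀ i j : Fin m, H.om hF hs hc (Pi.single i 1) (Pi.single i ν) =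
      H.om hF hs hc (Pi.single j 1) (Pi.single j ν) := by
    intro i j
    rcases eq_or_ne i j with rfl | hij
    · rfl
    obtain ⟨k, hki, hkj⟩ : ∃ k, k ≠ i ∧ k ≠ j := by
      by_contra hk
      push Not at hk
      have : (Finset.univ : Finset (Fin m)).card ≤ ({i, j} : Finset (Fin m)).card := Finset.card_le_card fun k _ => by
        by_cases h' : k = i
        · simp [h']
        · simp [hk k h']
      rw [Finset.card_univ, Fintype.card_fin] at this
      have := this.trans Finset.card_le_two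
      omega
    set π : Equiv.Perm (Fin m) := Equiv.swap i k * Equiv.swap i j with hπ
    have hπi : π i = j := by
      rw [hπ, Equiv.Perm.mul_apply, Equiv.swap_apply_left, Equiv.swap_apply_of_ne_of_ne hij.symm hkj.symm]
    have hπ3 : ∀ l, π (π (π l)) = l := by
      intro l
      have h1 : π j = k := by rw [hπ, Equiv.Perm.mul_apply, Equiv.swap_apply_right, Equiv.swap_apply_left]
      have h2 : π k = i := by
        rw [hπ, Equiv.Perm.mul_apply, Equiv.swap_apply_of_ne_of_ne hki hkj, Equiv.swap_apply_right]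
      by_cases hli : l = i
      · subst hli; rw [hπi, h1, h2]
      by_cases hlj : l = j
      · subst hlj; rw [h1, h2, hπi]
      by_cases hlk : l = k
      · subst hlk; rw [h2, hπi, h1]
      have h3 : π l = l := by
        rw [hπ, Equiv.Perm.mul_apply, Equiv.swap_apply_of_ne_of_ne hli hlj, Equiv.swap_apply_of_ne_of_ne hli hlk]
      rw [h3, h3, h3]
    obtain ⟨a, ha⟩ := exists_monomial hF π (fun _ => (1 : F)) (fun _ => one_pow _) (by
      rw [hπ, map_mul, Equiv.Perm.sign_swap hki.symm, Equiv.Perm.sign_swap hij]; simp)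
    obtain ⟨g, hg⟩ := hs (blkR 2 m a)
    have hgl : H.IsLev (σ g) 1 (sv a) := hg ▸ H.isLev_blkR hF a
    have hTe : ∀ x, sv a (Pi.single i x) = Pi.single j x := fun x => funext fun l => by
      rw [ha, one_mul, ← hπi, Pi.single_apply, Pi.single_apply]
      simp [Equiv.symm_apply_eq]
    have h3 : σ g ^ 3 = 1 := hpow3 _ 1 _ hgl (one_pow 3) fun x => funext fun l => by
      rw [ha, ha, ha, one_mul, one_mul, one_mul]
      congr 1
      exact π.injective (π.injective (π.injective (by simp only [Equiv.apply_symm_apply, hπ3])))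
    have h := H.om_conj hF hs hc hz hgl (Pi.single i 1) (Pi.single i ν)
    rwa [hfixA g 1 _ hgl (sv_zero a) (one_pow 3) h3 _ (H.om_mem hF hs hc hz _ _), one_pow, one_smul, one_smul, hTe,
      hTe] at h
  have hline : ∀ i (s t : F), H.om hF hs hc (Pi.single i s) (Pi.single i t) ∈ R := by
    intro i s t
    have h1 : H.om hF hs hc (Pi.single i 1) (Pi.single i ν) ∈ R := by
      rw [hperm i i₀]; exact Subgroup.mem_zpowers _
    have h2 : H.om hF hs hc (Pi.single i ν) (Pi.single i 1) ∈ R := by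
      rw [H.om_swap hF hs hc hz]; exact inv_mem h1
    rcases helts s with rfl | rfl | rfl | rfl <;> rcases helts t with rfl | rfl | rfl | rfl <;>
      (try simp only [Pi.single_zero, Pi.single_add, H.om_zero_left hF hs hc hz, H.om_zero_right hF hs hc hz,
        H.om_add_left hF hs hc hz, H.om_add_right hF hs hc hz, hself, one_mul, mul_one]) <;>
      first | exact one_mem R | exact h1 | exact h2 | exact mul_mem h1 h2 | exact mul_mem h2 h1
  have hle : dpre σ (H.Q hF m) ≤ R := H.dpre_le_of_singles hF hs hc hz fun i j s t => by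
    rcases eq_or_ne i j with rfl | hij
    · exact hline i s t
    · rw [hoff i j hij]; exact one_mem _
  have hsσ : σ s₀ ≠ 1 := by
    obtain ⟨u, a, ha, eu⟩ := H.exists_ov hF hs hc (Pi.single i₀ (1 : F))
    obtain ⟨v, b, hb, ev⟩ := H.exists_ov hF hs hc (Pi.single i₀ ν)
    rw [hs₀, ← H.om_eq hF hs hc hz ⟨a, ha, eu⟩ ⟨b, hb, ev⟩, map_commutatorElement, eu, ev, H.root_comm hF,
      ← H.root_one hF]
    intro h
    obtain ⟨-, h0⟩ := H.root_inj hF (ha' := adm_zero hF) h
    rw [hermForm_single_left, hermForm_single_left, Pi.single_eq_same, Pi.single_eq_same, one_pow, one_mul,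
      mul_one, hν2] at h0
    exact one_ne_zero (by linear_combination h0)
  have hs2 : s₀ ^ 2 = 1 := by
    rw [hs₀, sq, ← H.om_add_left hF hs hc hz, ← Pi.single_add, CharTwo.add_self_eq_zero, Pi.single_zero,
      H.om_zero_left hF hs hc hz]
  have hR1 : ∀ r ∈ R, σ r = 1 → r = 1 := by
    rintro r ⟨k, rfl⟩ h
    simp only at h ⊢
    obtain ⟨l, rfl | rfl⟩ := Int.even_or_odd' k
    · rw [_root_.zpow_mul, zpow_two, ← sq, hs2, _root_.one_zpow]
    · exfalso
      rw [_root_.zpow_add_one, _root_.zpow_mul, zpow_two, ← sq, hs2, _root_.one_zpow, one_mul] at h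
      exact hsσ h
  obtain ⟨g, hg⟩ := H.exists_lev hF (pow_ne_zero m hν0) (fun _ : Fin m => ν) (fun _ => hν) (by
    have h3 : (ν ^ m) ^ 3 = 1 := by rw [← pow_mul, mul_comm, pow_mul, hν3, one_pow]
    rw [Finset.prod_const, Finset.card_univ, Fintype.card_fin]
    have hm0 : ν ^ m ≠ 0 := pow_ne_zero m hν0
    field_simp)
  obtain ⟨t, rfl⟩ := hs g
  have hm3 : (ν ^ m) ^ 3 = 1 := by rw [← pow_mul, mul_comm, pow_mul, hν3, one_pow]
  refine H.good_sup hF hs hc hz (by omega) (fun r hr => hR1 r (hle hr)) hg (w := (ν ^ m) ^ 2 * ν) ?_ (fun x => ?_)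
    (fun a x => ?_) (fun z hzZ r hr h1 => ?_) hSL hgood
  · intro h
    have h2 : ν ^ (2 * m + 1) = 1 := by rw [pow_succ, mul_comm 2 m, pow_mul]; exact h
    rw [← Nat.div_add_mod (2 * m + 1) 3, pow_add, pow_mul, hν3, one_pow, one_mul] at h2
    exact hνj _ (by omega) (by omega) h2
  · funext i; simp [mul_assoc]
  · show (fun i => ν * sv a x i) = sv a (ν • x)
    rw [sv_smul]; rfl
  · have hfix := htor t _ _ hg hm3 (fun _ => hν3) z hzZ
    have e : ⁅t, z⁆ = 1 := by rw [commutatorElement_def, hfix, mul_inv_cancel]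
    rw [e, one_mul] at h1 ⊢
    exact hR1 r (hle hr) h1

end HypPair

end Cfsg.Agent.H46.SUMult
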