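import Cfsg.Agent.H46.SUMult.Kill
import Cfsg.Agent.H46.SUMult.Basic

/-!
# Reducing odd-order parts to smaller special unitary groups
-/

set_option autoImplicit false

open scoped commutatorElement Pointwise

namespace Cfsg.Agent.H46.SUMult

open Matrix Cfsg Cfsg.Agent.H3
open Cfsg.Agent.H82.Orth (dpre dpre_mono exists_mem_dpre conj_mem_dpre map_dpre)

universe u

/-- A group generated by elements of `p`-power order has abelianisation of order prime to `r ≠ p`. -/
theorem not_dvd_commutator_index {G : Type u} [Group G] [Finite G] {p r : ℕ} (hp : p.Prime) (hr : r.Prime)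
    (hne : r ≠ p) (hgen : Subgroup.closure {g : G | ∃ k : ℕ, g ^ p ^ k = 1} = ⊤) :
    ¬ r ∣ (commutator G).index := by
  have := Fact.mk hr
  have := Fact.mk hp
  intro hd
  have hall : ∀ x : Abelianization G, ∃ k : ℕ, x ^ p ^ k = 1 := by
    intro x
    obtain ⟨g, rfl⟩ : ∃ g, Abelianization.of g = x := QuotientGroup.mk_surjective x
    have hg : g ∈ Subgroup.closure {g : G | ∃ k : ℕ, g ^ p ^ k = 1} := by rw [hgen]; exact Subgroup.mem_top _
    induction hg using Subgroup.closure_induction with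
    | mem y hy =>
      obtain ⟨k, hk⟩ := hy
      exact ⟨k, by rw [← map_pow, hk, map_one]⟩
    | one => exact ⟨0, by rw [map_one, one_pow]⟩
    | mul y z _ _ hy hz =>
      obtain ⟨a, ha⟩ := hy
      obtain ⟨b, hb⟩ := hz
      refine ⟨a + b, ?_⟩
      rw [map_mul, mul_pow]
      conv_lhs => enter [1]; rw [pow_add, pow_mul]
      conv_lhs => enter [2]; rw [pow_add, mul_comm, pow_mul]
      rw [show Abelianization.of y ^ p ^ a = 1 from ha, show Abelianization.of z ^ p ^ b = 1 from hb, one_pow, one_pow,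
        one_mul]
    | inv y _ hy =>
      obtain ⟨a, ha⟩ := hy
      exact ⟨a, by
        rw [map_inv, inv_pow, show Abelianization.of y ^ p ^ a = 1 from ha, inv_one]⟩
  have hd' : r ∣ Nat.card (Abelianization G) := by rwa [Subgroup.index_eq_card] at hd
  obtain ⟨x, hx⟩ := exists_prime_orderOf_dvd_card' (G := Abelianization G) r hd'
  obtain ⟨k, hk⟩ := hall x
  have := orderOf_dvd_of_pow_eq_one hk
  rw [hx] at this
  exact hne ((Nat.prime_dvd_prime_iff_eq hr hp).1 (hr.dvd_of_dvd_pow this))

variable {F : Type u} [Field F] [Fintype F] {q : ℕ} (hF : Fintype.card F = q ^ 2)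

include hF

/-- The abelianisation of `SU n` is a `p`-group. -/
theorem not_dvd_index_SU {n p r : ℕ} [CharP F p] (hp : p.Prime) (hr : r.Prime) (hne : r ≠ p) (hn : 2 ≤ n)
    (h32 : ¬(n = 3 ∧ q = 2)) : ¬ r ∣ (commutator (SU n F q)).index := by
  refine not_dvd_commutator_index hp hr hne (eq_top_iff.2 ?_)
  rw [← su_closure_eq_top hF hn h32]
  refine Subgroup.closure_mono ?_
  rintro A ⟨v, c, hv, hA⟩
  refine ⟨1, SU_ext ?_⟩
  have key : ∀ k : ℕ, (((A ^ k : SU n F q)).1 : Matrix (Fin n) (Fin n) F) = unitaryTransvection n q v ((k : F) * c) := by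
    intro k
    induction k with
    | zero =>
      refine Matrix.ext_of_mulVec_single fun i => ?_
      rw [pow_zero, unitaryTransvection_mulVec, Nat.cast_zero, zero_mul, zero_mul, zero_smul, add_zero]
      exact one_mulVec _
    | succ k ih =>
      refine Matrix.ext_of_mulVec_single fun i => ?_
      rw [pow_succ, SU_mul_val, ih, hA, ← Matrix.mulVec_mulVec, unitaryTransvection_mulVec, unitaryTransvection_mulVec,
        unitaryTransvection_mulVec]
      simp only [hermForm_add_left hF, hermForm_smul_left hF, hv, mul_zero, add_zero, Nat.cast_succ]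
      module
  rw [pow_one, key p, CharP.cast_eq_zero, zero_mul]
  refine Matrix.ext_of_mulVec_single fun i => ?_
  rw [unitaryTransvection_mulVec, zero_mul, zero_smul, add_zero]
  exact (one_mulVec _).symm

omit hF in
/-- The number of unit vectors in dimension `n + 1`. -/
def unitCount (q n : ℕ) : ℕ := q ^ n * if Even n then q ^ (n + 1) + 1 else q ^ (n + 1) - 1

/-- The recursion for the orders. -/
theorem card_SU_succ {n : ℕ} (hn : 1 ≤ n) :
    Nat.card (SU (n + 1) F q) = unitCount q n * Nat.card (SU n F q) := by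
  have h1 := card_SU hF (n := n + 1) (by omega)
  rw [card_GU_succ hF, card_norm_one_vectors hF, ← card_SU hF hn] at h1
  refine Nat.eq_of_mul_eq_mul_left (Nat.succ_pos q) ?_
  rw [unitCount, Nat.succ_eq_add_one, h1]
  ring

/-- `SU 1` is trivial. -/
theorem card_SU_one : Nat.card (SU 1 F q) = 1 := by
  haveI : Subsingleton (SU 1 F q) := ⟨fun a b => SU_ext (Matrix.ext fun i j => by
    fin_cases i; fin_cases j
    have ha := a.1.2
    have hb := b.1.2
    rw [Matrix.det_fin_one] at ha hb
    exact ha.trans hb.symm)⟩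
  exact Nat.card_of_subsingleton 1

/-- An element of order `q + 1` normalising the standard `SU m` and meeting it trivially. -/
theorem exists_torus (m : ℕ) (hm : 1 ≤ m) :
    ∃ c : SU (m + 1) F q, Nat.card (Subgroup.zpowers c) = q + 1 ∧
      (∃ a : F, sv c (Pi.single (Fin.last m) 1) = a • Pi.single (Fin.last m) 1) ∧
      Disjoint (emb (F := F) (q := q) m 1).range (Subgroup.zpowers c) := by
  classical
  obtain ⟨z, hz⟩ := IsCyclic.exists_generator (α := (powMonoidHom (q + 1) : Fˣ →* Fˣ).ker)
  set ζ : Fˣ := z.1 with hζ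
  have hord : orderOf ζ = q + 1 := by
    rw [hζ, Subgroup.orderOf_coe, orderOf_eq_card_of_forall_mem_zpowers hz, card_norm_one_units hF]
  have hζn : (ζ : F) ^ (q + 1) = 1 := by
    have h := congrArg Units.val (pow_orderOf_eq_one ζ)
    rwa [hord, Units.val_pow_eq_pow_val, Units.val_one] at h
  set d : Fin (m + 1) → F := fun i => if i = Fin.last m then (ζ : F) else if i = 0 then (ζ : F)⁻¹ else 1 with hd
  have h0 : (0 : Fin (m + 1)) ≠ Fin.last m := by
    simp [Fin.ext_iff]; omega
  obtain ⟨c, hc⟩ := exists_diag hF d (fun i => by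
      simp only [hd]; split_ifs <;> simp [hζn]) (by
      rw [← Finset.prod_subset (Finset.subset_univ {(0 : Fin (m + 1)), Fin.last m}) (fun x _ hx => by
        simp only [Finset.mem_insert, Finset.mem_singleton, not_or] at hx
        simp [hd, hx.1, hx.2]), Finset.prod_pair h0]
      simp [hd, h0])
  have hpow : ∀ (k : ℕ) (x : Fin (m + 1) → F) (i : Fin (m + 1)), sv (c ^ k) x i = d i ^ k * x i := by
    intro k
    induction k with
    | zero => simp
    | succ k ih => intro x i; rw [pow_succ', sv_mul, hc, ih, pow_succ']; ring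
  have hlast : ∀ k : ℕ, sv (c ^ k) (Pi.single (Fin.last m) 1) = ((ζ : F) ^ k) • Pi.single (Fin.last m) 1 := by
    intro k
    funext i
    rw [hpow, Pi.smul_apply, smul_eq_mul]
    rcases eq_or_ne i (Fin.last m) with rfl | hi
    · simp [hd]
    · simp [hi]
  have htail : tail m 1 F 0 = Pi.single (Fin.last m) 1 := rfl
  have hcard : orderOf c = q + 1 := by
    refine Nat.dvd_antisymm (orderOf_dvd_of_pow_eq_one (sv_ext fun x => funext fun i => ?_)) ?_
    · rw [hpow, sv_one]
      simp only [hd]; split_ifs <;> simp [hζn]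
    · rw [← hord]
      refine orderOf_dvd_of_pow_eq_one (Units.ext ?_)
      have h := congrFun (hlast (orderOf c)) (Fin.last m)
      rw [pow_orderOf_eq_one, sv_one] at h
      simpa using h.symm
  refine ⟨c, by rw [Nat.card_zpowers, hcard], ⟨(ζ : F), by simpa using hlast 1⟩, ?_⟩
  rw [Subgroup.disjoint_def]
  intro x hx hx'
  obtain ⟨k, rfl⟩ := mem_powers_iff_mem_zpowers.2 hx'
  simp only at hx ⊢
  rw [range_emb hF] at hx
  have h := hx 0
  rw [htail, hlast] at h
  have hk : ζ ^ k = 1 := Units.ext (by simpa using congrFun h (Fin.last m))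
  exact orderOf_dvd_iff_pow_eq_one.1 (hcard ▸ hord ▸ orderOf_dvd_of_pow_eq_one hk)

/-- Elements preserving the last coordinate line normalise the standard `SU m`. -/
theorem conj_mem_range_emb {m : ℕ} {c : SU (m + 1) F q} {a : F}
    (hc : sv c (Pi.single (Fin.last m) 1) = a • Pi.single (Fin.last m) 1) {x : SU (m + 1) F q}
    (hx : x ∈ (emb (F := F) (q := q) m 1).range) : c * x * c⁻¹ ∈ (emb (F := F) (q := q) m 1).range := by
  rw [range_emb hF] at hx ⊢
  intro i
  fin_cases i
  show sv (c * x * c⁻¹) (Pi.single (Fin.last m) 1) = Pi.single (Fin.last m) 1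
  have hx0 : sv x (Pi.single (Fin.last m) 1) = Pi.single (Fin.last m) 1 := hx 0
  rw [sv_mul, sv_mul]
  have ha : a ≠ 0 := fun h => by
    have h1 := congrArg (sv c⁻¹) hc
    rw [sv_inv_sv, h, zero_smul, sv_zero] at h1
    simpa using congrFun h1 (Fin.last m)
  have hci : sv c⁻¹ (Pi.single (Fin.last m) 1) = a⁻¹ • Pi.single (Fin.last m) 1 := by
    conv_rhs => rw [← sv_inv_sv c (Pi.single (Fin.last m) 1), hc, sv_smul, smul_smul, inv_mul_cancel₀ ha, one_smul]
  rw [hci, sv_smul, hx0, sv_smul, hc, smul_smul, inv_mul_cancel₀ ha, one_smul]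

/-- The reduction step. -/
theorem kill_succ {r m : ℕ} [Fact r.Prime] (hm : 1 ≤ m) (h : Kill r (SU m F q))
    (hD : ¬ r ∣ (commutator (SU m F q)).index)
    (hx : ∀ x, unitCount q m = (q + 1) * x → ¬ r ∣ x) : Kill r (SU (m + 1) F q) := by
  obtain ⟨c, hcard, ⟨a, hca⟩, hdis⟩ := exists_torus hF m hm
  set f := emb (F := F) (q := q) m 1 with hf
  set D : Subgroup (SU (m + 1) F q) := (commutator (SU m F q)).map f with hDdef
  have hDr : D ≤ f.range := Subgroup.map_le_range f _
  have hDeq : D = ⁅f.range, f.range⁆ := by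
    rw [hDdef, commutator_def, Subgroup.map_commutator, ← MonoidHom.range_eq_map]
  have hconj : ∀ i : ℕ, ∀ x ∈ f.range, c ^ i * x * (c ^ i)⁻¹ ∈ f.range := by
    intro i
    induction i with
    | zero => intro x hx; simpa using hx
    | succ i ih =>
      intro x hx
      rw [pow_succ', show c * c ^ i * x * (c * c ^ i)⁻¹ = c * (c ^ i * x * (c ^ i)⁻¹) * c⁻¹ by group]
      exact conj_mem_range_emb hF hca (ih x hx)
  have hconjz : ∀ t ∈ Subgroup.zpowers c, ∀ x ∈ f.range, t * x * t⁻¹ ∈ f.range := by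
    intro t ht x hx
    obtain ⟨i, rfl⟩ := mem_powers_iff_mem_zpowers.2 ht
    exact hconj i x hx
  have hnorm : Subgroup.zpowers c ≤ Subgroup.normalizer (D : Set (SU (m + 1) F q)) := by
    intro t ht
    have key : ∀ t ∈ Subgroup.zpowers c, ∀ x ∈ D, t * x * t⁻¹ ∈ D := by
      intro t ht x hx
      have hle : f.range.map (MulAut.conj t).toMonoidHom ≤ f.range := by
        rintro _ ⟨y, hy, rfl⟩
        exact hconjz t ht y hy
      rw [hDeq] at hx ⊢
      have := Subgroup.commutator_mono hle hle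
      rw [← Subgroup.map_commutator] at this
      exact this ⟨x, hx, rfl⟩
    rw [Subgroup.mem_normalizer_iff]
    refine fun x => ⟨key t ht x, fun hx => ?_⟩
    have := key t⁻¹ (inv_mem ht) _ hx
    rwa [inv_inv, ← mul_assoc, ← mul_assoc, inv_mul_cancel, one_mul, inv_mul_cancel_right] at this
  set K : Subgroup (SU (m + 1) F q) := D ⊔ Subgroup.zpowers c with hK
  have hKset : (K : Set (SU (m + 1) F q)) = (D : Set (SU (m + 1) F q)) * (Subgroup.zpowers c : Set (SU (m + 1) F q)) :=
    Subgroup.coe_mul_of_right_le_normalizer_left _ _ hnorm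
  have hcardK : Nat.card K = Nat.card (commutator (SU m F q)) * (q + 1) := by
    rw [← hcard, show Nat.card (commutator (SU m F q)) = Nat.card D from
      Nat.card_congr (Subgroup.equivMapOfInjective _ f emb_injective).toEquiv, ← Nat.card_prod]
    refine (Nat.card_congr (Equiv.ofBijective (fun p : D × Subgroup.zpowers c => (⟨p.1.1 * p.2.1,
      mul_mem (le_sup_left (a := D) p.1.2) (le_sup_right (a := D) p.2.2)⟩ : K)) ⟨?_, ?_⟩)).symm
    · rintro ⟨⟨x, hx⟩, ⟨t, ht⟩⟩ ⟨⟨y, hy⟩, ⟨u, hu⟩⟩ e
      have e' : x * t = y * u := congrArg Subtype.val e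
      have h1 : y⁻¹ * x = u * t⁻¹ := by
        rw [eq_mul_inv_iff_mul_eq, mul_assoc, e', inv_mul_cancel_left]
      have h2 : y⁻¹ * x = 1 :=
        Subgroup.disjoint_def.1 hdis (hDr (mul_mem (inv_mem hy) hx)) (h1 ▸ mul_mem hu (inv_mem ht))
      obtain rfl : y = x := inv_mul_eq_one.1 h2
      obtain rfl : t = u := mul_left_cancel e'
      rfl
    · intro k
      have hk : k.1 ∈ (K : Set (SU (m + 1) F q)) := k.2
      rw [hKset] at hk
      obtain ⟨x, hx, t, ht, e⟩ := hk
      exact ⟨(⟨x, hx⟩, ⟨t, ht⟩), Subtype.ext e⟩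
  refine kill_of_index K ?_ ?_
  · intro hd
    have h1 := K.card_mul_index
    rw [hcardK, card_SU_succ hF hm, ← (commutator (SU m F q)).card_mul_index] at h1
    have h2 : (q + 1) * K.index = unitCount q m * (commutator (SU m F q)).index :=
      Nat.eq_of_mul_eq_mul_left (Nat.card_pos (α := commutator (SU m F q))) (by rw [← mul_assoc, h1]; ring)
    obtain ⟨x, hx'⟩ : (q + 1) ∣ unitCount q m := by
      unfold unitCount
      refine Dvd.dvd.mul_left ?_ _
      split_ifs with he
      · simpa using Odd.nat_add_dvd_pow_add_pow q 1 he.add_one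
      · obtain ⟨j, hj⟩ := (Nat.not_even_iff_odd.1 he).add_one
        have hq2 : q + 1 ∣ q ^ 2 - 1 := ⟨q - 1, by rw [← Nat.sq_sub_sq, one_pow]⟩
        rw [hj, show j + j = 2 * j by ring, pow_mul]
        exact hq2.trans (by simpa using Nat.sub_one_dvd_pow_sub_one (q ^ 2) j)
    rw [hx', mul_assoc] at h2
    have h3 := Nat.eq_of_mul_eq_mul_left (Nat.succ_pos q) h2
    rw [h3] at hd
    rcases (Fact.out : r.Prime).dvd_mul.1 hd with hd | hd
    · exact hx x hx' hd
    · exact hD hd
  · intro Γ _ _ σ hs hc S hSK hS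
    obtain ⟨ch, hch⟩ := hs c
    refine (Kill.clean h (f := f) emb_injective hs hc).good hs hc hS
      (dpre_le_of_cyclic hs hc (c := ch) ?_ fun s hs' => ?_)
    · intro i x hx
      refine conj_mem_dpre (P' := f.range) _ (fun y hy => ?_) hx
      rw [map_zpow, hch]
      exact hconjz _ ⟨i, rfl⟩ y hy
    · have hk : s ∈ (K : Set (SU (m + 1) F q)) := hSK hs'
      rw [hKset] at hk
      obtain ⟨x, hx, t, ⟨i, rfl⟩, e⟩ := hk
      obtain ⟨x', hx', e'⟩ := exists_mem_dpre (σ := σ) hs (P := f.range) (hDeq ▸ hx)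
      exact ⟨x', hx', i, by rw [e', hch]; exact e⟩

end Cfsg.Agent.H46.SUMult
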