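import Cfsg.Agent.H46.SUMult.Four

/-!
# The unipotent radical of the stabiliser of an isotropic point
-/

set_option autoImplicit false

open scoped commutatorElement Pointwise

namespace Cfsg.Agent.H46.SUMult

open Matrix Cfsg Cfsg.Agent.H3

universe u

variable {F : Type u} [Field F] {q : ℕ}

/-- A hyperbolic pair of the plane together with its torus. -/
structure HypPair (F : Type u) [Field F] (q : ℕ) where
  e : Fin 2 → F
  f : Fin 2 → F
  hee : hermForm 2 F q e e = 0
  hff : hermForm 2 F q f f = 0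
  hef : hermForm 2 F q e f = 1
  span : ∀ u : Fin 2 → F, ∃ a b : F, u = a • e + b • f
  torus : ∀ c : F, c ≠ 0 → ∃ g : GU 2 F q, (g.1 : Matrix (Fin 2) (Fin 2) F) *ᵥ e = c • e ∧
    (g.1 : Matrix (Fin 2) (Fin 2) F) *ᵥ f = (c ^ q)⁻¹ • f ∧
    (g.1 : Matrix (Fin 2) (Fin 2) F).det = c * (c ^ q)⁻¹

variable [Fintype F] (hF : Fintype.card F = q ^ 2)

include hF

theorem nonempty_hypPair : Nonempty (HypPair F q) := by
  classical
  obtain ⟨P, δ, hδ0, hδ, hP⟩ := exists_hypBasis hF
  have hq : q ≠ 0 := by have := two_le_q hF; omega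
  set Pm := (P : Matrix (Fin 2) (Fin 2) F)
  set P' := ((P⁻¹ : GL (Fin 2) F) : Matrix (Fin 2) (Fin 2) F)
  have hPP' : Pm * P' = 1 := by rw [← Units.val_mul, mul_inv_cancel, Units.val_one]
  set l := (δ ^ q)⁻¹ with hl
  have hlq : l ^ q * δ = 1 := by
    rw [hl, inv_pow, pow_q_pow_q hF, inv_mul_cancel₀ hδ0]
  refine ⟨⟨Pm *ᵥ ![1, 0], l • (Pm *ᵥ ![0, 1]), ?_, ?_, ?_, fun u => ?_, fun c hc => ?_⟩⟩
  · rw [hP]; simp [hq]
  · rw [hermForm_smul_left hF, hermForm_smul_right hF, hP]; simp [hq]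
  · rw [hermForm_smul_right hF, hP]
    simp [hq]
    linear_combination hlq
  · obtain ⟨w, rfl⟩ := exists_mulVec_eq P u
    refine ⟨w 0, w 1 * δ ^ q, ?_⟩
    rw [smul_smul, hl, mul_assoc, mul_inv_cancel₀ (pow_ne_zero q hδ0), mul_one, ← Matrix.mulVec_smul,
      ← Matrix.mulVec_smul, ← Matrix.mulVec_add]
    congr 1
    funext i; fin_cases i <;> simp
  · set d : Fin 2 → F := ![c, (c ^ q)⁻¹] with hd
    set M := Pm * Matrix.diagonal d * P' with hM
    have hdet : M.det = c * (c ^ q)⁻¹ := by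
      rw [hM, Matrix.det_units_conj, Matrix.det_diagonal, Fin.prod_univ_two]
      simp [hd]
    have hact : ∀ u, M *ᵥ (Pm *ᵥ u) = Pm *ᵥ (Matrix.diagonal d *ᵥ u) := fun u => conj_mulVec P _ u
    have hpres : ∀ x y, hermForm 2 F q (M *ᵥ x) (M *ᵥ y) = hermForm 2 F q x y := by
      intro x y
      obtain ⟨u, rfl⟩ := exists_mulVec_eq P x
      obtain ⟨z, rfl⟩ := exists_mulVec_eq P y
      rw [hact, hact, hP, hP]
      simp only [Matrix.mulVec_diagonal, hd, Matrix.cons_val_zero, Matrix.cons_val_one, mul_pow, inv_pow,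
        pow_q_pow_q hF]
      field_simp
    refine ⟨⟨Matrix.GeneralLinearGroup.mkOfDetNeZero M ?_, mem_GU_iff.2 hpres⟩, ?_, ?_, hdet⟩
    · rw [hdet]; exact mul_ne_zero hc (inv_ne_zero (pow_ne_zero _ hc))
    · show M *ᵥ _ = _
      rw [hact, ← Matrix.mulVec_smul]
      congr 1
      funext i; fin_cases i <;> simp [Matrix.mulVec_diagonal, hd]
    · show M *ᵥ _ = _
      rw [Matrix.mulVec_smul, hact, smul_comm, ← Matrix.mulVec_smul _ ((c ^ q)⁻¹)]
      congr 2
      funext i; fin_cases i <;> simp [Matrix.mulVec_diagonal, hd]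

omit hF

/-- The conjugate of a root element, as a matrix identity. -/
theorem conj_rootMat (hF : Fintype.card F = q ^ 2) {n : ℕ} (k g : SU n F q) {v x : Fin n → F} {a : F}
    (hg : (g.1 : Matrix (Fin n) (Fin n) F) = rootMat q v x a) :
    ((k * g * k⁻¹).1 : Matrix (Fin n) (Fin n) F) = rootMat q (sv k v) (sv k x) a :=
  Matrix.ext_of_mulVec_single fun i => by
    set u : Fin n → F := Pi.single i 1
    show sv (k * g * k⁻¹) u = _
    have hgu : ∀ y, sv g y = rootMat q v x a *ᵥ y := fun y => by rw [← hg]; rfl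
    have hv : hermForm n F q (sv k⁻¹ u) v = hermForm n F q u (sv k v) := by
      rw [← sv_preserves k (sv k⁻¹ u) v, sv_sv_inv]
    have hx : hermForm n F q (sv k⁻¹ u) x = hermForm n F q u (sv k x) := by
      rw [← sv_preserves k (sv k⁻¹ u) x, sv_sv_inv]
    rw [sv_mul, sv_mul, hgu, rootMat_mulVec, rootMat_mulVec, hv, hx, sv_add, sv_sub, sv_add, sv_sv_inv, sv_smul,
      sv_smul, sv_smul]

namespace HypPair

variable {m : ℕ} (H : HypPair F q)

/-- The isotropic centre. -/
def E (m : ℕ) : Fin (2 + m) → F := Fin.append H.e 0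

/-- The opposite isotropic vector. -/
def Fv (m : ℕ) : Fin (2 + m) → F := Fin.append H.f 0

omit [Fintype F] in
/-- The orthogonal complement of the pair. -/
def inc (x : Fin m → F) : Fin (2 + m) → F := Fin.append 0 x

omit [Fintype F] in
theorem inc_smul (a : F) (x : Fin m → F) : inc (a • x) = a • inc x :=
  funext (Fin.addCases (fun i => by simp [inc]) fun i => by simp [inc])

omit [Fintype F] in
theorem inc_add (x y : Fin m → F) : inc (x + y) = inc x + inc y :=
  funext (Fin.addCases (fun i => by simp [inc]) fun i => by simp [inc])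

omit [Fintype F] in
theorem inc_neg (x : Fin m → F) : inc (-x) = -inc x :=
  funext (Fin.addCases (fun i => by simp [inc]) fun i => by simp [inc])

omit [Fintype F] in
theorem inc_zero : inc (0 : Fin m → F) = 0 :=
  funext (Fin.addCases (fun i => by simp [inc]) fun i => by simp [inc])

/-- The vectors of the pair and the complement span everything. -/
theorem decomp (u : Fin (2 + m) → F) : ∃ (a b : F) (x : Fin m → F), u = a • H.E m + b • H.Fv m + inc x := by
  obtain ⟨a, b, hab⟩ := H.span fun i => u (Fin.castAdd m i)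
  refine ⟨a, b, fun i => u (Fin.natAdd 2 i), funext (Fin.addCases (fun i => ?_) fun i => ?_)⟩
  · have := congrFun hab i
    simpa [E, Fv, inc] using this
  · simp [E, Fv, inc]

section

include hF

theorem hEE : hermForm (2 + m) F q (H.E m) (H.E m) = 0 := by
  rw [E, hermForm_append, H.hee, hermForm_zero_left hF, add_zero]

theorem hEF : hermForm (2 + m) F q (H.E m) (H.Fv m) = 1 := by
  rw [E, Fv, hermForm_append, H.hef, hermForm_zero_left hF, add_zero]

theorem hFE : hermForm (2 + m) F q (H.Fv m) (H.E m) = 1 := by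
  rw [← hermForm_pow_q hF, H.hEF hF, one_pow]

theorem hFF : hermForm (2 + m) F q (H.Fv m) (H.Fv m) = 0 := by
  rw [Fv, hermForm_append, H.hff, hermForm_zero_left hF, add_zero]

theorem hEinc (x : Fin m → F) : hermForm (2 + m) F q (H.E m) (inc x) = 0 := by
  rw [E, inc, hermForm_append, hermForm_zero_right hF, hermForm_zero_left hF, add_zero]

theorem hincE (x : Fin m → F) : hermForm (2 + m) F q (inc x) (H.E m) = 0 :=
  (hermForm_eq_zero_comm hF).1 (H.hEinc hF x)

theorem hFinc (x : Fin m → F) : hermForm (2 + m) F q (H.Fv m) (inc x) = 0 := by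
  rw [Fv, inc, hermForm_append, hermForm_zero_right hF, hermForm_zero_left hF, add_zero]

theorem hincinc (x y : Fin m → F) : hermForm (2 + m) F q (inc x) (inc y) = hermForm m F q x y := by
  rw [inc, inc, hermForm_append, hermForm_zero_left hF, zero_add]

end

/-- Admissible parameters of a root element. -/
def Adm (q : ℕ) {m : ℕ} (x : Fin m → F) (a : F) : Prop := a + a ^ q + hermForm m F q x x = 0

/-- The root element. -/
noncomputable def root (x : Fin m → F) (a : F) (ha : Adm q x a) : SU (2 + m) F q :=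
  suRoot hF (H.E m) (inc x) a (H.hEE hF) (H.hEinc hF x) (by rw [hincinc hF]; exact ha)

include hF

theorem root_val (x : Fin m → F) (a : F) (ha : Adm q x a) :
    ((H.root hF x a ha).1 : Matrix (Fin (2 + m)) (Fin (2 + m)) F) = rootMat q (H.E m) (inc x) a := rfl

theorem sv_root (x : Fin m → F) (a : F) (ha : Adm q x a) (u : Fin (2 + m) → F) :
    sv (H.root hF x a ha) u = u + hermForm (2 + m) F q u (H.E m) • inc x
      - hermForm (2 + m) F q u (inc x) • H.E m + (a * hermForm (2 + m) F q u (H.E m)) • H.E m :=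
  rootMat_mulVec _ _ _ _

theorem sv_root_Fv (x : Fin m → F) (a : F) (ha : Adm q x a) :
    sv (H.root hF x a ha) (H.Fv m) = H.Fv m + inc x + a • H.E m := by
  rw [H.sv_root hF, H.hFE hF, H.hFinc hF, one_smul, zero_smul, sub_zero, mul_one]

theorem exists_ne : ∃ i, H.e i ≠ 0 := by
  by_contra h
  push Not at h
  have h2 := H.hef
  rw [show H.e = 0 from funext h, hermForm_zero_left hF] at h2
  exact zero_ne_one h2

theorem root_inj {x x' : Fin m → F} {a a' : F} {ha : Adm q x a} {ha' : Adm q x' a'}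
    (h : H.root hF x a ha = H.root hF x' a' ha') : x = x' ∧ a = a' := by
  have h1 := congrArg (fun g => sv g (H.Fv m)) h
  simp only [H.sv_root_Fv hF] at h1
  refine ⟨funext fun i => ?_, ?_⟩
  · simpa [Fv, E, inc] using congrFun h1 (Fin.natAdd 2 i)
  · obtain ⟨i, hi⟩ := H.exists_ne hF
    have := congrFun h1 (Fin.castAdd m i)
    simp [Fv, E, inc, hi] at this
    exact this

theorem adm_mul {x y : Fin m → F} {a b : F} (ha : Adm q x a) (hb : Adm q y b) :
    Adm q (x + y) (a + b - hermForm m F q y x) := by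
  unfold Adm at *
  rw [← conjQ_apply hF, map_sub, map_add, conjQ_apply, conjQ_apply, conjQ_apply, hermForm_pow_q hF,
    hermForm_add_left hF, hermForm_add_right hF, hermForm_add_right hF]
  linear_combination ha + hb

theorem root_mul {x y : Fin m → F} {a b : F} (ha : Adm q x a) (hb : Adm q y b) :
    H.root hF x a ha * H.root hF y b hb = H.root hF (x + y) _ (adm_mul hF ha hb) :=
  SU_ext (by
    rw [SU_mul_val, root_val, root_val, root_val, rootMat_mul hF (H.hEE hF) (H.hEinc hF x) (H.hEinc hF y),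
      inc_add, hincinc hF])

theorem root_congr {x y : Fin m → F} {a b : F} {ha : Adm q x a} {hb : Adm q y b} (h : x = y) (h' : a = b) :
    H.root hF x a ha = H.root hF y b hb := by subst h h'; rfl

theorem adm_zero_iff {a : F} : Adm q (0 : Fin m → F) a ↔ a + a ^ q = 0 := by
  rw [Adm, hermForm_zero_left hF, add_zero]

theorem adm_zero : Adm q (0 : Fin m → F) 0 := by
  rw [adm_zero_iff hF, zero_add, zero_pow (by have := two_le_q hF; omega)]

theorem root_one : H.root hF (0 : Fin m → F) 0 (adm_zero hF) = 1 :=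
  sv_ext fun u => by rw [H.sv_root hF, sv_one, inc_zero, hermForm_zero_right hF]; simp

theorem adm_neg {x : Fin m → F} {a : F} (ha : Adm q x a) : Adm q (-x) (a ^ q) := by
  unfold Adm at *
  rw [hermForm_neg_left hF, show hermForm m F q x (-x) = -hermForm m F q x x by
    rw [← neg_one_smul F x, hermForm_smul_right hF, ← conjQ_apply hF, map_neg, map_one]; simp, neg_neg,
    pow_q_pow_q hF]
  linear_combination ha

theorem root_inv {x : Fin m → F} {a : F} (ha : Adm q x a) :
    (H.root hF x a ha)⁻¹ = H.root hF (-x) (a ^ q) (adm_neg hF ha) := by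
  refine inv_eq_of_mul_eq_one_right ?_
  rw [H.root_mul hF, ← H.root_one hF]
  refine H.root_congr hF (add_neg_cancel x) ?_
  rw [hermForm_neg_left hF]
  unfold Adm at ha
  linear_combination ha

/-- Every vector carries root elements. -/
theorem exists_adm (x : Fin m → F) : ∃ a : F, Adm q x a := by
  obtain ⟨a, ha⟩ := exists_trace_eq hF (a := -hermForm m F q x x)
    (by rw [← conjQ_apply hF, map_neg, conjQ_apply, hermForm_pow_q hF])
  exact ⟨a, by unfold Adm; linear_combination ha⟩

/-- The radical. -/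
noncomputable def Q (m : ℕ) : Subgroup (SU (2 + m) F q) where
  carrier := {g | ∃ (x : Fin m → F) (a : F) (ha : Adm q x a), g = H.root hF x a ha}
  one_mem' := ⟨0, 0, adm_zero hF, (H.root_one hF).symm⟩
  mul_mem' := by
    rintro _ _ ⟨x, a, ha, rfl⟩ ⟨y, b, hb, rfl⟩
    exact ⟨_, _, _, H.root_mul hF ha hb⟩
  inv_mem' := by
    rintro _ ⟨x, a, ha, rfl⟩
    exact ⟨_, _, _, H.root_inv hF ha⟩

/-- Its centre. -/
noncomputable def Z (m : ℕ) : Subgroup (SU (2 + m) F q) where
  carrier := {g | ∃ (a : F) (ha : Adm q (0 : Fin m → F) a), g = H.root hF 0 a ha}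
  one_mem' := ⟨0, adm_zero hF, (H.root_one hF).symm⟩
  mul_mem' := by
    rintro _ _ ⟨a, ha, rfl⟩ ⟨b, hb, rfl⟩
    refine ⟨a + b, ?_, (H.root_mul hF ha hb).trans (H.root_congr hF (add_zero _) ?_)⟩
    · have := adm_mul hF ha hb
      rwa [add_zero, hermForm_zero_left hF, sub_zero] at this
    · rw [hermForm_zero_left hF, sub_zero]
  inv_mem' := by
    rintro _ ⟨a, ha, rfl⟩
    exact ⟨a ^ q, by simpa using adm_neg hF ha, (H.root_inv hF ha).trans (H.root_congr hF neg_zero rfl)⟩

theorem mem_Q {g : SU (2 + m) F q} : g ∈ H.Q hF m ↔ ∃ x a ha, g = H.root hF x a ha := Iff.rfl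

theorem mem_Z {g : SU (2 + m) F q} : g ∈ H.Z hF m ↔ ∃ a ha, g = H.root hF (0 : Fin m → F) a ha := Iff.rfl

theorem root_mem (x : Fin m → F) (a : F) (ha : Adm q x a) : H.root hF x a ha ∈ H.Q hF m := ⟨x, a, ha, rfl⟩

theorem Z_le : H.Z hF m ≤ H.Q hF m := by
  rintro _ ⟨a, ha, rfl⟩; exact H.root_mem hF _ _ _

/-- Roots over the same vector differ by the centre. -/
theorem root_div {x : Fin m → F} {a b : F} (ha : Adm q x a) (hb : Adm q x b) :
    (H.root hF x a ha)⁻¹ * H.root hF x b hb ∈ H.Z hF m := by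
  rw [H.root_inv hF, H.root_mul hF]
  refine ⟨a ^ q + b - hermForm m F q x (-x), ?_, H.root_congr hF (neg_add_cancel x) rfl⟩
  have := adm_mul hF (adm_neg hF ha) hb
  rwa [neg_add_cancel] at this

theorem comm_adm {x y : Fin m → F} :
    Adm q (0 : Fin m → F) (hermForm m F q x y - hermForm m F q y x) := by
  rw [adm_zero_iff hF, ← conjQ_apply hF, map_sub, conjQ_apply, conjQ_apply, hermForm_pow_q hF, hermForm_pow_q hF]
  ring

/-- The commutators of root elements. -/
theorem root_comm {x y : Fin m → F} {a b : F} (ha : Adm q x a) (hb : Adm q y b) :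
    ⁅H.root hF x a ha, H.root hF y b hb⁆ =
      H.root hF 0 (hermForm m F q x y - hermForm m F q y x) (comm_adm hF) := by
  rw [commutatorElement_def, H.root_mul hF, H.root_inv hF, H.root_mul hF, H.root_inv hF, H.root_mul hF]
  refine H.root_congr hF (by abel) ?_
  have hn : ∀ u v : Fin m → F, hermForm m F q u (-v) = -hermForm m F q u v := fun u v => by
    rw [← neg_one_smul F v, hermForm_smul_right hF, ← conjQ_apply hF, map_neg, map_one]; simp
  simp only [hermForm_add_right hF, hermForm_neg_left hF, hn, neg_neg]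
  unfold Adm at ha hb
  linear_combination ha + hb

/-- Elements preserving the pair up to scalars. -/
def IsLev (g : SU (2 + m) F q) (c : F) (T : (Fin m → F) → (Fin m → F)) : Prop :=
  sv g (H.E m) = c • H.E m ∧ sv g (H.Fv m) = (c ^ q)⁻¹ • H.Fv m ∧ ∀ x, sv g (inc x) = inc (T x)

theorem IsLev.ext {g g' : SU (2 + m) F q} {c : F} {T : (Fin m → F) → (Fin m → F)} (h : H.IsLev g c T)
    (h' : H.IsLev g' c T) : g = g' := sv_ext fun u => by
  obtain ⟨a, b, x, rfl⟩ := H.decomp u
  rw [sv_add, sv_add, sv_add, sv_add, sv_smul, sv_smul, sv_smul, sv_smul, h.1, h.2.1, h.2.2, h'.1, h'.2.1, h'.2.2]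

theorem IsLev.mul {g g' : SU (2 + m) F q} {c c' : F} {T T' : (Fin m → F) → (Fin m → F)} (h : H.IsLev g c T)
    (h' : H.IsLev g' c' T') : H.IsLev (g * g') (c' * c) (T ∘ T') :=
  ⟨by rw [sv_mul, h'.1, sv_smul, h.1, smul_smul],
    by rw [sv_mul, h'.2.1, sv_smul, h.2.1, smul_smul, mul_pow, mul_inv],
    fun x => by rw [sv_mul, h'.2.2, h.2.2]; rfl⟩

theorem IsLev.commute {g g' : SU (2 + m) F q} {c c' : F} {T T' : (Fin m → F) → (Fin m → F)} (h : H.IsLev g c T)
    (h' : H.IsLev g' c' T') (hTT : ∀ x, T (T' x) = T' (T x)) : Commute g g' := by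
  have h2 := IsLev.mul hF H h' h
  rw [mul_comm c c', show T' ∘ T = T ∘ T' from funext fun x => (hTT x).symm] at h2
  exact IsLev.ext hF H (IsLev.mul hF H h h') h2

theorem IsLev.adm {g : SU (2 + m) F q} {c : F} {T : (Fin m → F) → (Fin m → F)} (h : H.IsLev g c T)
    {x : Fin m → F} {a : F} (ha : Adm q x a) : Adm q (c ^ q • T x) (c ^ (q + 1) * a) := by
  unfold Adm at *
  have := sv_preserves g (inc x) (inc x)
  rw [h.2.2, hincinc hF, hincinc hF] at this
  rw [hermForm_smul_left hF, hermForm_smul_right hF, pow_q_pow_q hF, this, mul_pow, norm_pow_q hF, pow_succ]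
  linear_combination (c ^ q * c) * ha

/-- Conjugating root elements. -/
theorem IsLev.conj {g : SU (2 + m) F q} {c : F} {T : (Fin m → F) → (Fin m → F)} (h : H.IsLev g c T)
    (x : Fin m → F) (a : F) (ha : Adm q x a) :
    g * H.root hF x a ha * g⁻¹ = H.root hF (c ^ q • T x) (c ^ (q + 1) * a) (IsLev.adm hF H h ha) :=
  SU_ext ((conj_rootMat hF g _ (H.root_val hF x a ha)).trans (Matrix.ext_of_mulVec_single fun i => by
    rw [root_val, rootMat_mulVec, rootMat_mulVec, h.1, h.2.2, inc_smul]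
    simp only [hermForm_smul_right hF, pow_q_pow_q hF, pow_succ]
    module))

/-- The torus. -/
theorem exists_lev {c : F} (hc : c ≠ 0) (μ : Fin m → F) (hμ : ∀ i, μ i ^ (q + 1) = 1)
    (hdet : c * (c ^ q)⁻¹ * ∏ i, μ i = 1) :
    ∃ g : SU (2 + m) F q, H.IsLev g c fun x i => μ i * x i := by
  obtain ⟨t, ht1, ht2, ht3⟩ := H.torus c hc
  obtain ⟨g, hg⟩ := exists_of_det hF (g := guBlock 2 m (t, guDiag μ hμ)) (by
    show (glBlock 2 m (t.1, (guDiag μ hμ).1) : Matrix (Fin (2 + m)) (Fin (2 + m)) F).det = 1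
    rw [det_glBlock, ht3]
    show _ * (Matrix.diagonal μ).det = 1
    rw [Matrix.det_diagonal, hdet])
  refine ⟨g, ?_, ?_, fun x => ?_⟩
  · rw [hg, E, guBlock_mulVec, ht1, Matrix.mulVec_zero]
    exact funext (Fin.addCases (fun i => by simp) fun i => by simp)
  · rw [hg, Fv, guBlock_mulVec, ht2, Matrix.mulVec_zero]
    exact funext (Fin.addCases (fun i => by simp) fun i => by simp)
  · rw [hg, inc, guBlock_mulVec, Matrix.mulVec_zero, inc]
    congr 1
    funext i
    exact Matrix.mulVec_diagonal _ _ _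

theorem isLev_blkR (a : SU m F q) : H.IsLev (blkR 2 m a) 1 (sv a) := by
  have hb : ∀ u v, sv (blkR 2 m a) (Fin.append u v) = Fin.append u (sv a v) := fun u v => by
    rw [blkR, MonoidHom.comp_apply, sv_blk]
    simp
  exact ⟨by rw [one_smul, E, hb, sv_zero], by rw [one_pow, inv_one, one_smul, Fv, hb, sv_zero],
    fun x => by rw [inc, hb, inc]⟩

/-- The radical meets the complement trivially. -/
theorem eq_one_of_mem_Q {g : SU (2 + m) F q} (hg : g ∈ H.Q hF m) (hl : g ∈ (blkR (F := F) (q := q) 2 m).range) :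
    g = 1 := by
  obtain ⟨x, a, ha, rfl⟩ := hg
  obtain ⟨l, hl⟩ := hl
  have h := (H.isLev_blkR hF l).2.1
  rw [hl, H.sv_root_Fv hF, one_pow, inv_one, one_smul] at h
  have h0 : H.root hF x a ha = H.root hF 0 0 (adm_zero hF) := by
    have h1 : inc x + a • H.E m = 0 := by rwa [add_assoc, add_eq_left] at h
    refine H.root_congr hF (funext fun i => by simpa [E, inc] using congrFun h1 (Fin.natAdd 2 i)) ?_
    obtain ⟨i, hi⟩ := H.exists_ne hF
    simpa [E, inc, hi] using congrFun h1 (Fin.castAdd m i)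
  rw [h0, H.root_one hF]

/-- The order of the radical. -/
theorem card_Q : Nat.card (H.Q hF m) = q ^ (2 * m + 1) := by
  classical
  choose a₀ ha₀ using fun x : Fin m → F => exists_adm hF x
  have key : ∀ (x : Fin m → F) (z : {z : F // z + z ^ q = 0}), Adm q x (a₀ x + z.1) := fun x z => by
    have := ha₀ x
    unfold Adm at *
    rw [add_pow_q hF]
    linear_combination this + z.2
  rw [← Nat.card_congr (Equiv.ofBijective
    (fun p : (Fin m → F) × {z : F // z + z ^ q = 0} => (⟨_, H.root_mem hF p.1 _ (key p.1 p.2)⟩ : H.Q hF m))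
    ⟨?_, ?_⟩), Nat.card_prod, card_trace_zero hF, Nat.card_eq_fintype_card, Fintype.card_fun, hF, Fintype.card_fin]
  · ring
  · rintro ⟨x, z⟩ ⟨y, w⟩ h
    obtain ⟨rfl, h2⟩ := H.root_inj hF (ha := key x z) (ha' := key y w) (congrArg Subtype.val h)
    exact Prod.ext rfl (Subtype.ext (add_left_cancel h2))
  · rintro ⟨_, x, a, ha, rfl⟩
    have hz : a - a₀ x + (a - a₀ x) ^ q = 0 := by
      have := ha₀ x
      unfold Adm at *
      rw [← conjQ_apply hF, map_sub, conjQ_apply, conjQ_apply]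
      linear_combination ha - this
    exact ⟨(x, ⟨a - a₀ x, hz⟩),
      Subtype.ext (H.root_congr hF (ha := key x ⟨_, hz⟩) (hb := ha) rfl (by simp))⟩

/-- The radical is generated by the coordinate lines. -/
theorem Q_le_of_lines {K : Subgroup (SU (2 + m) F q)} (hm : 1 ≤ m)
    (hK : ∀ i s, ∃ a ha, H.root hF (Pi.single i s) a ha ∈ K) : H.Q hF m ≤ K := by
  classical
  have hZ : H.Z hF m ≤ K := by
    rintro _ ⟨a, ha, rfl⟩
    obtain ⟨s, hs⟩ := exists_sub_eq hF ((adm_zero_iff hF).1 ha)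
    set i : Fin m := ⟨0, hm⟩
    obtain ⟨a₁, h₁, k₁⟩ := hK i s
    obtain ⟨a₂, h₂, k₂⟩ := hK i 1
    have h4 := K.mul_mem (K.mul_mem (K.mul_mem k₂ k₁) (K.inv_mem k₂)) (K.inv_mem k₁)
    rw [← commutatorElement_def, H.root_comm hF] at h4
    refine (H.root_congr hF rfl ?_) ▸ h4
    rw [hermForm_single_left, hermForm_single_left, Pi.single_eq_same, Pi.single_eq_same, one_pow, mul_one, one_mul]
    linear_combination hs
  rintro _ ⟨x, a, ha, rfl⟩
  suffices h : ∀ x : Fin m → F, ∃ a ha, H.root hF x a ha ∈ K by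
    obtain ⟨b, hb, hk⟩ := h x
    simpa using K.mul_mem hk (hZ (H.root_div hF hb ha))
  intro x
  rw [← Finset.univ_sum_single x]
  refine Finset.sum_induction _ (fun y => ∃ a ha, H.root hF y a ha ∈ K) ?_ ?_ fun i _ => hK i _
  · rintro y z ⟨a, ha, h⟩ ⟨b, hb, h'⟩
    exact ⟨_, _, (H.root_mul hF ha hb) ▸ K.mul_mem h h'⟩
  · exact ⟨0, adm_zero hF, (H.root_one hF).symm ▸ K.one_mem⟩

end HypPair

end Cfsg.Agent.H46.SUMult
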