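import Cfsg.Agent.H46.SUMult.Reduce
import Cfsg.Agent.H3.SUTwo
import Cfsg.Agent.H64.SL2Multiplier

/-!
# The primes away from the characteristic for `SU 2`
-/

set_option autoImplicit false

namespace Cfsg.Agent.H46.SUMult

open Matrix Cfsg Cfsg.Agent.H3
open Cfsg.Agent.H82.Orth (dpre)

universe u

theorem kill_sl2 {K : Type u} [Field K] [Finite K] (p : ℕ) [Fact p.Prime] [CharP K p] {r : ℕ} [Fact r.Prime]
    (hrp : r ≠ p) : Kill r (Matrix.SpecialLinearGroup (Fin 2) K) := by
  intro Γ _ _ σ hs hc S hS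
  by_cases hr2 : r = 2
  · subst hr2
    rcases Cfsg.Agent.H64.SL2.two_subgroup_structure p (Ne.symm hrp) S hS with
      hcy | ⟨a, g, m, ha, hg, hall, hconj, hg2, hord⟩
    · exact good_of_isCyclic hs hc S
    · have hmap : (S.comap σ).map σ = S := Subgroup.map_comap_eq_self_of_surjective hs S
      exact Cfsg.Agent.H64.ker_inf_commutator_eq_bot_of_quaternion hc (S.comap σ) (by rwa [hmap]) (by rwa [hmap])
        (by rwa [hmap]) hconj hg2 hord
  · haveI := Cfsg.Agent.H64.SL2.isCyclic_of_isPGroup p hr2 hrp S hS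
    exact good_of_isCyclic hs hc S

variable {F : Type u} [Field F] [Fintype F] {q : ℕ}

theorem kill_two (hF : Fintype.card F = q ^ 2) {p : ℕ} [Fact p.Prime] [CharP F p] {r : ℕ} [Fact r.Prime]
    (hrp : r ≠ p) : Kill r (SU 2 F q) := by
  classical
  haveI : Fintype ↥(RingHom.eqLocusField (conjQ hF) (RingHom.id F)) := Fintype.ofFinite _
  have hK : Fintype.card ↥(RingHom.eqLocusField (conjQ hF) (RingHom.id F)) = q := by
    rw [← Nat.card_eq_fintype_card]
    exact (Nat.card_congr (Equiv.subtypeEquivRight fun x => Iff.rfl)).trans (card_fixed hF)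
  obtain ⟨e⟩ := su_two_equiv hF hK
  haveI : CharP ↥(RingHom.eqLocusField (conjQ hF) (RingHom.id F)) p :=
    RingHom.charP (RingHom.eqLocusField (conjQ hF) (RingHom.id F)).subtype Subtype.val_injective p
  exact (kill_sl2 p hrp).congr e.symm

end Cfsg.Agent.H46.SUMult
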