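import Cfsg.Agent.H46.SUMult.Mono
import Cfsg.Agent.H46.SUMult.Two
import Cfsg.Agent.H46.SUMult.Cyclic

/-!
# The primes away from the characteristic for `SU 3`
-/

set_option autoImplicit false

open scoped commutatorElement Pointwise

namespace Cfsg.Agent.H46.SUMult

open Matrix Cfsg Cfsg.Agent.H3
open Cfsg.Agent.H82.Orth (dpre dpre_mono exists_mem_dpre conj_mem_dpre)
open Cfsg.Agent.H82.Chev (commute_congr commute_commutator_of_map)

universe u

variable {F : Type u} [Field F] [Fintype F] {q : ℕ} (hF : Fintype.card F = q ^ 2)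

include hF

/-- The monomial `3`-subgroup: abelian-by-cyclic, inside the derived group, good in every central extension. -/
theorem exists_three {N : ℕ} (hN : N ∣ q + 1) (hodd : Odd N) :
    ∃ K : Subgroup (SU 3 F q), Nat.card K = 3 * (N * N) ∧ K ≤ commutator (SU 3 F q) ∧
      ∀ (Γ : Type u) [Group Γ] (σ : Γ →* SU 3 F q), Function.Surjective σ → σ.ker ≤ Subgroup.center Γ →
        Good σ K := by
  classical
  obtain ⟨ζ, hζo, hζn⟩ := exists_order hF hN
  have hpn : ∀ t ∈ Subgroup.zpowers ζ, (t : F) ^ (q + 1) = 1 := by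
    intro t ht
    obtain ⟨i, rfl⟩ := mem_powers_iff_mem_zpowers.2 ht
    simp only
    rw [Units.val_pow_eq_pow_val, ← pow_mul, mul_comm, pow_mul, hζn, one_pow]
  have hex : ∀ t u : Subgroup.zpowers ζ, ∃ g : SU 3 F q, ∀ x,
      sv g x = ![(t.1 : F) * x 0, (t.1⁻¹ * u.1 : Fˣ) * x 1, (u.1⁻¹ : Fˣ) * x 2] := by
    intro t u
    obtain ⟨g, hg⟩ := exists_diag hF ![(t.1 : F), ((t.1⁻¹ * u.1 : Fˣ) : F), ((u.1⁻¹ : Fˣ) : F)]
      (fun i => by
        fin_cases i
        · exact hpn _ t.2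
        · exact hpn _ (mul_mem (inv_mem t.2) u.2)
        · exact hpn _ (inv_mem u.2))
      (by
        rw [Fin.prod_univ_three]
        simp)
    refine ⟨g, fun x => funext fun i => ?_⟩
    rw [hg]
    fin_cases i <;> rfl
  choose ψf hψf using hex
  have hψmul : ∀ t u t' u', ψf (t * t') (u * u') = ψf t u * ψf t' u' := by
    intro t u t' u'
    refine sv_ext fun x => ?_
    rw [sv_mul, hψf, hψf, hψf]
    funext i
    fin_cases i <;> simp <;> ring
  let ψ : Subgroup.zpowers ζ × Subgroup.zpowers ζ →* SU 3 F q :=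
    MonoidHom.mk' (fun p => ψf p.1 p.2) fun p p' => hψmul _ _ _ _
  have hψ : ∀ p x, sv (ψ p) x = ![(p.1.1 : F) * x 0, (p.1.1⁻¹ * p.2.1 : Fˣ) * x 1, (p.2.1⁻¹ : Fˣ) * x 2] :=
    fun p => hψf _ _
  have hψinj : Function.Injective ψ := by
    intro p p' h
    have h0 := congrFun ((hψ p (Pi.single 0 1)).symm.trans ((congrArg (fun g => sv g _) h).trans (hψ p' _))) 0
    have h2 := congrFun ((hψ p (Pi.single 2 1)).symm.trans ((congrArg (fun g => sv g _) h).trans (hψ p' _))) 2
    simp at h0 h2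
    exact Prod.ext (Subtype.ext (Units.ext h0)) (Subtype.ext (Units.ext h2))
  set D := ψ.range with hD
  have hDcard : Nat.card D = N * N := by
    rw [hD, ← Nat.card_congr (MonoidHom.ofInjective hψinj).toEquiv, Nat.card_prod, Nat.card_zpowers, hζo]
  have hneg := neg_one_pow_succ hF
  obtain ⟨s, hs⟩ := exists_monomial hF (Equiv.swap (0 : Fin 3) 1) (fun _ => (-1 : F)) (fun _ => hneg)
    (by simp; ring)
  obtain ⟨s', hs'⟩ := exists_monomial hF (Equiv.swap (1 : Fin 3) 2) (fun _ => (-1 : F)) (fun _ => hneg)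
    (by simp; ring)
  have hs0 : ∀ x : Fin 3 → F, sv s x = ![-x 1, -x 0, -x 2] := fun x => by
    funext i; rw [hs]; fin_cases i <;> simp [Equiv.swap_apply_def]
  have hs1 : ∀ x : Fin 3 → F, sv s' x = ![-x 0, -x 2, -x 1] := fun x => by
    funext i; rw [hs']; fin_cases i <;> simp [Equiv.swap_apply_def]
  have hsi : s⁻¹ = s := inv_eq_of_mul_eq_one_right (sv_ext fun x => by
    rw [sv_mul, hs0, hs0, sv_one]; funext i; fin_cases i <;> simp)
  have hsi' : s'⁻¹ = s' := inv_eq_of_mul_eq_one_right (sv_ext fun x => by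
    rw [sv_mul, hs1, hs1, sv_one]; funext i; fin_cases i <;> simp)
  set w := ⁅s, s'⁆ with hwdef
  have hw : ∀ x : Fin 3 → F, sv w x = ![x 1, x 2, x 0] := fun x => by
    rw [hwdef, commutatorElement_def, hsi, hsi', sv_mul, sv_mul, sv_mul, hs1, hs0, hs1, hs0]
    funext i; fin_cases i <;> simp
  have hw3 : w ^ 3 = 1 := sv_ext fun x => by
    rw [pow_succ, pow_succ, pow_one, sv_mul, sv_mul, hw, hw, hw, sv_one]
    funext i; fin_cases i <;> simp
  have hwD : w ∉ D := by
    rintro ⟨p, hp⟩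
    have := congrFun ((hψ p (Pi.single 1 1)).symm.trans ((congrArg (fun g => sv g _) hp).trans (hw _))) 0
    simp at this
  have hwo : orderOf w = 3 := orderOf_eq_prime hw3 fun h => hwD (h ▸ one_mem D)
  have hconj : ∀ p, w * ψ p * w⁻¹ = ψ (p.1⁻¹ * p.2, p.1⁻¹) := fun p => by
    rw [mul_inv_eq_iff_eq_mul]
    refine sv_ext fun x => ?_
    rw [sv_mul, sv_mul, hψ, hψ, hw, hw]
    funext i; fin_cases i <;> simp
  have hsa : ∀ t : Subgroup.zpowers ζ, s * ψ (t, 1) * s⁻¹ = ψ (t⁻¹, 1) := fun t => by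
    rw [mul_inv_eq_iff_eq_mul]
    refine sv_ext fun x => ?_
    rw [sv_mul, sv_mul, hψ, hψ, hs0, hs0]
    funext i; fin_cases i <;> simp
  have hsb : ∀ t : Subgroup.zpowers ζ, s * ψ (1, t) * s⁻¹ = ψ (t, t) := fun t => by
    rw [mul_inv_eq_iff_eq_mul]
    refine sv_ext fun x => ?_
    rw [sv_mul, sv_mul, hψ, hψ, hs0, hs0]
    funext i; fin_cases i <;> simp
  have hsb' : ∀ t : Subgroup.zpowers ζ, s' * ψ (1, t) * s'⁻¹ = ψ (1, t⁻¹) := fun t => by
    rw [mul_inv_eq_iff_eq_mul]
    refine sv_ext fun x => ?_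
    rw [sv_mul, sv_mul, hψ, hψ, hs1, hs1]
    funext i; fin_cases i <;> simp
  have hnormD : Subgroup.zpowers w ≤ Subgroup.normalizer (D : Set (SU 3 F q)) := by
    rw [Subgroup.zpowers_le, Subgroup.mem_normalizer_iff]
    have key : ∀ x ∈ D, w * x * w⁻¹ ∈ D := by
      rintro _ ⟨p, rfl⟩
      exact ⟨_, (hconj p).symm⟩
    refine fun x => ⟨key x, fun hx => ?_⟩
    have h3 : w * w * w = 1 := by simpa [pow_succ] using hw3
    have := key _ (key _ hx)
    rwa [show w * (w * (w * x * w⁻¹) * w⁻¹) * w⁻¹ = (w * w * w) * x * (w * w * w)⁻¹ by group, h3, one_mul, inv_one,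
      mul_one] at this
  set K := D ⊔ Subgroup.zpowers w with hK
  have hKset : (K : Set (SU 3 F q)) = (D : Set (SU 3 F q)) * (Subgroup.zpowers w : Set (SU 3 F q)) :=
    Subgroup.coe_mul_of_right_le_normalizer_left _ _ hnormD
  refine ⟨K, ?_, ?_, ?_⟩
  · refine Eq.trans ?_ (show Nat.card (D × Subgroup.zpowers w) = 3 * (N * N) by
      rw [Nat.card_prod, hDcard, Nat.card_zpowers, hwo, mul_comm])
    refine (Nat.card_congr (Equiv.ofBijective (fun p : D × Subgroup.zpowers w => (⟨p.1.1 * p.2.1,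
      mul_mem (le_sup_left (a := D) p.1.2) (le_sup_right (a := D) p.2.2)⟩ : K)) ⟨?_, ?_⟩)).symm
    · rintro ⟨⟨x, hx⟩, ⟨t, ht⟩⟩ ⟨⟨y, hy⟩, ⟨u, hu⟩⟩ e
      have e' : x * t = y * u := congrArg Subtype.val e
      have h1 : y⁻¹ * x = u * t⁻¹ := by
        rw [eq_mul_inv_iff_mul_eq, mul_assoc, e', inv_mul_cancel_left]
      have hdis : Disjoint (Subgroup.zpowers w) D := by
        rw [Subgroup.disjoint_def]
        intro z hz hzD
        by_contra hne
        haveI : Fact (Nat.Prime 3) := ⟨Nat.prime_three⟩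
        have := zpowers_eq_top_of_prime_card (G := Subgroup.zpowers w) (p := 3) (by rw [Nat.card_zpowers, hwo])
          (g := ⟨z, hz⟩) (fun h => hne (congrArg Subtype.val h))
        obtain ⟨i, hi⟩ := (this ▸ Subgroup.mem_top (⟨w, Subgroup.mem_zpowers w⟩ : Subgroup.zpowers w) :
          (⟨w, Subgroup.mem_zpowers w⟩ : Subgroup.zpowers w) ∈ Subgroup.zpowers ⟨z, hz⟩)
        have hi' : z ^ i = w := by simpa using congrArg Subtype.val hi
        exact hwD (hi' ▸ zpow_mem hzD i)
      have h2 : y⁻¹ * x = 1 :=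
        Subgroup.disjoint_def.1 hdis (h1 ▸ mul_mem hu (inv_mem ht)) (mul_mem (inv_mem hy) hx)
      obtain rfl : y = x := inv_mul_eq_one.1 h2
      obtain rfl : t = u := mul_left_cancel e'
      rfl
    · intro k
      have hk : k.1 ∈ (K : Set (SU 3 F q)) := k.2
      rw [hKset] at hk
      obtain ⟨x, hx, t, ht, e⟩ := hk
      exact ⟨(⟨x, hx⟩, ⟨t, ht⟩), Subtype.ext e⟩
  · obtain ⟨j, hj⟩ := hodd
    have hhalf : ∀ t : Subgroup.zpowers ζ, (t ^ (j + 1)) ^ 2 = t := fun t => by
      rw [← pow_mul, show (j + 1) * 2 = N + 1 by omega, pow_succ]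
      have : t ^ N = 1 := by rw [← hζo, ← Nat.card_zpowers]; exact pow_card_eq_one'
      rw [this, one_mul]
    refine sup_le ?_ (Subgroup.zpowers_le.2 (Subgroup.commutator_mem_commutator (Subgroup.mem_top _) (Subgroup.mem_top _)))
    rintro _ ⟨⟨t, u⟩, rfl⟩
    rw [show ((t, u) : Subgroup.zpowers ζ × Subgroup.zpowers ζ) = (t, 1) * (1, u) by simp, map_mul]
    refine mul_mem ?_ ?_
    · have h := Subgroup.commutator_mem_commutator (Subgroup.mem_top s) (Subgroup.mem_top (ψ ((t ^ (j + 1))⁻¹, 1)))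
      rw [commutatorElement_def, hsa, ← map_inv, ← map_mul] at h
      simpa [← sq, hhalf, commutator_def] using h
    · have h := Subgroup.commutator_mem_commutator (Subgroup.mem_top s') (Subgroup.mem_top (ψ (1, (u ^ (j + 1))⁻¹)))
      rw [commutatorElement_def, hsb', ← map_inv, ← map_mul] at h
      simpa [← sq, hhalf, commutator_def] using h
  · intro Γ _ σ hs hc
    set z : Subgroup.zpowers ζ := ⟨ζ, Subgroup.mem_zpowers ζ⟩ with hz
    obtain ⟨A, hA⟩ := hs (ψ (z, 1))
    obtain ⟨B, hB⟩ := hs (ψ (1, z))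
    obtain ⟨S, hS⟩ := hs s
    obtain ⟨S', hS'⟩ := hs s'
    set W := ⁅S, S'⁆ with hWdef
    have hW : σ W = w := by rw [hWdef, map_commutatorElement, hS, hS']
    -- the two generators of the diagonal lift commute
    have hzN : z ^ N = 1 := by rw [← hζo, ← Nat.card_zpowers]; exact pow_card_eq_one'
    have hAB : Commute A B := by
      set Z := ⁅A, B⁆ with hZ
      have hZk : Z ∈ σ.ker := by
        rw [MonoidHom.mem_ker, hZ, map_commutatorElement, hA, hB, commutatorElement_eq_one_iff_commute]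
        exact (Commute.all _ _).map ψ
      have hZc : ∀ x : Γ, Commute Z x := fun x => (Subgroup.mem_center_iff.1 (hc hZk) x).symm
      have h1 : S * Z * S⁻¹ = Z := by rw [← (hZc S).eq, mul_inv_cancel_right]
      have h2 : ⁅A⁻¹, A * B⁆ = Z := by
        rw [← h1, show S * Z * S⁻¹ = ⁅S * A * S⁻¹, S * B * S⁻¹⁆ by rw [hZ]; simp only [commutatorElement_def]; group]
        refine Cfsg.Agent.H82.Chev.commutator_congr hc ?_ ?_
        · simp only [map_inv, map_mul, hA, hS, hsa]
          rw [← map_inv]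
          simp
        · simp only [map_inv, map_mul, hA, hB, hS, hsb]
          rw [← map_mul]
          simp
      have h3 : Z * Z = 1 := by
        have : ⁅A⁻¹, A * B⁆ = Z⁻¹ := by
          rw [hZ, commutatorElement_inv, commutatorElement_def, commutatorElement_def]
          group
        rw [← mul_inv_cancel Z]
        congr 1
        exact h2.symm.trans this
      have h4 : Z ^ N = 1 := by
        have hAN : σ (A ^ N) = 1 := by rw [map_pow, hA, ← map_pow, Prod.pow_mk, hzN, one_pow]; exact map_one ψ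
        have hcom : Commute B (A ^ N) := Subgroup.mem_center_iff.1 (hc hAN) B
        have e : B * A * B⁻¹ = Z⁻¹ * A := by
          rw [hZ, commutatorElement_def]; group
        have := congrArg (· ^ N) e
        simp only [conj_pow, ((hZc A).inv_left).mul_pow] at this
        rw [hcom.eq, mul_inv_cancel_right, inv_pow, right_eq_mul, inv_eq_one] at this
        exact this
      obtain ⟨j, hj⟩ := hodd
      rw [hj, pow_add, pow_one, pow_mul, sq, h3, one_pow, one_mul] at h4
      exact commutatorElement_eq_one_iff_commute.1 h4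
    -- every element over `D` is a product of these
    have hgen : ∀ x : Γ, σ x ∈ D → ∃ i j : ℕ, σ x = σ (A ^ i * B ^ j) := by
      rintro x ⟨⟨⟨t, ht⟩, ⟨u, hu⟩⟩, hp⟩
      obtain ⟨i, hi⟩ := mem_powers_iff_mem_zpowers.2 ht
      obtain ⟨j, hj⟩ := mem_powers_iff_mem_zpowers.2 hu
      refine ⟨i, j, hp ▸ ?_⟩
      rw [map_mul, map_pow, map_pow, hA, hB, ← map_pow, ← map_pow, ← map_mul]
      congr 1
      exact Prod.ext (Subtype.ext (by simpa [hz] using hi.symm)) (Subtype.ext (by simpa [hz] using hj.symm))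
    have habel : ∀ x y : Γ, σ x ∈ D → σ y ∈ D → Commute x y := by
      intro x y hx hy
      obtain ⟨i, j, e⟩ := hgen x hx
      obtain ⟨k, l, e'⟩ := hgen y hy
      refine commute_congr hc e.symm e'.symm ?_
      exact Commute.mul_left
        (Commute.mul_right ((Commute.refl A).pow_pow i k) (hAB.pow_pow i l))
        (Commute.mul_right (hAB.symm.pow_pow j k) ((Commute.refl B).pow_pow j l))
    have hθ : ∀ (k : ℕ) (x : Γ), σ x ∈ D → σ (W ^ k * x * (W ^ k)⁻¹) ∈ D := by
      intro k x hx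
      rw [map_mul, map_mul, map_inv, map_pow, hW]
      exact (Subgroup.mem_normalizer_iff.1 (hnormD (pow_mem (Subgroup.mem_zpowers w) k)) _).1 hx
    have hcommD : ∀ (k : ℕ) (x : Γ), σ x ∈ D → σ ⁅x, W ^ k⁆ ∈ D := by
      intro k x hx
      rw [commutatorElement_def, show x * W ^ k * x⁻¹ * (W ^ k)⁻¹ = x * (W ^ k * x⁻¹ * (W ^ k)⁻¹) by group, map_mul]
      exact mul_mem hx (hθ k _ (by rw [map_inv]; exact inv_mem hx))
    have hmul : ∀ x y : Γ, σ x ∈ D → σ y ∈ D → ⁅x * y, W⁆ = ⁅x, W⁆ * ⁅y, W⁆ := by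
      intro x y hx hy
      have hy' : σ ⁅y, W⁆ ∈ D := by simpa using hcommD 1 y hy
      have hx' : σ ⁅x, W⁆ ∈ D := by simpa using hcommD 1 x hx
      rw [show ⁅x * y, W⁆ = x * ⁅y, W⁆ * x⁻¹ * ⁅x, W⁆ by simp only [commutatorElement_def]; group,
        (habel x _ hx hy').eq, mul_inv_cancel_right, (habel _ _ hy' hx').eq]
    let X : Subgroup Γ :=
      { carrier := {y | ∃ x, σ x ∈ D ∧ y = ⁅x, W⁆}
        one_mem' := ⟨1, by rw [map_one]; exact one_mem _, (commutatorElement_one_left _).symm⟩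
        mul_mem' := by
          rintro _ _ ⟨x, hx, rfl⟩ ⟨y, hy, rfl⟩
          exact ⟨x * y, by rw [map_mul]; exact mul_mem hx hy, (hmul x y hx hy).symm⟩
        inv_mem' := by
          rintro _ ⟨x, hx, rfl⟩
          refine ⟨x⁻¹, by rw [map_inv]; exact inv_mem hx, inv_eq_of_mul_eq_one_right ?_⟩
          rw [← hmul x x⁻¹ hx (by rw [map_inv]; exact inv_mem hx), mul_inv_cancel, commutatorElement_one_left] }
    have hXk : ∀ (k : ℕ) (x : Γ), σ x ∈ D → ⁅x, W ^ k⁆ ∈ X := by
      intro k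
      induction k with
      | zero => intro x _; rw [pow_zero, commutatorElement_one_right]; exact one_mem _
      | succ k ih =>
        intro x hx
        rw [show ⁅x, W ^ (k + 1)⁆ = ⁅x, W⁆ * ⁅W * x * W⁻¹, W ^ k⁆ by
          simp only [commutatorElement_def, pow_succ']; group]
        exact mul_mem ⟨x, hx, rfl⟩ (ih _ (by simpa using hθ 1 x hx))
    have hle : dpre σ K ≤ X := by
      refine Subgroup.commutator_le.2 fun g hg g' hg' => ?_
      have hsplit : ∀ g : Γ, σ g ∈ K → ∃ x, σ x ∈ D ∧ ∃ k : ℕ, g = x * W ^ k := by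
        intro g hg
        have hg1 : σ g ∈ (K : Set (SU 3 F q)) := hg
        rw [hKset] at hg1
        obtain ⟨d, hd, t, ht, e⟩ := hg1
        obtain ⟨k, rfl⟩ := mem_powers_iff_mem_zpowers.2 ht
        refine ⟨g * (W ^ k)⁻¹, ?_, k, by rw [inv_mul_cancel_right]⟩
        simp only at e
        rw [map_mul, map_inv, map_pow, hW, ← e, mul_inv_cancel_right]
        exact hd
      obtain ⟨x, hx, i, rfl⟩ := hsplit g hg
      obtain ⟨y, hy, k, rfl⟩ := hsplit g' hg'
      have e : ⁅x * W ^ i, y * W ^ k⁆ = x * (W ^ i * y * (W ^ i)⁻¹) * (W ^ k * x⁻¹ * (W ^ k)⁻¹) * y⁻¹ := by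
        simp only [commutatorElement_def]
        have : W ^ i * W ^ k * (W ^ i)⁻¹ = W ^ k := by
          rw [((Commute.refl W).pow_pow i k).eq, mul_inv_cancel_right]
        calc x * W ^ i * (y * W ^ k) * (x * W ^ i)⁻¹ * (y * W ^ k)⁻¹
            = x * (W ^ i * y * (W ^ i)⁻¹) * ((W ^ i * W ^ k * (W ^ i)⁻¹) * x⁻¹ * (W ^ k)⁻¹) * y⁻¹ := by group
          _ = _ := by rw [this]
      have hxi : σ (W ^ k * x⁻¹ * (W ^ k)⁻¹) ∈ D := hθ k _ (by rw [map_inv]; exact inv_mem hx)
      rw [e, mul_assoc x, (habel _ _ (hθ i y hy) hxi).eq, ← mul_assoc x, mul_assoc (x * _),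
        show x * (W ^ k * x⁻¹ * (W ^ k)⁻¹) = ⁅x, W ^ k⁆ by simp only [commutatorElement_def]; group,
        show W ^ i * y * (W ^ i)⁻¹ * y⁻¹ = ⁅y, W ^ i⁆⁻¹ by simp only [commutatorElement_def]; group]
      exact mul_mem (hXk k x hx) (inv_mem (hXk i y hy))
    rw [Good, Subgroup.eq_bot_iff_forall]
    rintro _ ⟨hk, hmem⟩
    obtain ⟨x, hx, rfl⟩ := hle hmem
    obtain ⟨⟨t, u⟩, hp⟩ := hx
    have hcw : Commute (σ x) w := by
      rw [← hW, ← commutatorElement_eq_one_iff_commute, ← map_commutatorElement]; exact hk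
    rw [← hp] at hcw
    have hfix : ψ (t⁻¹ * u, t⁻¹) = ψ (t, u) := (hconj (t, u)).symm.trans (by rw [← hcw.eq, mul_inv_cancel_right])
    have := hψinj hfix
    simp only [Prod.mk.injEq] at this
    obtain ⟨h1, rfl⟩ := this
    have hscal : ∀ v : Fin 3 → F, sv (ψ (t, t⁻¹)) v = (t.1 : F) • v := fun v => by
      rw [hψ]
      have h1' : (t.1⁻¹ * t.1⁻¹ : Fˣ) = t.1 := congrArg Subtype.val h1
      funext i
      fin_cases i
      · simp
      · show ((t.1⁻¹ * (t⁻¹).1 : Fˣ) : F) * v 1 = _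
        rw [Subgroup.coe_inv, h1']; rfl
      · simp
    have hcen : ∀ g : SU 3 F q, Commute (σ x) g := fun g => hp ▸ sv_ext fun v => by
      rw [sv_mul, sv_mul, hscal, hscal, sv_smul]
    exact commutatorElement_eq_one_iff_commute.2 (commute_commutator_of_map hc (hcen _) (hcen _))

/-- All primes away from the characteristic for `SU 3`. -/
theorem kill_three {p : ℕ} [Fact p.Prime] [CharP F p] {r : ℕ} [Fact r.Prime] (hrp : r ≠ p) :
    Kill r (SU 3 F q) := by
  have hr : r.Prime := Fact.out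
  have hp : p.Prime := Fact.out
  have h2 := two_le_q hF
  obtain ⟨p', k, hp', hc', -, hqk⟩ := exists_q_eq_pow hF
  obtain rfl : p = p' := CharP.eq F ‹CharP F p› hc'
  have hrq : ¬ r ∣ q := fun h => hrp ((Nat.prime_dvd_prime_iff_eq hr hp).1 (hr.dvd_of_dvd_pow (hqk ▸ h)))
  obtain ⟨a, ha⟩ : ∃ a, q = a + 1 := ⟨q - 1, by omega⟩
  have hx : unitCount q 2 = (q + 1) * (q ^ 2 * (q * a + 1)) := by
    rw [unitCount, if_pos (by decide : Even 2), ha]; ring
  by_cases hd : r ∣ q * a + 1
  · have hcard2 : Nat.card (SU 2 F q) = q * (a * (q + 1)) := by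
      rw [card_SU_succ hF le_rfl, card_SU_one hF, unitCount, if_neg (by decide : ¬ Even 1), ha]
      have : (a + 1) ^ (1 + 1) - 1 = a * (a + 1 + 1) := by
        apply Nat.sub_eq_of_eq_add; ring
      rw [this]; ring
    by_cases hq1 : r ∣ q + 1
    · have h3 : r = 3 := by
        refine (Nat.prime_dvd_prime_iff_eq hr Nat.prime_three).1 ?_
        have h1 : r ∣ (q + 1) * q := hq1.mul_right q
        have h2' : r ∣ (q + 1) * q - (q * a + 1) := Nat.dvd_sub h1 hd
        have h3' : r ∣ 2 * (q + 1) - ((q + 1) * q - (q * a + 1)) := Nat.dvd_sub (hq1.mul_left 2) h2'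
        have : 2 * (q + 1) - ((q + 1) * q - (q * a + 1)) = 3 := by
          subst ha
          have : (a + 1 + 1) * (a + 1) - ((a + 1) * a + 1) = 2 * a + 1 := by
            apply Nat.sub_eq_of_eq_add; ring
          omega
        rwa [this] at h3'
      subst h3
      obtain ⟨e, j, hj, hqe⟩ := Nat.exists_eq_pow_mul_and_not_dvd (n := q + 1) (by omega) 3 (by omega)
      obtain ⟨K, hK, -, hgood⟩ := exists_three hF (N := 3 ^ e) ⟨j, hqe⟩ (Odd.pow (by decide))
      refine kill_of_index K ?_ fun Γ _ _ σ hs hc S hS _ => (hgood Γ σ hs hc).of_le hS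
      obtain ⟨t, ht⟩ : ∃ t, q = 3 * t + 2 := ⟨(q - 2) / 3, by omega⟩
      have hm : q * a + 1 = 3 * (3 * t * t + 3 * t + 1) := by
        have : a = 3 * t + 1 := by omega
        subst this; rw [ht]; ring
      have hG : Nat.card (SU 3 F q) = Nat.card K * (q ^ 3 * a * (3 * t * t + 3 * t + 1) * (j * j)) := by
        rw [card_SU_succ hF (by norm_num : 1 ≤ 2), hcard2, hx, hm, hK, hqe]; ring
      have hidx : K.index = q ^ 3 * a * (3 * t * t + 3 * t + 1) * (j * j) :=
        Nat.eq_of_mul_eq_mul_left (Nat.card_pos (α := K)) (K.card_mul_index.trans hG)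
      rw [hidx, hr.dvd_mul, hr.dvd_mul, hr.dvd_mul]
      rintro (((h | h) | h) | h)
      · exact hrq (hr.dvd_of_dvd_pow h)
      · omega
      · have : 3 * t * t + 3 * t + 1 = 3 * (t * t + t) + 1 := by ring
        omega
      · exact (hr.dvd_mul.1 h).elim hj hj
    · refine kill_top hF (p := p) (by norm_num : 1 ≤ 2) ?_ hrp ?_
      · rintro rfl
        obtain ⟨b, hb⟩ := Nat.even_mul_succ_self a
        have : q * a = a * (a + 1) := by rw [ha]; ring
        omega
      · rw [hcard2, hr.dvd_mul, hr.dvd_mul]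
        rintro (h | h | h)
        · exact hrq h
        · have := Nat.dvd_sub hd (h.mul_left q)
          rw [Nat.add_sub_cancel_left] at this
          exact hr.not_dvd_one this
        · exact hq1 h
  · refine kill_succ hF (by norm_num : 1 ≤ 2) (kill_two hF hrp) (not_dvd_index_SU hF hp hr hrp le_rfl (by omega))
      fun x hx' => ?_
    obtain rfl : q ^ 2 * (q * a + 1) = x := Nat.eq_of_mul_eq_mul_left (Nat.succ_pos q) (hx.symm.trans hx')
    exact fun h => (hr.dvd_mul.1 h).elim (fun h => hrq (hr.dvd_of_dvd_pow h)) hd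

/-- `3` does not divide the index of the derived group of `SU 3 (2)`. -/
theorem three_not_dvd_index (hq : q = 2) : ¬ 3 ∣ (commutator (SU 3 F q)).index := by
  obtain ⟨K, hK, hle, -⟩ := exists_three hF (N := 3) (by subst hq; decide) (by decide)
  intro h
  have h1 : 3 ∣ K.index := h.trans (Subgroup.index_dvd_of_le hle)
  have h2 : Nat.card (SU 3 F q) = 216 := by
    rw [card_SU_succ hF (by norm_num : 1 ≤ 2), card_SU_succ hF le_rfl, card_SU_one hF, hq]
    decide
  have h3 := K.card_mul_index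
  rw [h2, hK] at h3
  omega

end Cfsg.Agent.H46.SUMult
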