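import Cfsg.Agent.H46.SUMult.Root

/-!
# The characteristic part for small special unitary groups
-/

set_option autoImplicit false

open scoped commutatorElement Pointwise

namespace Cfsg.Agent.H46.SUMult

open Matrix Cfsg Cfsg.Agent.H3
open Cfsg.Agent.H82.Orth (dpre dpre_mono dpre_le_comap conj_mem_dpre)
open Cfsg.Agent.H82.Chev (commutator_congr commute_congr)

universe u

namespace HypPair

variable {F : Type u} [Field F] [Fintype F] {q : ℕ} (hF : Fintype.card F = q ^ 2) {m : ℕ} (H : HypPair F q)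
variable {Γ : Type u} [Group Γ] {σ : Γ →* SU (2 + m) F q} (hs : Function.Surjective σ) (hc : σ.ker ≤ Subgroup.center Γ)

/-- Lying over a vector. -/
def Ov (σ : Γ →* SU (2 + m) F q) (u : Γ) (x : Fin m → F) : Prop :=
  ∃ (a : F) (ha : Adm q x a), σ u = H.root hF x a ha

/-- A diagonal torus element. -/
def IsTor (g : SU (2 + m) F q) (c : F) (μ : Fin m → F) : Prop := H.IsLev g c fun x i => μ i * x i

/-- The preimage of the centre of the radical centralises that of the radical. -/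
def ZCentral (σ : Γ →* SU (2 + m) F q) : Prop :=
  ∀ z, σ z ∈ H.Z hF m → ∀ x, σ x ∈ H.Q hF m → Commute z x

omit [Fintype F] in
theorem sub_one_smul_eq (w : F) (x : Fin m → F) : (w - 1) • x = w • x - x := by rw [sub_smul, one_smul]

omit [Fintype F] in
theorem tor_weight {c : F} {μ : Fin m → F} (i : Fin m) (s : F) :
    (c ^ q • fun j => μ j * (Pi.single i s : Fin m → F) j) = Pi.single i (c ^ q * μ i * s) := by
  funext j
  rcases eq_or_ne j i with rfl | hj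
  · simp [mul_assoc]
  · simp [hj]

include hF

theorem IsTor.commute {g g' : SU (2 + m) F q} {c c' : F} {μ μ' : Fin m → F} (h : H.IsTor g c μ)
    (h' : H.IsTor g' c' μ') : Commute g g' :=
  IsLev.commute hF H h h' fun x => funext fun i => mul_left_comm _ _ _

theorem Ov.mem {u : Γ} {x : Fin m → F} (h : H.Ov hF σ u x) : σ u ∈ H.Q hF m := by
  obtain ⟨a, ha, e⟩ := h; exact ⟨x, a, ha, e⟩

theorem ov_of_mem {u : Γ} (h : σ u ∈ H.Q hF m) : ∃ x, H.Ov hF σ u x := by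
  obtain ⟨x, a, ha, e⟩ := h; exact ⟨x, a, ha, e⟩

theorem Ov.mul {u v : Γ} {x y : Fin m → F} (h : H.Ov hF σ u x) (h' : H.Ov hF σ v y) : H.Ov hF σ (u * v) (x + y) := by
  obtain ⟨a, ha, e⟩ := h
  obtain ⟨b, hb, e'⟩ := h'
  exact ⟨_, _, by rw [map_mul, e, e', H.root_mul hF]⟩

theorem Ov.inv {u : Γ} {x : Fin m → F} (h : H.Ov hF σ u x) : H.Ov hF σ u⁻¹ (-x) := by
  obtain ⟨a, ha, e⟩ := h
  exact ⟨_, _, by rw [map_inv, e, H.root_inv hF]⟩

theorem Ov.conj {u g : Γ} {x : Fin m → F} {c : F} {T : (Fin m → F) → (Fin m → F)} (hg : H.IsLev (σ g) c T)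
    (h : H.Ov hF σ u x) : H.Ov hF σ (g * u * g⁻¹) (c ^ q • T x) := by
  obtain ⟨a, ha, e⟩ := h
  exact ⟨_, _, by rw [map_mul, map_mul, map_inv, e, IsLev.conj hF H hg]⟩

theorem Ov.comm_mem {u v : Γ} {x y : Fin m → F} (h : H.Ov hF σ u x) (h' : H.Ov hF σ v y) : σ ⁅u, v⁆ ∈ H.Z hF m := by
  obtain ⟨a, ha, e⟩ := h
  obtain ⟨b, hb, e'⟩ := h'
  rw [map_commutatorElement, e, e', H.root_comm hF]
  exact ⟨_, _, rfl⟩

theorem Ov.div_mem {u v : Γ} {x : Fin m → F} (h : H.Ov hF σ u x) (h' : H.Ov hF σ v x) : σ (u⁻¹ * v) ∈ H.Z hF m := by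
  obtain ⟨a, ha, e⟩ := h
  obtain ⟨b, hb, e'⟩ := h'
  rw [map_mul, map_inv, e, e']
  exact H.root_div hF ha hb

include hs hc

theorem exists_ov (x : Fin m → F) : ∃ u, H.Ov hF σ u x := by
  obtain ⟨a, ha⟩ := exists_adm hF x
  obtain ⟨u, hu⟩ := hs (H.root hF x a ha)
  exact ⟨u, a, ha, hu⟩

/-- Moving torus elements make the centre central upstairs. -/
theorem zcentral_of_move (hm : 1 ≤ m)
    (hmove : ∀ i, ∃ (g : SU (2 + m) F q) (c : F) (μ : Fin m → F), H.IsTor g c μ ∧ c ^ (q + 1) = 1 ∧ c ^ q * μ i ≠ 1) :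
    H.ZCentral hF σ := by
  intro z hz x hx
  have hQ : H.Q hF m ≤ (Subgroup.centralizer {z}).map σ := by
    refine H.Q_le_of_lines hF hm fun i s => ?_
    obtain ⟨g₀, c, μ, hg, hN, hw⟩ := hmove i
    obtain ⟨g, rfl⟩ := hs g₀
    obtain ⟨u, hu⟩ := H.exists_ov hF hs hc (Pi.single i (s / (c ^ q * μ i - 1)))
    have hv : H.Ov hF σ (u⁻¹ * (g * u * g⁻¹)) (Pi.single i s) := by
      have := Ov.mul hF H (Ov.inv hF H hu) (Ov.conj hF H hg hu)
      have e : -(Pi.single i (s / (c ^ q * μ i - 1)) : Fin m → F) + Pi.single i (c ^ q * μ i * (s / (c ^ q * μ i - 1)))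
          = Pi.single i s := by
        rw [← Pi.single_neg, ← Pi.single_add]
        congr 1
        have : c ^ q * μ i - 1 ≠ 0 := sub_ne_zero.2 hw
        field_simp
        ring
      rwa [tor_weight, e] at this
    obtain ⟨a, ha, e⟩ := hv
    refine ⟨a, ha, e ▸ Subgroup.mem_map_of_mem σ (Subgroup.mem_centralizer_singleton_iff.2 ?_)⟩
    -- the commutator with `z` is invariant
    have hzu : σ ⁅z, u⁆ = 1 := by
      obtain ⟨b, hb, ez⟩ := hz
      obtain ⟨d, hd, eu⟩ := hu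
      rw [map_commutatorElement, ez, eu, H.root_comm hF, ← H.root_one hF]
      exact H.root_congr hF rfl (by rw [hermForm_zero_left hF, hermForm_zero_right hF, sub_zero])
    have hgz : σ (g * z * g⁻¹) = σ z := by
      obtain ⟨b, hb, ez⟩ := hz
      rw [map_mul, map_mul, map_inv, ez, IsLev.conj hF H hg]
      exact H.root_congr hF (by simp [funext_iff]) (by rw [hN, one_mul])
    have hinv : ⁅z, g * u * g⁻¹⁆ = ⁅z, u⁆ := by
      rw [← commutator_congr hc hgz (rfl : σ (g * u * g⁻¹) = _),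
        show ⁅g * z * g⁻¹, g * u * g⁻¹⁆ = g * ⁅z, u⁆ * g⁻¹ by simp only [commutatorElement_def]; group,
        Subgroup.mem_center_iff.1 (hc hzu) g, mul_inv_cancel_right]
    generalize g * u * g⁻¹ = v at hinv ⊢
    simp only [commutatorElement_def] at hinv
    have h1 : v * z⁻¹ * v⁻¹ = u * z⁻¹ * u⁻¹ := by
      apply mul_left_cancel (a := z)
      simpa only [mul_assoc] using hinv
    calc u⁻¹ * v * z = u⁻¹ * (v * z⁻¹ * v⁻¹)⁻¹ * v := by group
      _ = u⁻¹ * (u * z⁻¹ * u⁻¹)⁻¹ * v := by rw [h1]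
      _ = z * (u⁻¹ * v) := by group
  obtain ⟨y, hy, e⟩ := hQ hx
  exact commute_congr hc rfl e (Subgroup.mem_centralizer_singleton_iff.1 hy).symm

/-- The commutator pairing. -/
noncomputable def om (x y : Fin m → F) : Γ :=
  ⁅(H.exists_ov hF hs hc x).choose, (H.exists_ov hF hs hc y).choose⁆

variable (hz : H.ZCentral hF σ)

include hz

theorem om_eq {u v : Γ} {x y : Fin m → F} (hu : H.Ov hF σ u x) (hv : H.Ov hF σ v y) :
    ⁅u, v⁆ = H.om hF hs hc x y := by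
  have key : ∀ {u u' v : Γ} {x : Fin m → F}, H.Ov hF σ u x → H.Ov hF σ u' x → σ v ∈ H.Q hF m → ⁅u, v⁆ = ⁅u', v⁆ := by
    intro u u' v x h h' hv
    have hw := hz _ (Ov.div_mem hF H h' h) v hv
    rw [show u = u' * (u'⁻¹ * u) by group, show ⁅u' * (u'⁻¹ * u), v⁆ = u' * ⁅u'⁻¹ * u, v⁆ * u'⁻¹ * ⁅u', v⁆ by
      simp only [commutatorElement_def]; group, commutatorElement_eq_one_iff_commute.2 hw, mul_one, mul_inv_cancel,
      one_mul]
  have hx := (H.exists_ov hF hs hc x).choose_spec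
  have hy := (H.exists_ov hF hs hc y).choose_spec
  rw [key hu hx (Ov.mem hF H hv), ← commutatorElement_inv, key hv hy (Ov.mem hF H hx), commutatorElement_inv]
  rfl

theorem om_mem (x y : Fin m → F) : σ (H.om hF hs hc x y) ∈ H.Z hF m :=
  Ov.comm_mem hF H (H.exists_ov hF hs hc x).choose_spec (H.exists_ov hF hs hc y).choose_spec

theorem om_commute (x y x' y' : Fin m → F) : Commute (H.om hF hs hc x y) (H.om hF hs hc x' y') :=
  hz _ (H.om_mem hF hs hc hz x y) _ (H.Z_le hF (H.om_mem hF hs hc hz x' y'))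

theorem om_swap (x y : Fin m → F) : H.om hF hs hc y x = (H.om hF hs hc x y)⁻¹ := by
  rw [om, om, commutatorElement_inv]

theorem om_add_left (x x' y : Fin m → F) :
    H.om hF hs hc (x + x') y = H.om hF hs hc x y * H.om hF hs hc x' y := by
  obtain ⟨u, hu⟩ := H.exists_ov hF hs hc x
  obtain ⟨u', hu'⟩ := H.exists_ov hF hs hc x'
  obtain ⟨v, hv⟩ := H.exists_ov hF hs hc y
  rw [← H.om_eq hF hs hc hz (Ov.mul hF H hu hu') hv, ← H.om_eq hF hs hc hz hu hv, ← H.om_eq hF hs hc hz hu' hv,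
    show ⁅u * u', v⁆ = u * ⁅u', v⁆ * u⁻¹ * ⁅u, v⁆ by simp only [commutatorElement_def]; group,
    ← (hz _ (Ov.comm_mem hF H hu' hv) u (Ov.mem hF H hu)).eq, mul_inv_cancel_right]
  exact (hz _ (Ov.comm_mem hF H hu' hv) _ (H.Z_le hF (Ov.comm_mem hF H hu hv))).eq

theorem om_add_right (x y y' : Fin m → F) :
    H.om hF hs hc x (y + y') = H.om hF hs hc x y * H.om hF hs hc x y' := by
  rw [H.om_swap hF hs hc hz (y + y') x, H.om_add_left hF hs hc hz, _root_.mul_inv_rev, ← H.om_swap hF hs hc hz y' x,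
    ← H.om_swap hF hs hc hz y x]
  exact (H.om_commute hF hs hc hz _ _ _ _).eq

theorem om_zero_left (y : Fin m → F) : H.om hF hs hc 0 y = 1 := by
  have := H.om_add_left hF hs hc hz 0 0 y
  rwa [add_zero, left_eq_mul] at this

theorem om_zero_right (x : Fin m → F) : H.om hF hs hc x 0 = 1 := by
  rw [H.om_swap hF hs hc hz, H.om_zero_left hF hs hc hz, inv_one]

theorem om_conj {g : Γ} {c : F} {T : (Fin m → F) → (Fin m → F)} (hg : H.IsLev (σ g) c T) (x y : Fin m → F) :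
    g * H.om hF hs hc x y * g⁻¹ = H.om hF hs hc (c ^ q • T x) (c ^ q • T y) := by
  rw [← H.om_eq hF hs hc hz (Ov.conj hF H hg (H.exists_ov hF hs hc x).choose_spec)
    (Ov.conj hF H hg (H.exists_ov hF hs hc y).choose_spec), om]
  simp only [commutatorElement_def]
  group

theorem dpre_le_of_singles {R : Subgroup Γ}
    (hR : ∀ i j (s t : F), H.om hF hs hc (Pi.single i s) (Pi.single j t) ∈ R) : dpre σ (H.Q hF m) ≤ R := by
  classical
  have h1 : ∀ x j (t : F), H.om hF hs hc x (Pi.single j t) ∈ R := by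
    intro x j t
    rw [← Finset.univ_sum_single x]
    refine Finset.sum_induction _ (fun z => H.om hF hs hc z (Pi.single j t) ∈ R) ?_ ?_ fun i _ => hR i j _ t
    · intro a b ha hb; rw [H.om_add_left hF hs hc hz]; exact mul_mem ha hb
    · rw [H.om_zero_left hF hs hc hz]; exact one_mem _
  refine Subgroup.commutator_le.2 fun u hu v hv => ?_
  obtain ⟨x, hx⟩ := H.ov_of_mem hF hu
  obtain ⟨y, hy⟩ := H.ov_of_mem hF hv
  rw [H.om_eq hF hs hc hz hx hy, ← Finset.univ_sum_single y]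
  refine Finset.sum_induction _ (fun z => H.om hF hs hc x z ∈ R) ?_ ?_ fun i _ => h1 x i _
  · intro a b ha hb; rw [H.om_add_right hF hs hc hz]; exact mul_mem ha hb
  · rw [H.om_zero_right hF hs hc hz]; exact one_mem _

/-- The main step: the radical together with a good subgroup of the complement is good. -/
theorem good_sup (hm : 1 ≤ m) (hR : ∀ r ∈ dpre σ (H.Q hF m), σ r = 1 → r = 1) {t : Γ} {ct w : F}
    {T : (Fin m → F) → (Fin m → F)} (ht : H.IsLev (σ t) ct T) (hw : w ≠ 1) (hwt : ∀ x, ct ^ q • T x = w • x)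
    (hTL : ∀ (a : SU m F q) x, T (sv a x) = sv a (T x))
    (hTA : ∀ z, σ z ∈ H.Z hF m → ∀ r ∈ dpre σ (H.Q hF m), σ (⁅t, z⁆ * r) = 1 → ⁅t, z⁆ * r = 1)
    {S : Subgroup (SU (2 + m) F q)} (hSL : S ≤ (blkR (F := F) (q := q) 2 m).range) (hgood : Good σ S) :
    Good σ (H.Q hF m ⊔ S) := by
  set R := dpre σ (H.Q hF m) with hRdef
  have hRZ : ∀ r ∈ R, σ r ∈ H.Z hF m := fun r hr => by
    refine (show R ≤ (H.Z hF m).comap σ from Subgroup.commutator_le.2 fun u hu v hv => ?_) hr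
    obtain ⟨x, hx⟩ := H.ov_of_mem hF hu
    obtain ⟨y, hy⟩ := H.ov_of_mem hF hv
    exact Ov.comm_mem hF H hx hy
  have hcR : ∀ r ∈ R, ∀ x, σ x ∈ H.Q hF m → Commute r x := fun r hr x hx => hz r (hRZ r hr) x hx
  have htQ : ∀ x, σ x ∈ H.Q hF m → σ (t * x * t⁻¹) ∈ H.Q hF m := fun x hx => by
    obtain ⟨y, hy⟩ := H.ov_of_mem hF hx
    exact Ov.mem hF H (Ov.conj hF H ht hy)
  have htc : ∀ x, σ x ∈ H.Q hF m → σ ⁅t, x⁆ ∈ H.Q hF m := fun x hx => by
    rw [commutatorElement_def, map_mul, map_inv]; exact mul_mem (htQ x hx) (inv_mem hx)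
  have hmul : ∀ x y, σ x ∈ H.Q hF m → σ y ∈ H.Q hF m →
      ∃ r ∈ R, ⁅t, x * y⁆ = ⁅t, x⁆ * ⁅t, y⁆ * r := by
    intro x y hx hy
    refine ⟨⁅t, y⁆⁻¹ * ⁅x, ⁅t, y⁆⁆ * ⁅t, y⁆, ?_, by simp only [commutatorElement_def]; group⟩
    have h1 : ⁅x, ⁅t, y⁆⁆ ∈ R := Subgroup.commutator_mem_commutator hx (htc y hy)
    rw [mul_assoc, (hcR _ h1 _ (htc y hy)).eq, inv_mul_cancel_left]
    exact h1
  let Q₁ : Subgroup Γ :=
    { carrier := {g | ∃ x, σ x ∈ H.Q hF m ∧ ∃ r ∈ R, g = ⁅t, x⁆ * r}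
      one_mem' := ⟨1, by rw [map_one]; exact one_mem _, 1, one_mem _, by rw [commutatorElement_one_right, one_mul]⟩
      mul_mem' := by
        rintro _ _ ⟨x, hx, r, hr, rfl⟩ ⟨y, hy, r', hr', rfl⟩
        obtain ⟨r'', hr'', e⟩ := hmul x y hx hy
        refine ⟨x * y, by rw [map_mul]; exact mul_mem hx hy, r''⁻¹ * (r * r'), mul_mem (inv_mem hr'') (mul_mem hr hr'), ?_⟩
        rw [e, mul_assoc ⁅t, x⁆ r, ← mul_assoc r ⁅t, y⁆ r', (hcR r hr _ (htc y hy)).eq]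
        group
      inv_mem' := by
        rintro _ ⟨x, hx, r, hr, rfl⟩
        have hxi : σ x⁻¹ ∈ H.Q hF m := by rw [map_inv]; exact inv_mem hx
        obtain ⟨r'', hr'', e⟩ := hmul x x⁻¹ hx hxi
        rw [mul_inv_cancel, commutatorElement_one_right] at e
        refine ⟨x⁻¹, hxi, r'' * r⁻¹, mul_mem hr'' (inv_mem hr), ?_⟩
        have h1 : ⁅t, x⁆⁻¹ = ⁅t, x⁻¹⁆ * r'' :=
          inv_eq_of_mul_eq_one_right (by rw [← mul_assoc]; exact e.symm)
        rw [_root_.mul_inv_rev, h1, ← mul_assoc, (hcR r⁻¹ (inv_mem hr) _ (htc _ hxi)).eq, mul_assoc,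
          (hcR r⁻¹ (inv_mem hr) r'' (H.Z_le hF (hRZ r'' hr''))).eq] }
  have hQ1 : ∀ z ∈ Q₁, σ z = 1 → z = 1 := by
    rintro _ ⟨x, hx, r, hr, rfl⟩ h1
    refine hTA x ?_ r hr h1
    obtain ⟨y, hy⟩ := H.ov_of_mem hF hx
    obtain ⟨b, hb, er⟩ := hRZ r hr
    obtain ⟨d, hd, e⟩ := Ov.mul hF H (Ov.mul hF H (Ov.conj hF H ht hy) (Ov.inv hF H hy))
      (show H.Ov hF σ r 0 from ⟨b, hb, er⟩)
    rw [← commutatorElement_def, h1, ← H.root_one hF] at e
    obtain ⟨h0, -⟩ := H.root_inj hF (ha := adm_zero hF) (ha' := hd) e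
    rw [add_zero, hwt, ← sub_eq_add_neg, ← sub_one_smul_eq] at h0
    · obtain ⟨a, ha, ex⟩ := hy
      have hy0 : y = 0 := by
        rcases smul_eq_zero.1 h0.symm with h | h
        · exact absurd (sub_eq_zero.1 h) hw
        · exact h
      subst hy0
      exact ⟨a, ha, ex⟩
  have hQsub : H.Q hF m ≤ Q₁.map σ := by
    refine H.Q_le_of_lines hF hm fun i s => ?_
    obtain ⟨u, hu⟩ := H.exists_ov hF hs hc (Pi.single i (s / (w - 1)))
    obtain ⟨a, ha, e⟩ := Ov.mul hF H (Ov.conj hF H ht hu) (Ov.inv hF H hu)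
    rw [← commutatorElement_def] at e
    have hx : ct ^ q • T (Pi.single i (s / (w - 1))) + -Pi.single i (s / (w - 1)) = (Pi.single i s : Fin m → F) := by
      rw [hwt, ← sub_eq_add_neg, ← sub_one_smul_eq, ← Pi.single_smul, smul_eq_mul,
        mul_div_cancel₀ _ (sub_ne_zero.2 hw)]
    refine ⟨a, hx ▸ ha, ⟨⁅t, u⁆ * 1, ⟨u, Ov.mem hF H hu, 1, one_mem _, rfl⟩, ?_⟩⟩
    rw [mul_one, e]
    exact H.root_congr hF hx rfl
  have hconj : ∀ g : Γ, σ g ∈ S → ∀ z ∈ Q₁, g * z * g⁻¹ ∈ Q₁ := by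
    rintro g hg _ ⟨x, hx, r, hr, rfl⟩
    obtain ⟨a, ha⟩ := hSL hg
    have hgl : H.IsLev (σ g) 1 (sv a) := ha ▸ H.isLev_blkR hF a
    have hgQ : ∀ k ∈ H.Q hF m, σ g * k * (σ g)⁻¹ ∈ H.Q hF m := by
      rintro _ ⟨y, b, hb, rfl⟩
      exact ⟨_, _, _, IsLev.conj hF H hgl y b hb⟩
    have hgt : σ (g * t * g⁻¹) = σ t := by
      rw [map_mul, map_mul, map_inv, mul_inv_eq_iff_eq_mul]
      exact IsLev.commute hF H hgl ht fun z => (hTL a z).symm
    refine ⟨g * x * g⁻¹, by rw [map_mul, map_mul, map_inv]; exact hgQ _ hx, g * r * g⁻¹,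
      conj_mem_dpre g hgQ hr, ?_⟩
    rw [← commutator_congr hc hgt (rfl : σ (g * x * g⁻¹) = _)]
    simp only [commutatorElement_def]
    group
  set Y := dpre σ S with hYdef
  have hYS : ∀ y ∈ Y, σ y ∈ S := fun y hy => dpre_le_comap (σ := σ) _ hy
  have hnormY : Y ≤ Subgroup.normalizer (Q₁ : Set Γ) := by
    intro y hy
    rw [Subgroup.mem_normalizer_iff]
    refine fun z => ⟨hconj y (hYS y hy) z, fun h => ?_⟩
    have := hconj y⁻¹ (by rw [map_inv]; exact inv_mem (hYS y hy)) _ h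
    rwa [inv_inv, ← mul_assoc, ← mul_assoc, inv_mul_cancel, one_mul, inv_mul_cancel_right] at this
  have hle : dpre σ (H.Q hF m ⊔ S) ≤ Q₁ ⊔ Y := by
    refine dpre_le_of_split hs hc (T := S.comap σ) ?_ le_sup_right fun s hs' => ?_
    · intro g hg x hx
      have : (Q₁ ⊔ Y).map (MulAut.conj g).toMonoidHom ≤ Q₁ ⊔ Y := by
        rw [Subgroup.map_sup]
        refine sup_le_sup ?_ ?_ <;> rintro _ ⟨z, hz', rfl⟩
        · exact hconj g hg z hz'
        · exact conj_mem_dpre g (fun k hk => mul_mem (mul_mem hg hk) (inv_mem hg)) hz'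
      exact this ⟨x, hx, rfl⟩
    · have hnS : S ≤ Subgroup.normalizer (H.Q hF m : Set (SU (2 + m) F q)) := by
        intro k hk
        obtain ⟨a, rfl⟩ := hSL hk
        refine Subgroup.mem_normalizer_fintype fun y hy => ?_
        obtain ⟨y, b, hb, rfl⟩ := hy
        exact ⟨_, _, _, IsLev.conj hF H (H.isLev_blkR hF a) y b hb⟩
      have hk : s ∈ (↑(H.Q hF m ⊔ S) : Set (SU (2 + m) F q)) := hs'
      rw [Subgroup.coe_mul_of_right_le_normalizer_left _ _ hnS] at hk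
      obtain ⟨k, hk, l, hl, rfl⟩ := hk
      obtain ⟨x, hx, rfl⟩ := hQsub hk
      obtain ⟨y, rfl⟩ := hs l
      exact ⟨x, Subgroup.mem_sup_left hx, y, hl, map_mul σ x y⟩
  rw [Good, Subgroup.eq_bot_iff_forall]
  rintro z ⟨hzk, hzd⟩
  have hz' : z ∈ (↑(Q₁ ⊔ Y) : Set Γ) := hle hzd
  rw [Subgroup.coe_mul_of_right_le_normalizer_left _ _ hnormY] at hz'
  obtain ⟨x, hx, y, hy, rfl⟩ := hz'
  obtain ⟨x', hx', r, hr, rfl⟩ := hx
  show ⁅t, x'⁆ * r * y = 1
  have hxQ : σ (⁅t, x'⁆ * r) ∈ H.Q hF m := by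
    rw [map_mul]; exact mul_mem (htc x' hx') (H.Z_le hF (hRZ r hr))
  have hk' : σ (⁅t, x'⁆ * r) * σ y = 1 := by rw [← map_mul]; exact hzk
  have h1 : σ (⁅t, x'⁆ * r) = 1 := H.eq_one_of_mem_Q hF hxQ (by
    rw [eq_inv_of_mul_eq_one_left hk']
    exact inv_mem (hSL (hYS y hy)))
  rw [hQ1 _ ⟨x', hx', r, hr, rfl⟩ h1, one_mul]
  rw [h1, one_mul] at hk'
  exact (Subgroup.eq_bot_iff_forall _).1 hgood y ⟨hk', hy⟩

end HypPair

end Cfsg.Agent.H46.SUMult
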